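import Cfsg.Agent.Lib.KnownSimple.MultC.MatN
import Cfsg.Prelude.Def_Chevalley

/-!
# Presentations of Chevalley groups over small fields
-/

set_option autoImplicit false

namespace Cfsg.Agent.Lib.KnownSimple.MultC.ChevP

open Cfsg Cfsg.Lie Cfsg.Agent.Lib.Compute Cfsg.Agent.Lib.KnownSimple.MultC MatN
open scoped Matrix MatrixGroups

variable (D : ChevalleyDatum)

/-- The coordinates as numbers. -/
def ordD : D.Idx → ℕ
  | Sum.inl i => i.val
  | Sum.inr s => D.rank + s.val

theorem ordD_lt (i : D.Idx) : ordD D i < D.rank + D.nroots := by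
  rcases i with i | s
  · have := i.2
    show i.val < _
    omega
  · have := s.2
    show D.rank + s.val < _
    omega

theorem ordD_inj : Function.Injective (ordD D) := by
  rintro (a | a) (b | b) h
  · have : a.val = b.val := h
    rw [Fin.ext this]
  · have h1 : a.val = D.rank + b.val := h
    have := a.2
    omega
  · have h1 : D.rank + a.val = b.val := h
    have := b.2
    omega
  · have h1 : D.rank + a.val = D.rank + b.val := h
    have : a.val = b.val := by omega
    rw [Fin.ext this]

theorem ordD_sum {R : Type} [CommRing R] (f : ℕ → R) :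
    ∑ i, f (ordD D i) = ∑ j ∈ Finset.range (D.rank + D.nroots), f j := by
  rw [Fintype.sum_sum_type, Finset.sum_range_add]
  congr 1
  · rw [Finset.sum_range]
    rfl
  · rw [Finset.sum_range]
    rfl

variable {R : Type} [Field R]

/-- The matrix of an element. -/
def PhiD : ↥(D.group R) →* Matrix D.Idx D.Idx R :=
  (Units.coeHom (Matrix D.Idx D.Idx R)).comp (D.group R).subtype

theorem PhiD_inj : Function.Injective (PhiD (R := R) D) := by
  intro a b h
  exact Subtype.ext (Units.ext h)

section main

variable (F : FC R) (q : ℕ) (hq : 0 < q)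
  (hx : ∀ (r : Fin D.nroots) (t : R), ∃ g : GL D.Idx R, (g : Matrix D.Idx D.Idx R) = D.xMat R r t)

/-- The root elements. -/
noncomputable def rootEl (l : ℕ) : ↥(D.group R) :=
  if h : l / q < D.nroots then
    ⟨(hx ⟨l / q, h⟩ (F.c (l % q))).choose, Subgroup.subset_closure ⟨⟨l / q, h⟩, F.c (l % q), (hx ⟨l / q, h⟩ (F.c (l % q))).choose_spec⟩⟩
  else 1

theorem rootEl_val (l : ℕ) (h : l / q < D.nroots) :
    PhiD D (rootEl D F q hx l) = D.xMat R ⟨l / q, h⟩ (F.c (l % q)) := by
  unfold rootEl
  rw [dif_pos h]
  exact (hx ⟨l / q, h⟩ (F.c (l % q))).choose_spec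

include hx hq in
theorem exists_equiv {P : Type} [Group P] [Finite P] {d : ℕ} {v : ℕ → P} {rels : List (List ℕ)} (hP : IsPres d v rels)
    (RT : ℕ → List (List ℕ)) (TM : List (List (List ℕ))) (gW : List (List ℕ)) (uW : ℕ → List ℕ)
    (hRT : ∀ (r : Fin D.nroots) (k : ℕ), k < q → toM F (ordD D) (RT (r.val * q + k)) = D.xMat R r (F.c k))
    (hc : ∀ t : R, ∃ k, k < q ∧ F.c k = t)
    (c1 : allBelow (fun l => shapeOK (D.rank + D.nroots) (RT l)) (D.nroots * q) = true)
    (c2 : allBelow (fun x => shapeOK (D.rank + D.nroots) (lg [] TM x)) d = true)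
    (c3 : allBelow (fun x => (lg [] gW x).all fun l => Nat.blt l (D.nroots * q)) d = true)
    (c4 : allBelow (fun x => allBelow (fun j => Nat.beq (actN F.add F.mul F.b RT (lg [] gW x) (F.b ^ j)) (colC F.b (lg [] TM x) j))
      (D.rank + D.nroots)) d = true)
    (c5 : allBelow (fun x => allBelow (fun j => Nat.beq (actN F.add F.mul F.b (fun l => lg [] TM (l / 2)) [2 * x, 2 * x] (F.b ^ j)) (F.b ^ j))
      (D.rank + D.nroots)) d = true)
    (c6w : ∀ r ∈ rels, ∀ l ∈ r, l < 2 * d)
    (c6 : rels.all (fun r => allBelow (fun j => Nat.beq (actN F.add F.mul F.b (fun l => lg [] TM (l / 2)) r (F.b ^ j)) (F.b ^ j))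
      (D.rank + D.nroots)) = true)
    (c7w : allBelow (fun l => (uW l).all fun a => Nat.blt a (2 * d)) (D.nroots * q) = true)
    (c7 : allBelow (fun l => allBelow (fun j => Nat.beq (actN F.add F.mul F.b (fun l => lg [] TM (l / 2)) (uW l) (F.b ^ j)) (colC F.b (RT l) j))
      (D.rank + D.nroots)) (D.nroots * q) = true)
    (hle : Nat.card P ≤ Nat.card ↥(D.group R)) :
    ∃ e : P ≃* ↥(D.group R), ∀ x, x < d →
      PhiD D (e (v x)) = toM F (ordD D) (lg [] TM x) := by
  classical
  set n := D.rank + D.nroots with hn
  have hlt : ∀ i, ordD D i < n := ordD_lt D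
  have hinj := ordD_inj D
  have hord : ∀ f : ℕ → R, ∑ i, f (ordD D i) = ∑ j ∈ Finset.range n, f j := ordD_sum D
  have hs1 : ∀ l, l < D.nroots * q → shapeOK n (RT l) = true := (allBelow_iff _ _).1 c1
  have hs2 : ∀ x, x < d → shapeOK n (lg [] TM x) = true := (allBelow_iff _ _).1 c2
  -- the values of the root elements
  have hroot : ∀ l, l < D.nroots * q → PhiD D (rootEl D F q hx l) = toM F (ordD D) (RT l) := by
    intro l hl
    have h1 : l / q < D.nroots := Nat.div_lt_of_lt_mul (by rwa [mul_comm])
    rw [rootEl_val D F q hx l h1]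
    have h2 := hRT ⟨l / q, h1⟩ (l % q) (Nat.mod_lt _ hq)
    have e : (l / q) * q + l % q = l := Nat.div_add_mod' l q
    simp only [e] at h2
    exact h2.symm
  -- the generators
  let g : ℕ → ↥(D.group R) := fun x => ((lg [] gW x).map (rootEl D F q hx)).prod
  have hg : ∀ x, x < d → PhiD D (g x) = toM F (ordD D) (lg [] TM x) := by
    intro x hx'
    have hb : ∀ l ∈ lg [] gW x, l < D.nroots * q := by
      intro l hl
      have := List.all_eq_true.1 ((allBelow_iff _ _).1 c3 x hx') l hl
      exact Nat.le_of_ble_eq_true this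
    have h1 := MatN.word_eq F (ordD D) hlt hinj hord (T := RT) (w := lg [] gW x) (rows := lg [] TM x)
      (fun l hl => hs1 l (hb l hl)) (by
        have := hs2 x hx'
        unfold shapeOK at this
        rw [Bool.and_eq_true] at this
        exact Nat.eq_of_beq_eq_true this.1) ((allBelow_iff _ _).1 c4 x hx')
    rw [← h1]
    show PhiD D ((lg [] gW x).map (rootEl D F q hx)).prod = _
    rw [map_list_prod, List.map_map]
    apply congrArg List.prod
    apply List.map_congr_left
    intro l hl
    exact hroot l (hb l hl)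
  have hsT : ∀ l, l < 2 * d → shapeOK n (lg [] TM (l / 2)) = true := fun l hl => hs2 _ (by omega)
  -- the generators are involutions
  have hinv : ∀ x, x < d → (g x)⁻¹ = g x := by
    intro x hx'
    have h1 := MatN.word_one F (ordD D) hlt hinj hord (T := fun l => lg [] TM (l / 2)) (w := [2 * x, 2 * x]) (by
      intro l hl
      simp only [List.mem_cons, List.not_mem_nil, or_false, or_self] at hl
      subst hl
      exact hsT _ (by omega)) ((allBelow_iff _ _).1 c5 x hx')
    have e : (2 * x) / 2 = x := by omega
    simp only [List.map_cons, List.map_nil, List.prod_cons, List.prod_nil, mul_one, e] at h1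
    have h2 : PhiD D (g x * g x) = 1 := by
      rw [map_mul, hg x hx']
      exact h1
    have h3 : g x * g x = 1 := PhiD_inj D (by rw [h2, map_one])
    exact inv_eq_of_mul_eq_one_left h3
  have hlet : ∀ l, l < 2 * d → PhiD D (lv g l) = toM F (ordD D) (lg [] TM (l / 2)) := by
    intro l hl
    have h2 : l / 2 < d := by omega
    unfold lv
    split_ifs
    · exact hg _ h2
    · rw [hinv _ h2]
      exact hg _ h2
  have hword : ∀ w : List ℕ, (∀ l ∈ w, l < 2 * d) → PhiD D (ev g w) = (w.map fun l => toM F (ordD D) (lg [] TM (l / 2))).prod := by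
    intro w hw
    exact ev_mat _ g _ w (fun l hl => hlet l (hw l hl))
  -- the relations
  have hrel : ∀ r ∈ rels, ev g r = 1 := by
    intro r hr
    have h1 := MatN.word_one F (ordD D) hlt hinj hord (T := fun l => lg [] TM (l / 2)) (w := r)
      (fun l hl => hsT l (c6w r hr l hl)) (List.all_eq_true.1 c6 r hr)
    apply PhiD_inj D
    rw [map_one, hword r (c6w r hr), h1]
  obtain ⟨f, hf⟩ := hP.huniv _ g hrel
  have hfw : ∀ w : List ℕ, (∀ l ∈ w, l < 2 * d) → f (ev v w) = ev g w := by
    intro w hw
    induction w with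
    | nil => simp
    | cons l w ih =>
      rw [ev_cons, ev_cons, map_mul, ih (fun a ha => hw a (List.mem_cons_of_mem _ ha))]
      congr 1
      have h2 : l / 2 < d := by
        have := hw l List.mem_cons_self
        omega
      unfold lv
      split_ifs
      · exact hf _ h2
      · rw [map_inv, hf _ h2]
  -- surjectivity
  have hrange : ∀ l, l < D.nroots * q → rootEl D F q hx l ∈ f.range := by
    intro l hl
    have hb : ∀ a ∈ uW l, a < 2 * d := by
      intro a ha
      have := List.all_eq_true.1 ((allBelow_iff _ _).1 c7w l hl) a ha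
      exact Nat.le_of_ble_eq_true this
    have hr : (RT l).length = n := by
      have := hs1 l hl
      unfold shapeOK at this
      rw [Bool.and_eq_true] at this
      exact Nat.eq_of_beq_eq_true this.1
    have h1 := MatN.word_eq F (ordD D) hlt hinj hord (T := fun l => lg [] TM (l / 2)) (w := uW l) (rows := RT l)
      (fun a ha => hsT a (hb a ha)) hr ((allBelow_iff _ _).1 c7 l hl)
    refine ⟨ev v (uW l), ?_⟩
    rw [hfw _ hb]
    apply PhiD_inj D
    rw [hword _ hb, h1, hroot l hl]
  have hs : Function.Surjective f := by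
    have hall : ∀ y ∈ D.group R, ∀ (hy : y ∈ D.group R), (⟨y, hy⟩ : ↥(D.group R)) ∈ f.range := by
      intro y hy
      induction hy using Subgroup.closure_induction with
      | mem a ha =>
        intro hy
        obtain ⟨r, t, ht⟩ := ha
        obtain ⟨k, hk, rfl⟩ := hc t
        have hl : r.val * q + k < D.nroots * q := by
          have h1 : r.val + 1 ≤ D.nroots := r.2
          calc r.val * q + k < r.val * q + q := by omega
            _ = (r.val + 1) * q := by ring
            _ ≤ D.nroots * q := Nat.mul_le_mul_right _ h1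
        have h2 := hrange _ hl
        have h3 := hroot _ hl
        rw [hRT r k hk] at h3
        have h4 : rootEl D F q hx (r.val * q + k) = ⟨a, hy⟩ := by
          apply PhiD_inj D
          rw [h3]
          exact ht.symm
        rwa [h4] at h2
      | one =>
        intro hy
        exact f.range.one_mem
      | mul a b ha hb h1 h2 =>
        intro hy
        exact f.range.mul_mem (h1 ha) (h2 hb)
      | inv a ha h1 =>
        intro hy
        exact f.range.inv_mem (h1 ha)
    rintro ⟨y, hy⟩
    obtain ⟨u, hu⟩ := hall y hy hy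
    exact ⟨u, hu⟩
  have : Finite ↥(D.group R) := Finite.of_surjective f hs
  have hb : Function.Bijective f := Function.Surjective.bijective_of_nat_card_le hs hle
  refine ⟨MulEquiv.ofBijective f hb, ?_⟩
  intro x hx'
  show PhiD D (f (v x)) = _
  rw [hf x hx']
  exact hg x hx'

end main

end Cfsg.Agent.Lib.KnownSimple.MultC.ChevP
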