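import Cfsg.Agent.Lib.KnownSimple.MultC.MatN

/-!
# Presentations of commutator subgroups of matrix groups; lower bounds by chains of points
-/

set_option autoImplicit false

namespace Cfsg.Agent.Lib.KnownSimple.MultC.ComP

open Cfsg Cfsg.Agent.Lib.Compute Cfsg.Agent.Lib.KnownSimple.MultC MatN
open scoped Matrix MatrixGroups commutatorElement

section count

theorem card_step {G α : Type} [Group G] [Finite G] (S S' : Subgroup G) (hS : S' ≤ S) (φ : G → α)
    (hφ : ∀ σ ∈ S', ∀ e, φ (σ * e) = φ e) (es : List G) (hes : ∀ e ∈ es, e ∈ S) (hn : (es.map φ).Nodup) :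
    es.length * Nat.card S' ≤ Nat.card S := by
  classical
  let F : Fin es.length × S' → S := fun p =>
    ⟨(p.2 : G) * es.get p.1, S.mul_mem (hS p.2.2) (hes _ (List.get_mem _ _))⟩
  have hF : Function.Injective F := by
    rintro ⟨k, σ⟩ ⟨k', σ'⟩ h
    have h1 : (σ : G) * es.get k = σ' * es.get k' := congrArg Subtype.val h
    have h2 : φ (es.get k) = φ (es.get k') := by
      rw [← hφ σ σ.2, h1, hφ σ' σ'.2]
    have hk : k = k' := by
      apply Fin.ext
      have h3 := (List.Nodup.getElem_inj_iff hn (i := k.val) (j := k'.val)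
        (hi := by simp) (hj := by simp)).1 (by simpa using h2)
      exact h3
    subst hk
    have h4 : (σ : G) = σ' := mul_right_cancel h1
    rw [Subtype.ext h4]
  have h5 := Nat.card_le_card_of_injective F hF
  rw [Nat.card_prod] at h5
  simpa using h5

/-- Numbers in increasing order. -/
def ascF : ℕ → List ℕ → Bool
  | _, [] => true
  | m, x :: l => Nat.ble m x && ascF (x + 1) l

theorem ascF_nodup : ∀ (l : List ℕ) (m : ℕ), ascF m l = true → (∀ x ∈ l, m ≤ x) ∧ l.Nodup
  | [], _, _ => by simp
  | x :: l, m, h => by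
    simp only [ascF, Bool.and_eq_true] at h
    have h1 : m ≤ x := Nat.le_of_ble_eq_true h.1
    obtain ⟨h2, h3⟩ := ascF_nodup l (x + 1) h.2
    refine ⟨?_, ?_⟩
    · intro y hy
      rcases List.mem_cons.1 hy with rfl | hy
      · exact h1
      · have := h2 y hy
        omega
    · refine List.nodup_cons.2 ⟨fun hx => ?_, h3⟩
      have := h2 x hx
      omega

end count

section chain

variable {P : Type} [Group P] {d N : ℕ} (ρ : P →* Equiv.Perm (Fin N))

/-- The elements of the image fixing the points of a list. -/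
def St (pre : List ℕ) : Subgroup (Equiv.Perm (Fin N)) where
  carrier := {σ | σ ∈ ρ.range ∧ ∀ p (h : p < N), p ∈ pre → σ ⟨p, h⟩ = ⟨p, h⟩}
  mul_mem' := by
    rintro a b ⟨h1, h2⟩ ⟨h3, h4⟩
    refine ⟨ρ.range.mul_mem h1 h3, fun p h hp => ?_⟩
    rw [Equiv.Perm.mul_apply, h4 p h hp, h2 p h hp]
  one_mem' := ⟨ρ.range.one_mem, fun _ _ _ => rfl⟩
  inv_mem' := by
    rintro a ⟨h1, h2⟩
    refine ⟨ρ.range.inv_mem h1, fun p h hp => ?_⟩
    rw [Equiv.Perm.inv_eq_iff_eq, h2 p h hp]

/-- The check of a chain of points. -/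
noncomputable def chkChain (τ : ℕ → ℕ → ℕ) (d N : ℕ) : List ℕ → List (ℕ × List (List ℕ)) → Bool
  | _, [] => true
  | pre, (b, es) :: ls =>
    Nat.blt b N && (es.all fun w => (w.all fun l => Nat.blt l (2 * d)) && pre.all fun p => Nat.beq (actW τ w p) p) &&
      ascF 0 (es.map fun w => actW τ w b) && chkChain τ d N (b :: pre) ls

/-- The product of the lengths. -/
def prodLen : List (ℕ × List (List ℕ)) → ℕ
  | [] => 1
  | (_, es) :: ls => es.length * prodLen ls

variable {g : ℕ → P} (C : Coset d N) (hρ : ∀ x, x < d → ρ (g x) = (C.p x)⁻¹)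

include hρ in
theorem chain_lower : ∀ (ls : List (ℕ × List (List ℕ))) (pre : List ℕ), (∀ p ∈ pre, p < N) →
    chkChain C.τ d N pre ls = true → prodLen ls ≤ Nat.card (St ρ pre)
  | [], pre, _, _ => by
    show 1 ≤ _
    exact Nat.card_pos
  | (b, es) :: ls, pre, hpre, h => by
    simp only [chkChain, Bool.and_eq_true] at h
    obtain ⟨⟨⟨h1, h2⟩, h3⟩, h4⟩ := h
    have hb : b < N := Nat.le_of_ble_eq_true h1
    have ih := chain_lower ls (b :: pre) (by
      intro p hp
      rcases List.mem_cons.1 hp with rfl | hp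
      · exact hb
      · exact hpre p hp) h4
    have hw : ∀ w ∈ es, ∀ l ∈ w, l < 2 * d := by
      intro w hw l hl
      have := List.all_eq_true.1 h2 w hw
      rw [Bool.and_eq_true] at this
      exact Nat.le_of_ble_eq_true (List.all_eq_true.1 this.1 l hl)
    have hact : ∀ w ∈ es, ∀ i : Fin N, (((ρ (ev g w))⁻¹ i : Fin N) : ℕ) = actW C.τ w i.1 :=
      fun w hww i => act_rho C hρ w (hw w hww) i
    have hS : St ρ (b :: pre) ≤ St ρ pre := by
      rintro σ ⟨h5, h6⟩
      exact ⟨h5, fun p h hp => h6 p h (List.mem_cons_of_mem _ hp)⟩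
    have hstep := card_step (St ρ pre) (St ρ (b :: pre)) hS (fun σ => ((σ⁻¹ ⟨b, hb⟩ : Fin N) : ℕ))
      (by
        rintro σ ⟨_, h6⟩ e
        have h7 : σ⁻¹ ⟨b, hb⟩ = ⟨b, hb⟩ := by
          rw [Equiv.Perm.inv_eq_iff_eq, h6 b hb List.mem_cons_self]
        show (((σ * e)⁻¹ ⟨b, hb⟩ : Fin N) : ℕ) = _
        rw [mul_inv_rev, Equiv.Perm.mul_apply, h7])
      (es.map fun w => ρ (ev g w))
      (by
        intro e he
        obtain ⟨w, hww, rfl⟩ := List.mem_map.1 he
        refine ⟨⟨ev g w, rfl⟩, fun p h hp => ?_⟩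
        have h5 := List.all_eq_true.1 h2 w hww
        rw [Bool.and_eq_true] at h5
        have h6 : actW C.τ w p = p := Nat.eq_of_beq_eq_true (List.all_eq_true.1 h5.2 p hp)
        have h7 := hact w hww ⟨p, h⟩
        rw [h6] at h7
        have h8 : (ρ (ev g w))⁻¹ ⟨p, h⟩ = ⟨p, h⟩ := Fin.ext h7
        rw [Equiv.Perm.inv_eq_iff_eq] at h8
        exact h8.symm)
      (by
        have h5 := (ascF_nodup _ _ h3).2
        rw [List.map_map]
        convert h5 using 1
        apply List.map_congr_left
        intro w hww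
        exact hact w hww ⟨b, hb⟩)
    rw [List.length_map] at hstep
    show es.length * prodLen ls ≤ _
    exact (Nat.mul_le_mul_left _ ih).trans hstep

theorem St_nil : St ρ [] = ρ.range := by
  ext σ
  constructor
  · exact fun h => h.1
  · exact fun h => ⟨h, fun _ _ hp => absurd hp (List.not_mem_nil)⟩

include hρ in
/-- A lower bound by a chain gives the order of the group and that the action is faithful. -/
theorem inj_of_chain [Finite P] (ls : List (ℕ × List (List ℕ))) {c : ℕ} (hc : prodLen ls = c)
    (h : chkChain C.τ d N [] ls = true) (hle : Nat.card P ≤ c) :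
    Function.Injective ρ ∧ Nat.card P = c := by
  have h1 := chain_lower ρ C hρ ls [] (by simp) h
  rw [St_nil, hc] at h1
  have h2 : Nat.card ρ.range ≤ Nat.card P := Nat.card_le_card_of_surjective _ ρ.rangeRestrict_surjective
  have h3 : Function.Bijective ρ.rangeRestrict := by
    apply Function.Surjective.bijective_of_nat_card_le ρ.rangeRestrict_surjective
    omega
  refine ⟨?_, by omega⟩
  intro a b hab
  exact h3.1 (Subtype.ext hab)

end chain

section digits

theorem eq_of_dig_eq {b : ℕ} (hb : 1 < b) : ∀ (n x y : ℕ), x < b ^ n → y < b ^ n →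
    (∀ j, j < n → dig b x j = dig b y j) → x = y
  | 0, x, y, hx, hy, _ => by simp at hx hy; omega
  | n + 1, x, y, hx, hy, h => by
    have hb0 : 0 < b := by omega
    have h0 : x % b = y % b := h 0 (by omega)
    have h1 : x / b = y / b := by
      apply eq_of_dig_eq hb n
      · rw [pow_succ] at hx
        exact Nat.div_lt_of_lt_mul (by rwa [mul_comm] at hx)
      · rw [pow_succ] at hy
        exact Nat.div_lt_of_lt_mul (by rwa [mul_comm] at hy)
      · intro j hj
        exact h (j + 1) (by omega)
    rw [← Nat.div_add_mod x b, ← Nat.div_add_mod y b, h0, h1]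

theorem dig_lt2 (z k : ℕ) : dig 2 z k < 2 := by
  induction k generalizing z with
  | zero => exact Nat.mod_lt _ (by norm_num)
  | succ k ih => exact ih _

theorem dig_bit (z k : ℕ) : dig 2 z k = (z.testBit k).toNat := by
  induction k generalizing z with
  | zero =>
    show z % 2 = _
    rw [Nat.testBit_zero]
    rcases Nat.mod_two_eq_zero_or_one z with h | h <;> simp [h]
  | succ k ih =>
    show dig 2 (z / 2) k = _
    rw [ih, Nat.testBit_succ]

/-- The parity of a number, in the field. -/
abbrev c2 (a : ℕ) : ZMod 2 := (a : ZMod 2)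

theorem c_xor (a b k : ℕ) : c2 (dig 2 (Nat.xor a b) k) = c2 (dig 2 a k) + c2 (dig 2 b k) := by
  rw [dig_bit, dig_bit, dig_bit]
  show c2 ((a ^^^ b).testBit k).toNat = _
  rw [Nat.testBit_xor]
  cases a.testBit k <;> cases b.testBit k <;> decide

theorem c_mul2 (x c k : ℕ) : c2 (dig 2 (Nat.mul (Nat.mod x 2) c) k) = c2 (dig 2 c k) * c2 (dig 2 x 0) := by
  show c2 (dig 2 ((x % 2) * c) k) = c2 (dig 2 c k) * c2 (x % 2)
  rcases Nat.mod_two_eq_zero_or_one x with h | h
  · rw [h, zero_mul, dig_zero_left]
    simp
  · rw [h, one_mul]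
    simp

/-- A matrix over the field with two elements, given by its columns, times a vector of bits. -/
noncomputable def colMul : List ℕ → ℕ → ℕ :=
  fun cols => List.rec (fun _ => 0) (fun c _ ih x => Nat.xor (Nat.mul (Nat.mod x 2) c) (fN (Nat.div x 2) ih)) cols

/-- A word of matrices times a vector of bits. -/
noncomputable def actC (T : ℕ → List ℕ) (w : List ℕ) (x : ℕ) : ℕ :=
  List.rec x (fun l _ ih => fN ih fun y => colMul (T l) y) w

theorem colMul_dig (cols : List ℕ) (x k : ℕ) :
    c2 (dig 2 (colMul cols x) k) = ∑ j ∈ Finset.range cols.length, c2 (dig 2 (lg 0 cols j) k) * c2 (dig 2 x j) := by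
  induction cols generalizing x with
  | nil =>
    show c2 (dig 2 0 k) = _
    rw [dig_zero_left]
    simp
  | cons c cs ih =>
    have e : colMul (c :: cs) x = Nat.xor (Nat.mul (Nat.mod x 2) c) (fN (Nat.div x 2) (colMul cs)) := rfl
    rw [e, fN_eq, c_xor, c_mul2, ih, List.length_cons, Finset.sum_range_succ', add_comm]
    rfl

variable {ι : Type} [Fintype ι] [DecidableEq ι] (ord : ι → ℕ) {n : ℕ}

/-- The matrix of a list of columns. -/
noncomputable def toMC (cols : List ℕ) : Matrix ι ι (ZMod 2) := fun i j => c2 (dig 2 (lg 0 cols (ord j)) (ord i))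

/-- The vector of a number. -/
noncomputable def vecB (x : ℕ) : ι → ZMod 2 := fun i => c2 (dig 2 x (ord i))

omit [Fintype ι] [DecidableEq ι] in
theorem vecB_inj (hsurj : ∀ j, j < n → ∃ i, ord i = j) {x y : ℕ} (hx : x < 2 ^ n) (hy : y < 2 ^ n)
    (h : vecB ord x = vecB ord y) : x = y := by
  refine eq_of_dig_eq (by norm_num) n x y hx hy fun j hj => ?_
  obtain ⟨i, rfl⟩ := hsurj j hj
  have h1 : c2 (dig 2 x (ord i)) = c2 (dig 2 y (ord i)) := congrFun h i
  have h2 := dig_lt2 x (ord i)
  have h3 := dig_lt2 y (ord i)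
  revert h1
  generalize dig 2 x (ord i) = a at *
  generalize dig 2 y (ord i) = b at *
  interval_cases a <;> interval_cases b <;> first | (intro _; rfl) | (intro h; exact absurd h (by decide))

variable (hlt : ∀ i, ord i < n) (hinj : Function.Injective ord)
  (hord : ∀ f : ℕ → ZMod 2, ∑ i, f (ord i) = ∑ j ∈ Finset.range n, f j)

include hord in
omit hlt in
theorem vec_stepC {cols : List ℕ} (hs : cols.length = n) (x : ℕ) :
    vecB ord (colMul cols x) = toMC ord cols *ᵥ vecB ord x := by
  ext i
  show c2 (dig 2 (colMul cols x) (ord i)) = ∑ j, c2 (dig 2 (lg 0 cols (ord j)) (ord i)) * c2 (dig 2 x (ord j))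
  rw [colMul_dig, hs]
  exact (hord (fun j => c2 (dig 2 (lg 0 cols j) (ord i)) * c2 (dig 2 x j))).symm

include hord in
theorem vec_actC {T : ℕ → List ℕ} {w : List ℕ} (hs : ∀ l ∈ w, (T l).length = n) (x : ℕ) :
    vecB ord (actC T w x) = (w.map fun l => toMC ord (T l)).prod *ᵥ vecB ord x := by
  induction w with
  | nil =>
    show vecB ord x = _
    simp
  | cons l w ih =>
    have e : actC T (l :: w) x = fN (actC T w x) fun y => colMul (T l) y := rfl
    rw [e, fN_eq, vec_stepC ord hord (hs l List.mem_cons_self), ih (fun a ha => hs a (List.mem_cons_of_mem _ ha))]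
    rw [List.map_cons, List.prod_cons, Matrix.mulVec_mulVec]

include hinj in
theorem vec_powC (i : ι) : vecB ord (2 ^ ord i) = Pi.single i 1 := by
  ext k
  show c2 (dig 2 (2 ^ ord i) (ord k)) = _
  rw [dig_pow (by norm_num)]
  by_cases h : k = i
  · subst h
    simp
  · have : ord k ≠ ord i := fun e => h (hinj e)
    rw [if_neg this, Pi.single_eq_of_ne h]
    simp

include hlt hinj hord in
theorem word_eq2C {T : ℕ → List ℕ} {w1 w2 : List ℕ} (hs1 : ∀ l ∈ w1, (T l).length = n)
    (hs2 : ∀ l ∈ w2, (T l).length = n)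
    (hall : allBelow (fun j => Nat.beq (actC T w1 (2 ^ j)) (actC T w2 (2 ^ j))) n = true) :
    (w1.map fun l => toMC ord (T l)).prod = (w2.map fun l => toMC ord (T l)).prod := by
  ext k i
  have h1 := Nat.eq_of_beq_eq_true ((allBelow_iff _ _).1 hall (ord i) (hlt i))
  have h2 := vec_actC ord hord hs1 (2 ^ ord i)
  have h3 := vec_actC ord hord hs2 (2 ^ ord i)
  rw [h1, h3, vec_powC ord hinj] at h2
  have h4 := congrFun h2 k
  rw [Matrix.mulVec_single_one, Matrix.mulVec_single_one] at h4
  exact h4.symm

include hlt hinj hord in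
theorem word_eqC {T : ℕ → List ℕ} {w : List ℕ} {cols : List ℕ} (hs : ∀ l ∈ w, (T l).length = n)
    (hall : allBelow (fun j => Nat.beq (actC T w (2 ^ j)) (lg 0 cols j)) n = true) :
    (w.map fun l => toMC ord (T l)).prod = toMC ord cols := by
  ext k i
  have h1 := Nat.eq_of_beq_eq_true ((allBelow_iff _ _).1 hall (ord i) (hlt i))
  have h2 := vec_actC ord hord hs (2 ^ ord i)
  rw [h1, vec_powC ord hinj] at h2
  have h4 := congrFun h2 k
  rw [Matrix.mulVec_single_one] at h4
  exact h4.symm

end digits

theorem vec_inj_of_asc {vec : ℕ → ℕ} {N0 : ℕ}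
    (h : allBelow (fun i => Nat.blt (vec i) (vec (i + 1))) (N0 - 1) = true) :
    ∀ i j, i < N0 → j < N0 → vec i = vec j → i = j := by
  have hs : ∀ i k, i + k + 1 < N0 → vec i < vec (i + k + 1) := by
    intro i k
    induction k with
    | zero =>
      intro hk
      exact Nat.le_of_ble_eq_true ((allBelow_iff _ _).1 h i (by omega))
    | succ k ih =>
      intro hk
      have h1 := ih (by omega)
      have h2 : vec (i + k + 1) < vec (i + k + 1 + 1) :=
        Nat.le_of_ble_eq_true ((allBelow_iff _ _).1 h (i + k + 1) (by omega))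
      exact lt_trans h1 h2
  intro i j hi hj he
  by_contra hne
  rcases Nat.lt_or_gt_of_ne hne with hl | hl
  · have := hs i (j - i - 1) (by omega)
    rw [show i + (j - i - 1) + 1 = j by omega] at this
    omega
  · have := hs j (i - j - 1) (by omega)
    rw [show j + (i - j - 1) + 1 = i by omega] at this
    omega

section group

/-- A subgroup of index at most two, up to generators, contains the commutator subgroup. -/
theorem commutator_le_of_gen {H : Type} [Group H] (K : Subgroup H) (S : Set H) (hS : Subgroup.closure S = ⊤) (y : H)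
    (h1 : ∀ s ∈ S, s ∈ K ∨ y⁻¹ * s ∈ K) (h2 : ∀ r ∈ K, y * r * y⁻¹ ∈ K) (h3 : y * y ∈ K) : commutator H ≤ K := by
  have h2' : ∀ r ∈ K, y⁻¹ * r * y ∈ K := by
    intro r hr
    have h4 : y⁻¹ * r * y = (y * y)⁻¹ * (y * r * y⁻¹) * (y * y) := by group
    rw [h4]
    exact K.mul_mem (K.mul_mem (K.inv_mem h3) (h2 r hr)) h3
  have hyN : y ∈ Subgroup.normalizer (K : Set H) := by
    rw [Subgroup.mem_normalizer_iff]
    intro r
    constructor
    · exact h2 r
    · intro hr
      have := h2' _ hr
      have e : y⁻¹ * (y * r * y⁻¹) * y = r := by group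
      rwa [e] at this
  have hKN : K ≤ Subgroup.normalizer (K : Set H) := Subgroup.le_normalizer
  have hN : Subgroup.normalizer (K : Set H) = ⊤ := by
    rw [eq_top_iff, ← hS, Subgroup.closure_le]
    intro s hs
    rcases h1 s hs with h | h
    · exact hKN h
    · have e : s = y * (y⁻¹ * s) := by group
      rw [e]
      exact Subgroup.mul_mem _ hyN (hKN h)
  have hnorm : K.Normal := Subgroup.normalizer_eq_top_iff.1 hN
  -- the quotient is generated by the image of y
  have hz : ∀ h : H, ∃ k : ℤ, (QuotientGroup.mk h : H ⧸ K) = (QuotientGroup.mk y : H ⧸ K) ^ k := by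
    intro h
    have hh : h ∈ Subgroup.closure S := by rw [hS]; trivial
    induction hh using Subgroup.closure_induction with
    | mem s hs =>
      rcases h1 s hs with h4 | h4
      · refine ⟨0, ?_⟩
        rw [zpow_zero]
        exact (QuotientGroup.eq_one_iff s).2 h4
      · refine ⟨1, ?_⟩
        rw [zpow_one]
        exact (QuotientGroup.eq.2 h4).symm
    | one => exact ⟨0, by simp⟩
    | mul a b _ _ ha hb =>
      obtain ⟨k, hk⟩ := ha
      obtain ⟨l, hl⟩ := hb
      refine ⟨k + l, ?_⟩
      rw [zpow_add, ← hk, ← hl]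
      rfl
    | inv a _ ha =>
      obtain ⟨k, hk⟩ := ha
      refine ⟨-k, ?_⟩
      rw [zpow_neg, ← hk]
      rfl
  rw [commutator_def, Subgroup.commutator_le]
  intro a _ b _
  rw [← QuotientGroup.eq_one_iff]
  obtain ⟨k, hk⟩ := hz a
  obtain ⟨l, hl⟩ := hz b
  have : ((⁅a, b⁆ : H) : H ⧸ K) = ⁅(a : H ⧸ K), (b : H ⧸ K)⁆ := rfl
  rw [this, hk, hl, commutatorElement_eq_one_iff_mul_comm]
  exact (Commute.refl _).zpow_zpow k l

end group

section main

variable {ι : Type} [Fintype ι] [DecidableEq ι] (ord : ι → ℕ) {n : ℕ}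
  (hlt : ∀ i, ord i < n) (hinj : Function.Injective ord)
  (hord : ∀ f : ℕ → ZMod 2, ∑ i, f (ord i) = ∑ j ∈ Finset.range n, f j)
  (hsurj : ∀ j, j < n → ∃ i, ord i = j)
  {H : Type} [Group H] (Φ : H →* Matrix ι ι (ZMod 2)) (hΦ : Function.Injective Φ)
  (roots : ℕ → H) (NN : ℕ) (hgen : Subgroup.closure (roots '' {l | l < NN}) = ⊤)

/-- The table of the letters and the generators. -/
noncomputable def T4 (d : ℕ) (TM : List (List ℕ)) (RT : ℕ → List ℕ) (l : ℕ) : List ℕ :=
  bif Nat.blt l (2 * d) then lg [] TM (l / 2) else RT (l - 2 * d)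

theorem T4_lt {d : ℕ} {TM : List (List ℕ)} {RT : ℕ → List ℕ} {l : ℕ} (h : l < 2 * d) :
    T4 d TM RT l = lg [] TM (l / 2) := by
  have : Nat.blt l (2 * d) = true := by
    simp only [Nat.blt_eq]
    exact h
  simp [T4, this]

theorem T4_ge {d : ℕ} {TM : List (List ℕ)} {RT : ℕ → List ℕ} (l : ℕ) :
    T4 d TM RT (2 * d + l) = RT l := by
  have : Nat.blt (2 * d + l) (2 * d) = false := by
    rw [← Bool.not_eq_true, Nat.blt_eq]
    omega
  simp [T4, this]

/-- The test of the equality of two words. -/
noncomputable def chkW (n : ℕ) (T : ℕ → List ℕ) (w1 w2 : List ℕ) : Bool :=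
  allBelow (fun j => Nat.beq (actC T w1 (2 ^ j)) (actC T w2 (2 ^ j))) n

include hlt hinj hord hsurj hΦ hgen in
theorem exists_equiv_comm {P : Type} [Group P] [Finite P] {d : ℕ} {v : ℕ → P} {rels : List (List ℕ)} (hP : IsPres d v rels)
    (A B : ℕ → List ℕ) (hcomm : ∀ x, x < d → v x = ⁅ev v (A x), ev v (B x)⁆)
    (RT : ℕ → List ℕ) (TM : List (List ℕ)) (gW : List (List ℕ)) (uW : ℕ → List ℕ)
    (hroot : ∀ l, l < NN → Φ (roots l) = toMC ord (RT l))
    (c1 : allBelow (fun l => Nat.beq (RT l).length n) NN = true)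
    (c2' : allBelow (fun x => Nat.beq (lg [] TM x).length n) d = true)
    (c3 : allBelow (fun x => (lg [] gW x).all fun l => Nat.blt l NN) d = true)
    (c4 : allBelow (fun x => chkW n (T4 d TM RT) [2 * x] ((lg [] gW x).map fun l => 2 * d + l)) d = true)
    (c5 : allBelow (fun x => chkW n (T4 d TM RT) [2 * x, 2 * x] []) d = true)
    (R0 : List (List ℕ)) (hR0 : ∀ r ∈ rels, ∃ r₀ ∈ R0, ∃ k, r₀.rotate k = r)
    (c6w : ∀ r ∈ R0, ∀ l ∈ r, l < 2 * d)
    (c6 : R0.all (fun r => chkW n (T4 d TM RT) r []) = true)
    (ly : ℕ) (hly : ly < NN) (eps : ℕ → Bool)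
    (c7w : allBelow (fun l => (uW l).all fun a => Nat.blt a (2 * d)) NN = true)
    (c7 : allBelow (fun l => chkW n (T4 d TM RT) [2 * d + l] ((bif eps l then [2 * d + ly] else []) ++ uW l)) NN = true)
    (cW : ℕ → List ℕ) (c8w : allBelow (fun x => (cW x).all fun a => Nat.blt a (2 * d)) d = true)
    (c8 : allBelow (fun x => chkW n (T4 d TM RT) [2 * d + ly, 2 * x] (cW x ++ [2 * d + ly])) d = true)
    (wY : List ℕ) (c9w : wY.all (fun a => Nat.blt a (2 * d)) = true)
    (c9 : chkW n (T4 d TM RT) [2 * d + ly, 2 * d + ly] wY = true)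
    {N0 : ℕ} (CN : Coset d N0) (ρ0 : P →* Equiv.Perm (Fin N0)) (hρ0 : ∀ x, x < d → ρ0 (v x) = (CN.p x)⁻¹)
    (hρ0inj : Function.Injective ρ0)
    (vec : ℕ → ℕ) (hvlt : ∀ i, i < N0 → vec i < 2 ^ n) (hvinj : ∀ i j, i < N0 → j < N0 → vec i = vec j → i = j)
    (c10 : allBelow (fun x => allBelow (fun i => Nat.beq (colMul (lg [] TM x) (vec i)) (vec (CN.τ (2 * x) i))) N0) d = true) :
    Nonempty (P ≃* ↥(commutator H)) := by
  classical
  have hs1 : ∀ l, l < NN → (RT l).length = n := fun l hl => Nat.eq_of_beq_eq_true ((allBelow_iff _ _).1 c1 l hl)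
  have hs2 : ∀ x, x < d → (lg [] TM x).length = n := fun l hl => Nat.eq_of_beq_eq_true ((allBelow_iff _ _).1 c2' l hl)
  set T := T4 d TM RT with hT
  have hTs : ∀ l, l < 2 * d + NN → (T l).length = n := by
    intro l hl
    by_cases h : l < 2 * d
    · rw [hT, T4_lt h]
      exact hs2 _ (by omega)
    · obtain ⟨k, rfl⟩ : ∃ k, l = 2 * d + k := ⟨l - 2 * d, by omega⟩
      rw [hT, T4_ge]
      exact hs1 _ (by omega)
  -- the equalities of words
  have hwE : ∀ w1 w2 : List ℕ, (∀ l ∈ w1, l < 2 * d + NN) → (∀ l ∈ w2, l < 2 * d + NN) → chkW n T w1 w2 = true →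
      (w1.map fun l => toMC ord (T l)).prod = (w2.map fun l => toMC ord (T l)).prod :=
    fun w1 w2 h1 h2 h3 => word_eq2C ord hlt hinj hord (fun l hl => hTs l (h1 l hl)) (fun l hl => hTs l (h2 l hl)) h3
  let g : ℕ → H := fun x => ((lg [] gW x).map roots).prod
  have hg : ∀ x, x < d → Φ (g x) = toMC ord (lg [] TM x) := by
    intro x hx
    have hb : ∀ l ∈ lg [] gW x, l < NN := by
      intro l hl
      have := List.all_eq_true.1 ((allBelow_iff _ _).1 c3 x hx) l hl
      exact Nat.le_of_ble_eq_true this
    have h1 := hwE [2 * x] ((lg [] gW x).map fun l => 2 * d + l) (by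
      intro l hl
      simp only [List.mem_cons, List.not_mem_nil, or_false] at hl
      omega) (by
      intro l hl
      obtain ⟨a, ha, rfl⟩ := List.mem_map.1 hl
      have := hb a ha
      omega) ((allBelow_iff _ _).1 c4 x hx)
    have e1 : T (2 * x) = lg [] TM x := by
      rw [hT, T4_lt (by omega)]
      congr 1
      omega
    simp only [List.map_cons, List.map_nil, List.prod_cons, List.prod_nil, mul_one, e1, List.map_map] at h1
    rw [h1]
    show Φ ((lg [] gW x).map roots).prod = _
    rw [map_list_prod, List.map_map]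
    apply congrArg List.prod
    apply List.map_congr_left
    intro l hl
    show Φ (roots l) = toMC ord (T (2 * d + l))
    rw [hT, T4_ge]
    exact hroot l (hb l hl)
  have hMM : ∀ x, x < d → toMC ord (lg [] TM x) * toMC ord (lg [] TM x) = 1 := by
    intro x hx
    have h1 := hwE [2 * x, 2 * x] [] (by
      intro l hl
      simp only [List.mem_cons, List.not_mem_nil, or_false, or_self] at hl
      omega) (by simp) ((allBelow_iff _ _).1 c5 x hx)
    have e1 : T (2 * x) = lg [] TM x := by
      rw [hT, T4_lt (by omega)]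
      congr 1
      omega
    simpa [e1] using h1
  have hinv : ∀ x, x < d → (g x)⁻¹ = g x := by
    intro x hx
    have h2 : Φ (g x * g x) = 1 := by
      rw [map_mul, hg x hx]
      exact hMM x hx
    have h3 : g x * g x = 1 := hΦ (by rw [h2, map_one])
    exact inv_eq_of_mul_eq_one_left h3
  let E : ℕ → H := fun l => if l < 2 * d then lv g l else roots (l - 2 * d)
  have hE0 : ∀ l, l < 2 * d → E l = lv g l := fun l hl => if_pos hl
  have hE1 : ∀ l, E (2 * d + l) = roots l := by
    intro l
    show (if 2 * d + l < 2 * d then lv g (2 * d + l) else roots (2 * d + l - 2 * d)) = _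
    rw [if_neg (by omega)]
    congr 1
    omega
  have hEM : ∀ l, l < 2 * d + NN → Φ (E l) = toMC ord (T l) := by
    intro l hl
    by_cases h : l < 2 * d
    · rw [hE0 l h, hT, T4_lt h]
      unfold lv
      have h2 : l / 2 < d := by omega
      split_ifs
      · exact hg _ h2
      · rw [hinv _ h2]
        exact hg _ h2
    · obtain ⟨k, rfl⟩ : ∃ k, l = 2 * d + k := ⟨l - 2 * d, by omega⟩
      rw [hE1, hT, T4_ge]
      exact hroot k (by omega)
  have hWE : ∀ w : List ℕ, (∀ l ∈ w, l < 2 * d + NN) → Φ (w.map E).prod = (w.map fun l => toMC ord (T l)).prod := by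
    intro w hw
    rw [map_list_prod, List.map_map]
    apply congrArg List.prod
    apply List.map_congr_left
    intro l hl
    exact hEM l (hw l hl)
  have hEq : ∀ w1 w2 : List ℕ, (∀ l ∈ w1, l < 2 * d + NN) → (∀ l ∈ w2, l < 2 * d + NN) → chkW n T w1 w2 = true →
      (w1.map E).prod = (w2.map E).prod := by
    intro w1 w2 h1 h2 h3
    apply hΦ
    rw [hWE _ h1, hWE _ h2]
    exact hwE w1 w2 h1 h2 h3
  have hevE : ∀ w : List ℕ, (∀ l ∈ w, l < 2 * d) → ev g w = (w.map E).prod := by
    intro w hw
    induction w with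
    | nil => rfl
    | cons l w ih =>
      rw [ev_cons, List.map_cons, List.prod_cons, hE0 l (hw l List.mem_cons_self), ih (fun a ha => hw a (List.mem_cons_of_mem _ ha))]
  have hbd : ∀ w : List ℕ, (∀ l ∈ w, l < 2 * d) → ∀ l ∈ w, l < 2 * d + NN := fun w hw l hl => by
    have := hw l hl
    omega
  have hrel0 : ∀ r ∈ R0, ev g r = 1 := by
    intro r hr
    rw [hevE r (c6w r hr)]
    have h1 := hEq r [] (hbd r (c6w r hr)) (by simp) (List.all_eq_true.1 c6 r hr)
    simpa using h1
  have hrel : ∀ r ∈ rels, ev g r = 1 := by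
    intro r hr
    obtain ⟨r₀, hr₀, k, rfl⟩ := hR0 r hr
    rw [ev_rotate_of_central (by rw [hrel0 r₀ hr₀]; exact Subgroup.one_mem _), hrel0 r₀ hr₀]
  obtain ⟨f, hf⟩ := hP.huniv _ g hrel
  have hfw : ∀ w : List ℕ, (∀ l ∈ w, l < 2 * d) → f (ev v w) = ev g w := by
    intro w hw
    induction w with
    | nil => simp
    | cons l w ih =>
      rw [ev_cons, ev_cons, map_mul, ih (fun a ha => hw a (List.mem_cons_of_mem _ ha))]
      congr 1
      have h2 : l / 2 < d := by
        have := hw l List.mem_cons_self
        omega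
      unfold lv
      split_ifs
      · exact hf _ h2
      · rw [map_inv, hf _ h2]
  -- the injectivity
  have hvec : ∀ a : P, ∀ i : Fin N0, vecB ord (vec (ρ0 a i).val) = Φ (f a) *ᵥ vecB ord (vec i.val) := by
    intro a
    have ha : a ∈ Subgroup.closure (v '' {x | x < d}) := by
      rw [hP.hgen]
      trivial
    induction ha using Subgroup.closure_induction with
    | mem a ha =>
      obtain ⟨x, hx, rfl⟩ := ha
      have hx' : x < d := hx
      intro i
      rw [hρ0 x hx', hf x hx', hg x hx']
      set j := (CN.p x)⁻¹ i with hj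
      have h1 : CN.p x j = i := by
        rw [hj]
        simp
      have h2 : (i : ℕ) = CN.τ (2 * x) j.val := by
        rw [← h1]
        exact Coset.p_val CN hx' j
      have h3 : colMul (lg [] TM x) (vec j.val) = vec i.val := by
        rw [h2]
        exact Nat.eq_of_beq_eq_true ((allBelow_iff _ _).1 ((allBelow_iff _ _).1 c10 x hx') j.val j.2)
      have h4 := vec_stepC ord hord (hs2 x hx') (vec j.val)
      rw [h3] at h4
      rw [h4, Matrix.mulVec_mulVec, hMM x hx', Matrix.one_mulVec]
    | one =>
      intro i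
      simp
    | mul a b _ _ ha hb =>
      intro i
      rw [map_mul, Equiv.Perm.mul_apply, ha, hb, map_mul, map_mul, Matrix.mulVec_mulVec]
    | inv a _ ha =>
      intro i
      set j := (ρ0 a)⁻¹ i with hj
      have h1 : ρ0 a j = i := by
        rw [hj]
        simp
      have h2 := ha j
      rw [h1] at h2
      rw [map_inv, map_inv, h2, Matrix.mulVec_mulVec, ← map_mul, inv_mul_cancel, map_one, Matrix.one_mulVec]
  have hfinj : Function.Injective f := by
    rw [injective_iff_map_eq_one]
    intro a ha
    apply hρ0inj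
    rw [map_one]
    ext i
    have h1 := hvec a i
    rw [ha, map_one, Matrix.one_mulVec] at h1
    have h2 := vecB_inj ord hsurj (hvlt _ (ρ0 a i).2) (hvlt _ i.2) h1
    exact hvinj _ _ (ρ0 a i).2 i.2 h2
  -- the image
  have hRle : ∀ a : P, f a ∈ commutator H := by
    intro a
    have ha : a ∈ Subgroup.closure (v '' {x | x < d}) := by
      rw [hP.hgen]
      trivial
    induction ha using Subgroup.closure_induction with
    | mem a ha =>
      obtain ⟨x, hx, rfl⟩ := ha
      rw [hcomm x hx, map_commutatorElement]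
      exact Subgroup.commutator_mem_commutator (Subgroup.mem_top _) (Subgroup.mem_top _)
    | one =>
      rw [map_one]
      exact Subgroup.one_mem _
    | mul a b _ _ ha hb =>
      rw [map_mul]
      exact Subgroup.mul_mem _ ha hb
    | inv a _ ha =>
      rw [map_inv]
      exact Subgroup.inv_mem _ ha
  set y := roots ly with hy
  have hEy : E (2 * d + ly) = y := hE1 ly
  have hwb : ∀ {w : List ℕ}, w.all (fun a => Nat.blt a (2 * d)) = true → ∀ l ∈ w, l < 2 * d := by
    intro w h l hl
    exact Nat.le_of_ble_eq_true (List.all_eq_true.1 h l hl)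
  have hle : commutator H ≤ f.range := by
    apply commutator_le_of_gen f.range _ hgen y
    · rintro _ ⟨l, hl, rfl⟩
      have hl' : l < NN := hl
      have hu := hwb ((allBelow_iff _ _).1 c7w l hl')
      have h1 := (allBelow_iff _ _).1 c7 l hl'
      have hmem : ev g (uW l) ∈ f.range := ⟨ev v (uW l), hfw _ hu⟩
      cases he : eps l with
      | false =>
        left
        rw [he] at h1
        have h2 := hEq [2 * d + l] ([] ++ uW l) (by
          intro a ha
          simp only [List.mem_cons, List.not_mem_nil, or_false] at ha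
          omega) (by simpa using hbd _ hu) h1
        simp only [List.map_cons, List.map_nil, List.prod_cons, List.prod_nil, mul_one, hE1, List.nil_append] at h2
        rw [h2, ← hevE _ hu]
        exact hmem
      | true =>
        right
        rw [he] at h1
        have h2 := hEq [2 * d + l] ([2 * d + ly] ++ uW l) (by
          intro a ha
          simp only [List.mem_cons, List.not_mem_nil, or_false] at ha
          omega) (by
          intro a ha
          rcases List.mem_append.1 ha with ha | ha
          · simp only [List.mem_cons, List.not_mem_nil, or_false] at ha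
            omega
          · exact hbd _ hu a ha) h1
        simp only [List.map_cons, List.map_nil, List.prod_cons, List.prod_nil, mul_one, hE1, List.cons_append, List.nil_append] at h2
        have h2' : roots l = y * ev g (uW l) := by
          rw [hevE _ hu]
          exact h2
        rw [h2', inv_mul_cancel_left]
        exact hmem
    · rintro _ ⟨a, rfl⟩
      have ha : a ∈ Subgroup.closure (v '' {x | x < d}) := by
        rw [hP.hgen]
        trivial
      induction ha using Subgroup.closure_induction with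
      | mem a ha =>
        obtain ⟨x, hx, rfl⟩ := ha
        have hx' : x < d := hx
        have hu := hwb ((allBelow_iff _ _).1 c8w x hx')
        have h1 := hEq [2 * d + ly, 2 * x] (cW x ++ [2 * d + ly]) (by
          intro l hl
          simp only [List.mem_cons, List.not_mem_nil, or_false] at hl
          omega) (by
          intro l hl
          rcases List.mem_append.1 hl with hl | hl
          · exact hbd _ hu l hl
          · simp only [List.mem_cons, List.not_mem_nil, or_false] at hl
            omega) ((allBelow_iff _ _).1 c8 x hx')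
        have e2 : E (2 * x) = g x := by
          rw [hE0 _ (by omega)]
          unfold lv
          rw [if_pos (by omega)]
          congr 1
          omega
        rw [List.map_append, List.prod_append, ← hevE _ hu] at h1
        simp only [List.map_cons, List.map_nil, List.prod_cons, List.prod_nil, mul_one, hE1, e2] at h1
        have h1' : y * g x = ev g (cW x) * y := h1
        rw [hf x hx', h1', mul_inv_cancel_right]
        exact ⟨ev v (cW x), hfw _ hu⟩
      | one =>
        rw [map_one, mul_one, mul_inv_cancel]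
        exact Subgroup.one_mem _
      | mul a b _ _ ha hb =>
        have e : y * f (a * b) * y⁻¹ = (y * f a * y⁻¹) * (y * f b * y⁻¹) := by
          rw [map_mul]
          group
        rw [e]
        exact Subgroup.mul_mem _ ha hb
      | inv a _ ha =>
        have e : y * f a⁻¹ * y⁻¹ = (y * f a * y⁻¹)⁻¹ := by
          rw [map_inv]
          group
        rw [e]
        exact Subgroup.inv_mem _ ha
    · have hu := hwb c9w
      have h1 := hEq [2 * d + ly, 2 * d + ly] wY (by
        intro l hl
        simp only [List.mem_cons, List.not_mem_nil, or_false, or_self] at hl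
        omega) (hbd _ hu) c9
      simp only [List.map_cons, List.map_nil, List.prod_cons, List.prod_nil, mul_one, hE1] at h1
      have h1' : y * y = ev g wY := by
        rw [hevE _ hu]
        exact h1
      rw [h1']
      exact ⟨ev v wY, hfw _ hu⟩
  let f' : P →* ↥(commutator H) := f.codRestrict _ hRle
  have hb : Function.Bijective f' := by
    constructor
    · intro a b hab
      exact hfinj (congrArg Subtype.val hab)
    · rintro ⟨h, hh⟩
      obtain ⟨a, rfl⟩ := hle hh
      exact ⟨a, rfl⟩
  exact ⟨MulEquiv.ofBijective f' hb⟩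

end main

end Cfsg.Agent.Lib.KnownSimple.MultC.ComP
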