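import Cfsg.Agent.Lib.KnownSimple.MultC.Basic

/-!
# The multiplier is invariant under isomorphisms, across universes
-/

set_option autoImplicit false

universe a b c d

namespace Cfsg.Agent.Lib.KnownSimple.MultC

open Cfsg

section transfer

variable {Γ₁ : Type a} {Γ₂ : Type b} {G₁ : Type c} {G₂ : Type d} [Group Γ₁] [Group Γ₂] [Group G₁] [Group G₂]

/-- The map obtained by composing with isomorphisms. -/
def transferHom (m : Γ₁ ≃* Γ₂) (e : G₂ ≃* G₁) (σ : Γ₂ →* G₂) : Γ₁ →* G₁ :=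
  e.toMonoidHom.comp (σ.comp m.toMonoidHom)

theorem mem_transfer_ker (m : Γ₁ ≃* Γ₂) (e : G₂ ≃* G₁) (σ : Γ₂ →* G₂) (x : Γ₁) :
    x ∈ (transferHom m e σ).ker ↔ m x ∈ σ.ker := by
  rw [MonoidHom.mem_ker, MonoidHom.mem_ker]
  exact e.map_eq_one_iff

theorem stem_transfer (m : Γ₁ ≃* Γ₂) (e : G₂ ≃* G₁) {σ : Γ₂ →* G₂} (h : IsStemExtension σ) :
    IsStemExtension (transferHom m e σ) := by
  obtain ⟨h1, h2, h3⟩ := h
  refine ⟨?_, ?_, ?_⟩
  · intro y
    obtain ⟨x, hx⟩ := h1 (e.symm y)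
    refine ⟨m.symm x, ?_⟩
    simp [transferHom, hx]
  · intro x hx
    have h4 : m x ∈ Subgroup.center Γ₂ := h2 ((mem_transfer_ker m e σ x).1 hx)
    rw [Subgroup.mem_center_iff] at h4 ⊢
    intro y
    apply m.injective
    rw [map_mul, map_mul]
    exact h4 (m y)
  · intro x hx
    have h4 : m x ∈ commutator Γ₂ := h3 ((mem_transfer_ker m e σ x).1 hx)
    have h5 : (commutator Γ₁).map m.toMonoidHom = commutator Γ₂ := by
      unfold commutator
      rw [Subgroup.map_commutator, Subgroup.map_top_of_surjective _ m.surjective]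
    rw [← h5] at h4
    obtain ⟨z, hz, hzx⟩ := h4
    have : z = x := m.injective hzx
    rwa [this] at hz

/-- The isomorphism of the kernels. -/
noncomputable def kerTransfer (m : Γ₁ ≃* Γ₂) (e : G₂ ≃* G₁) (σ : Γ₂ →* G₂) : (transferHom m e σ).ker ≃* σ.ker where
  toFun x := ⟨m x, (mem_transfer_ker m e σ x).1 x.2⟩
  invFun y := ⟨m.symm y, (mem_transfer_ker m e σ _).2 (by simp)⟩
  left_inv x := by simp
  right_inv y := by simp
  map_mul' x y := by
    ext
    simp

end transfer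

/-- A type without instances. -/
def FinBox (n : ℕ) : Type := Fin n

theorem exists_small (Γ' : Type a) [Group Γ'] [Finite Γ'] :
    ∃ (Γ : Type) (_ : Group Γ) (_ : Finite Γ), Nonempty (Γ ≃* Γ') := by
  let q : Γ' ≃ FinBox (Nat.card Γ') := Finite.equivFin Γ'
  haveI : Finite (FinBox (Nat.card Γ')) := inferInstanceAs (Finite (Fin _))
  letI i : Group (FinBox (Nat.card Γ')) := q.symm.group
  exact ⟨FinBox (Nat.card Γ'), i, inferInstance,
    ⟨{ q.symm with
        map_mul' := fun a b => q.symm.apply_symm_apply (q.symm a * q.symm b) }⟩⟩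

/-- The multiplier is invariant under isomorphisms, across universes. -/
theorem hasSchur_congrU {G : Type} {H : Type a} [Group G] [Group H] {A : Type b} [CommGroup A] (e : G ≃* H)
    (h : HasSchurMultiplier G A) : HasSchurMultiplier H A := by
  obtain ⟨⟨Γ, i1, i2, σ, hσ, ⟨f⟩⟩, h2⟩ := h
  refine ⟨⟨ULift.{a} Γ, inferInstance, inferInstance, transferHom (MulEquiv.ulift) e σ, stem_transfer _ _ hσ,
    ⟨(kerTransfer _ _ _).trans f⟩⟩, ?_⟩
  intro Γ' _ _ σ' hσ'
  obtain ⟨Γ'', i3, i4, ⟨m⟩⟩ := exists_small Γ'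
  obtain ⟨π, hπ⟩ := h2 _ (transferHom m e.symm σ') (stem_transfer m e.symm hσ')
  exact ⟨(kerTransfer m e.symm σ').toMonoidHom.comp π, (kerTransfer m e.symm σ').surjective.comp hπ⟩

end Cfsg.Agent.Lib.KnownSimple.MultC
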