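import Cfsg.Agent.Lib.KnownSimple.MultC.G2P

/-!
# The Chevalley group of type G₂ over the field with four elements
-/

set_option autoImplicit false

namespace Cfsg.Agent.Lib.KnownSimple.MultC.G2P

open Cfsg Cfsg.Lie Cfsg.Agent.Lib.Chev MatN ChevP
open scoped Matrix MatrixGroups

/-- The field with four elements. -/
structure FF4 where
  val : Fin 4
  deriving DecidableEq, Fintype

namespace FF4

/-- The table of the products. -/
def mulT : Fin 4 → Fin 4 → Fin 4 := ![![0, 0, 0, 0], ![0, 1, 2, 3], ![0, 2, 3, 1], ![0, 3, 1, 2]]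

/-- The table of the inverses. -/
def invT : Fin 4 → Fin 4 := ![0, 1, 3, 2]

instance : Add FF4 := ⟨fun a b => ⟨⟨a.val.val ^^^ b.val.val, by
  have h1 := a.val.2
  have h2 := b.val.2
  exact Nat.lt_of_lt_of_eq (Nat.xor_lt_two_pow (n := 2) h1 h2) rfl⟩⟩⟩
instance : Zero FF4 := ⟨⟨0⟩⟩
instance : One FF4 := ⟨⟨1⟩⟩
instance : Neg FF4 := ⟨fun a => a⟩
instance : Mul FF4 := ⟨fun a b => ⟨mulT a.val b.val⟩⟩
instance : Inv FF4 := ⟨fun a => ⟨invT a.val⟩⟩

private theorem all2 (p : FF4 → Prop) (h : ∀ v : Fin 4, p ⟨v⟩) : ∀ a, p a := fun a => by cases a; exact h _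

instance : Field FF4 where
  add_assoc := by decide
  zero_add := by decide
  add_zero := by decide
  add_comm := by decide
  neg_add_cancel := by decide
  mul_assoc := by decide
  one_mul := by decide
  mul_one := by decide
  left_distrib := by decide
  right_distrib := by decide
  zero_mul := by decide
  mul_zero := by decide
  mul_comm := by decide
  exists_pair_ne := ⟨0, 1, by decide⟩
  mul_inv_cancel := by decide
  inv_zero := by decide
  nsmul := nsmulRec
  zsmul := zsmulRec
  nnqsmul := _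
  qsmul := _

/-- The element of order three. -/
def ω : FF4 := ⟨2⟩

theorem card4 : Fintype.card FF4 = 4 := by decide

/-- The digit of a number. -/
def ofN (a : ℕ) : FF4 := ⟨⟨a % 4, Nat.mod_lt _ (by norm_num)⟩⟩

theorem ofN_mod (a : ℕ) : ofN (a % 4) = ofN a := by
  have h : (⟨(a % 4) % 4, Nat.mod_lt _ (by norm_num)⟩ : Fin 4) = ⟨a % 4, Nat.mod_lt _ (by norm_num)⟩ := Fin.ext (Nat.mod_mod _ _)
  show FF4.mk _ = FF4.mk _
  exact congrArg FF4.mk h

theorem ofN_add0 : ∀ a x : Fin 4, ofN (a.val ^^^ x.val) = ofN a.val + ofN x.val := by decide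

theorem ofN_mul0 : ∀ a x : Fin 4, ofN ((2625168384 / 4 ^ (4 * a.val + x.val)) % 4) = ofN a.val * ofN x.val := by decide

end FF4

open FF4

/-- The table of the products, as a number. -/
noncomputable def mulN (a x : ℕ) : ℕ :=
  Nat.mod (Nat.div 2625168384 (Nat.pow 4 (Nat.add (Nat.mul 4 (Nat.mod a 4)) (Nat.mod x 4)))) 4

/-- The sums, as numbers. -/
noncomputable def addN (a x : ℕ) : ℕ := Nat.xor (Nat.mod a 4) (Nat.mod x 4)

/-- The coding of the field with four elements. -/
noncomputable def FC4 : FC FF4 where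
  b := 4
  add := addN
  mul := mulN
  c := ofN
  hb := by norm_num
  c_mod a := ofN_mod a
  c_add a x := by
    have h := ofN_add0 ⟨a % 4, Nat.mod_lt _ (by norm_num)⟩ ⟨x % 4, Nat.mod_lt _ (by norm_num)⟩
    simp only [ofN_mod] at h
    exact h
  c_mul a x := by
    have h := ofN_mul0 ⟨a % 4, Nat.mod_lt _ (by norm_num)⟩ ⟨x % 4, Nat.mod_lt _ (by norm_num)⟩
    simp only [ofN_mod] at h
    show ofN ((2625168384 / 4 ^ (4 * (a % 4) + x % 4)) % 4) = _
    rw [ofN_mod]
    exact h
  c_zero := rfl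
  c_one := rfl

theorem hc4 (t : FF4) : ∃ k, k < 4 ∧ FC4.c k = t := by
  obtain ⟨v⟩ := t
  refine ⟨v.val, v.2, ?_⟩
  show ofN v.val = _
  revert v
  decide

section transfer

variable {R F : Type*} [Field R] [Field F]

lemma xMat_map2 (f : R →+* F) (r : Fin chevG2.nroots) (t : R) :
    (chevG2.xMat R r t).map f = chevG2.xMat F r (f t) := by
  ext row col
  rcases col with i | s <;> rcases row with i' | u
  · simp only [Matrix.map_apply, ChevalleyDatum.xMat, Matrix.of_apply]
    split_ifs <;> simp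
  · simp only [Matrix.map_apply, ChevalleyDatum.xMat, Matrix.of_apply]
    split_ifs <;> simp
  · simp only [Matrix.map_apply, ChevalleyDatum.xMat, Matrix.of_apply]
    split_ifs <;> simp
  · simp only [Matrix.map_apply, ChevalleyDatum.xMat, Matrix.of_apply]
    split_ifs <;> simp [map_list_sum, List.map_map, Function.comp_def]

/-- Transfer along a field isomorphism. -/
noncomputable def glE2 (φ : R ≃+* F) : GL chevG2.Idx R ≃* GL chevG2.Idx F :=
  Units.mapEquiv (φ.mapMatrix (m := chevG2.Idx)).toMulEquiv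

lemma glE2_coe (φ : R ≃+* F) (g : GL chevG2.Idx R) :
    ((glE2 φ g : GL chevG2.Idx F) : Matrix chevG2.Idx chevG2.Idx F) = (g : Matrix chevG2.Idx chevG2.Idx R).map φ := rfl

theorem group_map_eq2 (φ : R ≃+* F) : (chevG2.group R).map (glE2 φ).toMonoidHom = chevG2.group F := by
  apply le_antisymm
  · rw [Subgroup.map_le_iff_le_comap]
    refine (Subgroup.closure_le _).2 ?_
    rintro g ⟨r, t, hg⟩
    refine Subgroup.subset_closure ⟨r, φ t, ?_⟩
    show ((glE2 φ g : GL chevG2.Idx F) : Matrix chevG2.Idx chevG2.Idx F) = _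
    rw [glE2_coe, hg]
    exact xMat_map2 φ.toRingHom r t
  · refine (Subgroup.closure_le _).2 ?_
    rintro g ⟨r, t, hg⟩
    have ht : φ (φ.symm t) = t := φ.apply_symm_apply t
    let g₀ : GL chevG2.Idx R := goodG2.xU (F := R) (r := r) r.2 (φ.symm t)
    have hg₀ : (g₀ : Matrix chevG2.Idx chevG2.Idx R) = chevG2.xMat R r (φ.symm t) := dif_pos r.2
    refine ⟨g₀, Subgroup.subset_closure ⟨r, _, hg₀⟩, ?_⟩
    apply Units.ext
    show ((glE2 φ g₀ : GL chevG2.Idx F) : Matrix chevG2.Idx chevG2.Idx F) = _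
    rw [glE2_coe, hg₀, hg]
    have := xMat_map2 φ.toRingHom r (φ.symm t)
    rw [show φ.toRingHom (φ.symm t) = t from ht] at this
    exact this

/-- The Chevalley groups over isomorphic fields. -/
theorem exists_iso2 (φ : R ≃+* F) : Nonempty (↥(chevG2.group R) ≃* ↥(chevG2.group F)) := by
  have e1 : ↥(chevG2.group R) ≃* ↥((chevG2.group R).map (glE2 φ).toMonoidHom) := (glE2 φ).subgroupMap _
  have e2 : ↥((chevG2.group R).map (glE2 φ).toMonoidHom) ≃* ↥(chevG2.group F) := MulEquiv.subgroupCongr (group_map_eq2 φ)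
  exact ⟨e1.trans e2⟩

end transfer

theorem card_G4 : Nat.card ↥(chevG2.group FF4) = 251596800 := by
  have h := Cfsg.Agent.Lib.Known3.G23.orderG2' (F := FF4) (q := 4) card4
  rw [h]
  norm_num

instance instSimple4 : IsSimpleGroup ↥(chevG2.group FF4) :=
  (good3G2.simple (F := FF4) (good2G2.perfect_of_H digG2_perfH (a := ω) (by decide) (by decide))).1

/-- The Chevalley group over a field with four elements. -/
theorem exists_iso4 {F : Type*} [Field F] [Fintype F] (hF : Fintype.card F = 4) :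
    Nonempty (↥(chevG2.group FF4) ≃* ↥(chevG2.group F)) :=
  exists_iso2 (FiniteField.ringEquivOfCardEq (K := FF4) (K' := F) (by rw [hF, card4]))

end Cfsg.Agent.Lib.KnownSimple.MultC.G2P
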