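import Cfsg.Agent.Lib.KnownSimple.MultC.ChevP
import Cfsg.Agent.Lib.Known3.G23Ord

/-!
# The Chevalley groups of type G₂ over small fields
-/

set_option autoImplicit false

namespace Cfsg.Agent.Lib.KnownSimple.MultC.G2P

open Cfsg Cfsg.Lie Cfsg.Agent.Lib.Chev MatN ChevP
open scoped Matrix MatrixGroups

theorem hxG2 {F : Type} [Field F] (r : Fin chevG2.nroots) (t : F) :
    ∃ g : GL chevG2.Idx F, (g : Matrix chevG2.Idx chevG2.Idx F) = chevG2.xMat F r t :=
  ⟨goodG2.xU (r := r) r.2 t, dif_pos r.2⟩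

/-- The coding of the field with three elements. -/
def FC3 : FC (ZMod 3) where
  b := 3
  add := Nat.add
  mul := Nat.mul
  c := fun a => (a : ZMod 3)
  hb := by norm_num
  c_mod a := ZMod.natCast_mod a 3
  c_add a x := Nat.cast_add a x
  c_mul a x := Nat.cast_mul a x
  c_zero := Nat.cast_zero
  c_one := Nat.cast_one

theorem hc3 (t : ZMod 3) : ∃ k, k < 3 ∧ FC3.c k = t :=
  ⟨t.val, ZMod.val_lt t, ZMod.natCast_zmod_val t⟩

end Cfsg.Agent.Lib.KnownSimple.MultC.G2P
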