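import Cfsg.Agent.Lib.KnownSimple.MultC.MatN

/-!
# Presentations of quotients of matrix groups over small fields by scalars
-/

set_option autoImplicit false

namespace Cfsg.Agent.Lib.KnownSimple.MultC.GenQ

open Cfsg Cfsg.Agent.Lib.Compute Cfsg.Agent.Lib.KnownSimple.MultC MatN
open scoped Matrix MatrixGroups

variable {R : Type} [CommRing R] (F : FC R) {ι : Type} [Fintype ι] [DecidableEq ι] (ord : ι → ℕ) {n : ℕ}
  (hlt : ∀ i, ord i < n) (hinj : Function.Injective ord)
  (hord : ∀ f : ℕ → R, ∑ i, f (ord i) = ∑ j ∈ Finset.range n, f j)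
  {H₀ H : Type} [Group H₀] [Group H] (Φ : H₀ →* Matrix ι ι R) (hΦ : Function.Injective Φ) (π : H₀ →* H)
  (hπ : Function.Surjective π)
  (roots : ℕ → H₀) (NN : ℕ) (hgen : Subgroup.closure (roots '' {l | l < NN}) = ⊤)
  (scs : List (List (List ℕ))) (hsc : ∀ S ∈ scs, ∀ x : H₀, Φ x = toM F ord S → π x = 1)
  (hscl : ∀ S ∈ scs, S.length = n)

include hlt hinj hord hΦ hπ hgen hsc hscl in
theorem exists_equiv_quot {P : Type} [Group P] [Finite P] {d : ℕ} {v : ℕ → P} {rels : List (List ℕ)} (hP : IsPres d v rels)
    (RT : ℕ → List (List ℕ)) (TM : List (List (List ℕ))) (gW : List (List ℕ)) (uW : ℕ → List ℕ)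
    (hroot : ∀ l, l < NN → Φ (roots l) = toM F ord (RT l))
    (c1 : allBelow (fun l => shapeOK n (RT l)) NN = true)
    (c2 : allBelow (fun x => shapeOK n (lg [] TM x)) d = true)
    (c3 : allBelow (fun x => (lg [] gW x).all fun l => Nat.blt l NN) d = true)
    (c4 : allBelow (fun x => allBelow (fun j => Nat.beq (actN F.add F.mul F.b RT (lg [] gW x) (F.b ^ j)) (colC F.b (lg [] TM x) j))
      n) d = true)
    (c5 : allBelow (fun x => allBelow (fun j => Nat.beq (actN F.add F.mul F.b (fun l => lg [] TM (l / 2)) [2 * x, 2 * x] (F.b ^ j)) (F.b ^ j))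
      n) d = true)
    (c6w : ∀ r ∈ rels, ∀ l ∈ r, l < 2 * d)
    (c6 : rels.all (fun r => scs.any fun S => allBelow (fun j => Nat.beq (actN F.add F.mul F.b (fun l => lg [] TM (l / 2)) r (F.b ^ j)) (colC F.b S j))
      n) = true)
    (c7w : allBelow (fun l => (uW l).all fun a => Nat.blt a (2 * d)) NN = true)
    (c7 : allBelow (fun l => allBelow (fun j => Nat.beq (actN F.add F.mul F.b (fun l => lg [] TM (l / 2)) (uW l) (F.b ^ j)) (colC F.b (RT l) j))
      n) NN = true)
    (hle : Nat.card P ≤ Nat.card H) :
    Nonempty (P ≃* H) := by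
  classical
  have hs1 : ∀ l, l < NN → shapeOK n (RT l) = true := (allBelow_iff _ _).1 c1
  have hs2 : ∀ x, x < d → shapeOK n (lg [] TM x) = true := (allBelow_iff _ _).1 c2
  -- the generators
  let g : ℕ → H₀ := fun x => ((lg [] gW x).map roots).prod
  have hg : ∀ x, x < d → Φ (g x) = toM F ord (lg [] TM x) := by
    intro x hx'
    have hb : ∀ l ∈ lg [] gW x, l < NN := by
      intro l hl
      have := List.all_eq_true.1 ((allBelow_iff _ _).1 c3 x hx') l hl
      exact Nat.le_of_ble_eq_true this
    have h1 := MatN.word_eq F ord hlt hinj hord (T := RT) (w := lg [] gW x) (rows := lg [] TM x)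
      (fun l hl => hs1 l (hb l hl)) (by
        have := hs2 x hx'
        unfold shapeOK at this
        rw [Bool.and_eq_true] at this
        exact Nat.eq_of_beq_eq_true this.1) ((allBelow_iff _ _).1 c4 x hx')
    rw [← h1]
    show Φ ((lg [] gW x).map roots).prod = _
    rw [map_list_prod, List.map_map]
    apply congrArg List.prod
    apply List.map_congr_left
    intro l hl
    exact hroot l (hb l hl)
  have hsT : ∀ l, l < 2 * d → shapeOK n (lg [] TM (l / 2)) = true := fun l hl => hs2 _ (by omega)
  -- the generators are involutions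
  have hinv : ∀ x, x < d → (g x)⁻¹ = g x := by
    intro x hx'
    have h1 := MatN.word_one F ord hlt hinj hord (T := fun l => lg [] TM (l / 2)) (w := [2 * x, 2 * x]) (by
      intro l hl
      simp only [List.mem_cons, List.not_mem_nil, or_false, or_self] at hl
      subst hl
      exact hsT _ (by omega)) ((allBelow_iff _ _).1 c5 x hx')
    have e : (2 * x) / 2 = x := by omega
    simp only [List.map_cons, List.map_nil, List.prod_cons, List.prod_nil, mul_one, e] at h1
    have h2 : Φ (g x * g x) = 1 := by
      rw [map_mul, hg x hx']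
      exact h1
    have h3 : g x * g x = 1 := hΦ (by rw [h2, map_one])
    exact inv_eq_of_mul_eq_one_left h3
  have hlet : ∀ l, l < 2 * d → Φ (lv g l) = toM F ord (lg [] TM (l / 2)) := by
    intro l hl
    have h2 : l / 2 < d := by omega
    unfold lv
    split_ifs
    · exact hg _ h2
    · rw [hinv _ h2]
      exact hg _ h2
  have hword : ∀ w : List ℕ, (∀ l ∈ w, l < 2 * d) → Φ (ev g w) = (w.map fun l => toM F ord (lg [] TM (l / 2))).prod := by
    intro w hw
    exact ev_mat _ g _ w (fun l hl => hlet l (hw l hl))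
  -- the relations
  have hrel : ∀ r ∈ rels, ev (fun x => π (g x)) r = 1 := by
    intro r hr
    have h0 := List.all_eq_true.1 c6 r hr
    obtain ⟨S, hS, hS2⟩ := List.any_eq_true.1 h0
    have h1 := MatN.word_eq F ord hlt hinj hord (T := fun l => lg [] TM (l / 2)) (w := r) (rows := S)
      (fun l hl => hsT l (c6w r hr l hl)) (hscl S hS) hS2
    rw [← map_ev]
    apply hsc S hS
    rw [hword r (c6w r hr), h1]
  obtain ⟨f, hf⟩ := hP.huniv _ _ hrel
  have hfw : ∀ w : List ℕ, (∀ l ∈ w, l < 2 * d) → f (ev v w) = π (ev g w) := by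
    intro w hw
    induction w with
    | nil => simp
    | cons l w ih =>
      rw [ev_cons, ev_cons, map_mul, map_mul, ih (fun a ha => hw a (List.mem_cons_of_mem _ ha))]
      congr 1
      have h2 : l / 2 < d := by
        have := hw l List.mem_cons_self
        omega
      unfold lv
      split_ifs
      · exact hf _ h2
      · rw [map_inv, map_inv, hf _ h2]
  -- surjectivity
  have hrange : ∀ l, l < NN → π (roots l) ∈ f.range := by
    intro l hl
    have hb : ∀ a ∈ uW l, a < 2 * d := by
      intro a ha
      have := List.all_eq_true.1 ((allBelow_iff _ _).1 c7w l hl) a ha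
      exact Nat.le_of_ble_eq_true this
    have hr : (RT l).length = n := by
      have := hs1 l hl
      unfold shapeOK at this
      rw [Bool.and_eq_true] at this
      exact Nat.eq_of_beq_eq_true this.1
    have h1 := MatN.word_eq F ord hlt hinj hord (T := fun l => lg [] TM (l / 2)) (w := uW l) (rows := RT l)
      (fun a ha => hsT a (hb a ha)) hr ((allBelow_iff _ _).1 c7 l hl)
    refine ⟨ev v (uW l), ?_⟩
    rw [hfw _ hb]
    congr 1
    apply hΦ
    rw [hword _ hb, h1, hroot l hl]
  have hs : Function.Surjective f := by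
    have h1 : Subgroup.closure (roots '' {l | l < NN}) ≤ f.range.comap π := by
      rw [Subgroup.closure_le]
      rintro _ ⟨l, hl, rfl⟩
      exact hrange l hl
    rw [hgen] at h1
    intro y
    obtain ⟨z, rfl⟩ := hπ y
    exact h1 (Subgroup.mem_top z)
  have : Finite H := Finite.of_surjective f hs
  have hb : Function.Bijective f := Function.Surjective.bijective_of_nat_card_le hs hle
  exact ⟨MulEquiv.ofBijective f hb⟩

end Cfsg.Agent.Lib.KnownSimple.MultC.GenQ
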