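import Cfsg.Agent.Lib.KnownSimple.MultC.GenQ
import Cfsg.Agent.Lib.KnownSimple.MultC.G2F4
import Cfsg.Agent.Lib.KnownSimple.MultC.CongrU
import Cfsg.Agent.Lib.Classical.Transvection
import Cfsg.Agent.Lib.Classical.Basic

/-!
# The projective special linear group of dimension three over the field with four elements
-/

set_option autoImplicit false

namespace Cfsg.Agent.Lib.KnownSimple.MultC.L34P

open Cfsg Cfsg.Agent.Lib.Compute Cfsg.Agent.Lib.KnownSimple.MultC MatN Matrix
open Cfsg.Agent.Lib.KnownSimple.MultC.G2P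
open scoped Matrix MatrixGroups

/-- The special linear group. -/
abbrev SL3 := Matrix.SpecialLinearGroup (Fin 3) FF4
/-- The projective group. -/
abbrev PSL3 := Matrix.ProjectiveSpecialLinearGroup (Fin 3) FF4

/-- The matrix of an element. -/
def Phi3 : SL3 →* Matrix (Fin 3) (Fin 3) FF4 where
  toFun A := A.1
  map_one' := rfl
  map_mul' _ _ := rfl

theorem Phi3_inj : Function.Injective Phi3 := Subtype.val_injective

/-- The projection. -/
def pi3 : SL3 →* PSL3 := QuotientGroup.mk' (Subgroup.center SL3)

theorem pi3_surj : Function.Surjective pi3 := QuotientGroup.mk'_surjective _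

/-- The coordinates as numbers. -/
abbrev ord3 : Fin 3 → ℕ := fun i => i.val

theorem ord3_lt (i : Fin 3) : ord3 i < 3 := i.2
theorem ord3_inj : Function.Injective ord3 := Fin.val_injective
theorem ord3_sum (f : ℕ → FF4) : ∑ i, f (ord3 i) = ∑ j ∈ Finset.range 3, f j := Fin.sum_univ_eq_sum_range f 3

/-- A root element from its coordinates. -/
noncomputable def rootIJ (i j : Fin 3) (c : FF4) : SL3 := if h : i ≠ j then Matrix.SpecialLinearGroup.transvection h c else 1

/-- The matrix of a root element from its coordinates. -/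
noncomputable def rootMIJ (i j : Fin 3) (c : FF4) : Matrix (Fin 3) (Fin 3) FF4 := if i ≠ j then 1 + Matrix.single i j c else 1

theorem rootIJ_val (i j : Fin 3) (c : FF4) : Phi3 (rootIJ i j c) = rootMIJ i j c := by
  unfold rootIJ rootMIJ
  by_cases h : i ≠ j
  · rw [dif_pos h, if_pos h]
    exact Matrix.SpecialLinearGroup.transvection_coe h c
  · rw [dif_neg h, if_neg h]
    rfl

/-- The coordinates from a number. -/
def fin3 (a : ℕ) : Fin 3 := ⟨a % 3, Nat.mod_lt _ (by norm_num)⟩

/-- The root elements. -/
noncomputable def rootL (l : ℕ) : SL3 := rootIJ (fin3 (l / 12)) (fin3 (l / 4)) (FC4.c (l % 4))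

theorem rootL_val (l : ℕ) : Phi3 (rootL l) = rootMIJ (fin3 (l / 12)) (fin3 (l / 4)) (FC4.c (l % 4)) := rootIJ_val _ _ _

theorem rootL_gen : Subgroup.closure (rootL '' {l | l < 36}) = ⊤ := by
  rw [eq_top_iff, ← Cfsg.Agent.Lib.Classical.closure_transvections (ι := Fin 3) (F := FF4)]
  refine (Subgroup.closure_le _).2 ?_
  rintro g ⟨i, j, hij, a, rfl⟩
  obtain ⟨k, hk, rfl⟩ := hc4 a
  refine Subgroup.subset_closure ⟨(i.val * 3 + j.val) * 4 + k, ?_, ?_⟩
  · have hi := i.2
    have hj := j.2
    show (i.val * 3 + j.val) * 4 + k < 36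
    omega
  · have hi := i.2
    have hj := j.2
    have e1 : fin3 (((i.val * 3 + j.val) * 4 + k) / 12) = i := Fin.ext (by
      show (((i.val * 3 + j.val) * 4 + k) / 12) % 3 = i.val
      omega)
    have e2 : fin3 (((i.val * 3 + j.val) * 4 + k) / 4) = j := Fin.ext (by
      show (((i.val * 3 + j.val) * 4 + k) / 4) % 3 = j.val
      omega)
    have e3 : ((i.val * 3 + j.val) * 4 + k) % 4 = k := by omega
    show rootIJ _ _ _ = _
    rw [e1, e2, e3]
    exact dif_pos hij

theorem card_PSL3 : Nat.card PSL3 = 20160 := by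
  have h := Cfsg.Agent.Lib.Classical.card_PSL (F := FF4) FF4.card4 3 (by norm_num)
  rw [Fin.prod_univ_three] at h
  have h2 : Nat.gcd 3 (4 - 1) * ((4 - 1) * Nat.card PSL3) = 181440 := h.trans (by norm_num)
  have h3 : Nat.gcd 3 (4 - 1) = 3 := by norm_num
  rw [h3] at h2
  omega

instance instSimple3 : IsSimpleGroup PSL3 := Cfsg.Agent.Lib.Classical.PSL_isSimple (by simp)

/-- The scalar matrices. -/
def scs3 : List (List (List ℕ)) := [[[1,0,0],[0,1,0],[0,0,1]], [[2,0,0],[0,2,0],[0,0,2]], [[3,0,0],[0,3,0],[0,0,3]]]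

theorem scs3_len : ∀ S ∈ scs3, S.length = 3 := by decide

lemma center_of_scal (r : FF4) (hr : r ^ 3 = 1) (x : SL3) (h : ∀ a b, x.1 a b = if a = b then r else 0) : pi3 x = 1 := by
  apply (QuotientGroup.eq_one_iff x).2
  refine Matrix.SpecialLinearGroup.mem_center_iff.2 ⟨r, by simpa using hr, ?_⟩
  ext a b
  rw [h a b]
  by_cases hab : a = b
  · subst hab
    simp
  · simp [hab]

theorem hsc3 : ∀ S ∈ scs3, ∀ x : SL3, Phi3 x = toM FC4 ord3 S → pi3 x = 1 := by
  have key : ∀ (k : ℕ) (S : List (List ℕ)), FC4.c k ^ 3 = 1 → (∀ a b : Fin 3, decide (toM FC4 ord3 S a b = if a = b then FC4.c k else 0) = true) →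
      ∀ x : SL3, Phi3 x = toM FC4 ord3 S → pi3 x = 1 := by
    intro k S h1 h2 x hx
    refine center_of_scal (FC4.c k) h1 x (fun a b => ?_)
    rw [← of_decide_eq_true (h2 a b), ← hx]
    rfl
  intro S hS
  simp only [scs3, List.mem_cons, List.not_mem_nil, or_false] at hS
  rcases hS with rfl | rfl | rfl
  · exact key 1 _ (by decide +kernel) (by decide +kernel)
  · exact key 2 _ (by decide +kernel) (by decide +kernel)
  · exact key 3 _ (by decide +kernel) (by decide +kernel)

section transfer

variable {R F : Type*} [Field R] [Field F]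

/-- The special linear groups over isomorphic fields. -/
noncomputable def slMap (φ : R ≃+* F) : Matrix.SpecialLinearGroup (Fin 3) R ≃* Matrix.SpecialLinearGroup (Fin 3) F where
  toFun := Matrix.SpecialLinearGroup.map (φ : R →+* F)
  invFun := Matrix.SpecialLinearGroup.map (φ.symm : F →+* R)
  left_inv A := by
    apply Subtype.ext
    ext i j
    simp
  right_inv A := by
    apply Subtype.ext
    ext i j
    simp
  map_mul' := map_mul _

theorem map_center_eq {G H : Type*} [Group G] [Group H] (e : G ≃* H) :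
    (Subgroup.center G).map e.toMonoidHom = Subgroup.center H := by
  ext x
  rw [Subgroup.mem_map_equiv, Subgroup.mem_center_iff, Subgroup.mem_center_iff]
  constructor
  · intro h y
    have := h (e.symm y)
    have h2 := congrArg e this
    simpa using h2
  · intro h y
    apply e.injective
    simp [h (e y)]

/-- The projective groups over isomorphic fields. -/
noncomputable def pslMap (φ : R ≃+* F) :
    Matrix.ProjectiveSpecialLinearGroup (Fin 3) R ≃* Matrix.ProjectiveSpecialLinearGroup (Fin 3) F :=
  QuotientGroup.congr _ _ (slMap φ) (map_center_eq (slMap φ))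

end transfer

/-- The group over any field with four elements. -/
noncomputable def pslEquiv {F : Type*} [Field F] [Fintype F] (hF : Fintype.card F = 4) :
    PSL3 ≃* Matrix.ProjectiveSpecialLinearGroup (Fin 3) F :=
  pslMap (FiniteField.ringEquivOfCardEq (K := FF4) (K' := F) (by rw [hF, FF4.card4]))

end Cfsg.Agent.Lib.KnownSimple.MultC.L34P
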