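import Cfsg.Agent.Lib.KnownSimple.MultC.Lower

/-!
# A stem extension from a monomial representation: general scalars
-/

set_option autoImplicit false

namespace Cfsg.Agent.Lib.KnownSimple.MultC.LowA

open Cfsg Cfsg.Agent.Lib.Compute Cfsg.Agent.Lib.KnownSimple.MultC
open scoped commutatorElement

section defs

variable {A : Type} [AddCommGroup A]

/-- The sum of a cocycle along a path. -/
def sumA (κ : ℕ → ℕ → A) (τ : ℕ → ℕ → ℕ) : List ℕ → ℕ → A
  | [], _ => 0
  | l :: w, i => κ l i + sumA κ τ w (τ l i)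

theorem sumA_nil (κ : ℕ → ℕ → A) (τ : ℕ → ℕ → ℕ) (i : ℕ) : sumA κ τ [] i = 0 := rfl
theorem sumA_cons (κ : ℕ → ℕ → A) (τ : ℕ → ℕ → ℕ) (l : ℕ) (w : List ℕ) (i : ℕ) :
    sumA κ τ (l :: w) i = κ l i + sumA κ τ w (τ l i) := rfl

end defs

variable {d n : ℕ} {A : Type} [AddCommGroup A]

/-- The points with scalars. -/
abbrev PM (n : ℕ) (A : Type) : Type := Fin n × A

/-- A shift of the scalars. -/
def shiftP (c : A) : Equiv.Perm (PM n A) where
  toFun p := (p.1, p.2 + c)
  invFun p := (p.1, p.2 - c)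
  left_inv p := by simp
  right_inv p := by simp

@[simp] theorem shiftP_apply (c : A) (p : PM n A) : shiftP c p = (p.1, p.2 + c) := rfl

theorem shiftP_add (c c' : A) : (shiftP (c + c') : Equiv.Perm (PM n A)) = shiftP c * shiftP c' := by
  ext1 p
  refine Prod.ext rfl ?_
  show p.2 + (c + c') = (p.2 + c') + c
  abel

theorem shiftP_zero : (shiftP (0 : A) : Equiv.Perm (PM n A)) = 1 := by
  ext p <;> simp

/-- The monomial permutation of a generator. -/
noncomputable def monoP (C : Coset d n) (κ : ℕ → ℕ → A)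
    (hκ : ∀ l i, l < 2 * d → i < n → κ l i + κ (invL l) (C.τ l i) = 0) (x : ℕ) :
    Equiv.Perm (PM n A) :=
  if hx : x < d then
    { toFun := fun p => (C.p x p.1, p.2 + κ (2 * x) p.1.1)
      invFun := fun p => ((C.p x)⁻¹ p.1, p.2 + κ (2 * x + 1) p.1.1)
      left_inv := fun p => by
        have h1 := hκ (2 * x) p.1.1 (by omega) p.1.2
        rw [invL_even, ← C.p_val hx] at h1
        refine Prod.ext ((C.p x).symm_apply_apply p.1) ?_
        show p.2 + _ + _ = p.2
        rw [add_assoc, h1, add_zero]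
      right_inv := fun p => by
        have h1 := hκ (2 * x + 1) p.1.1 (by omega) p.1.2
        rw [invL_odd, ← C.pinv_val hx] at h1
        refine Prod.ext ((C.p x).apply_symm_apply p.1) ?_
        show p.2 + _ + _ = p.2
        rw [add_assoc, h1, add_zero] }
  else 1

section mono

variable (C : Coset d n) {κ : ℕ → ℕ → A}
  (hκ : ∀ l i, l < 2 * d → i < n → κ l i + κ (invL l) (C.τ l i) = 0)

theorem monoP_apply {x : ℕ} (hx : x < d) (p : PM n A) :
    monoP C κ hκ x p = (C.p x p.1, p.2 + κ (2 * x) p.1.1) := by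
  simp [monoP, hx]

theorem monoP_inv_apply {x : ℕ} (hx : x < d) (p : PM n A) :
    (monoP C κ hκ x)⁻¹ p = ((C.p x)⁻¹ p.1, p.2 + κ (2 * x + 1) p.1.1) := by
  simp only [monoP, hx, dif_pos]
  rfl

/-- The values of the generators. -/
noncomputable abbrev yM (x : ℕ) : Equiv.Perm (PM n A) := (monoP C κ hκ x)⁻¹

theorem lvM_apply {l : ℕ} (hl : l < 2 * d) (p : PM n A) :
    (lv (yM C hκ) l)⁻¹ p = ((⟨C.τ l p.1.1, C.hlt _ _ hl p.1.2⟩ : Fin n), p.2 + κ l p.1.1) := by
  have hx : l / 2 < d := by omega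
  unfold lv
  by_cases h : l % 2 = 0
  · have e : 2 * (l / 2) = l := by omega
    rw [if_pos h, inv_inv, monoP_apply C hκ hx]
    refine Prod.ext (Fin.ext ?_) ?_
    · show ((C.p (l / 2) p.1 : Fin n) : ℕ) = _
      rw [C.p_val hx, e]
    · show p.2 + κ (2 * (l / 2)) p.1.1 = _
      rw [e]
  · have e : 2 * (l / 2) + 1 = l := by omega
    rw [if_neg h, inv_inv, monoP_inv_apply C hκ hx]
    refine Prod.ext (Fin.ext ?_) ?_
    · show (((C.p (l / 2))⁻¹ p.1 : Fin n) : ℕ) = _
      rw [C.pinv_val hx, e]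
    · show p.2 + κ (2 * (l / 2) + 1) p.1.1 = _
      rw [e]

theorem evM_apply (w : List ℕ) (hw : ∀ l ∈ w, l < 2 * d) (p : PM n A) :
    ((((ev (yM C hκ) w)⁻¹ p).1 : Fin n) : ℕ) = actW C.τ w p.1.1 ∧
      ((ev (yM C hκ) w)⁻¹ p).2 = p.2 + sumA κ C.τ w p.1.1 := by
  induction w generalizing p with
  | nil => simp [actW_nil, sumA_nil]
  | cons l w ih =>
    have hl := hw l List.mem_cons_self
    rw [ev_cons, mul_inv_rev, Equiv.Perm.mul_apply, lvM_apply C hκ hl]
    obtain ⟨h1, h2⟩ := ih (fun a ha => hw a (List.mem_cons_of_mem _ ha)) (⟨C.τ l p.1.1, C.hlt _ _ hl p.1.2⟩, p.2 + κ l p.1.1)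
    refine ⟨by rw [h1, actW_cons], ?_⟩
    rw [h2, sumA_cons, add_assoc]

/-- A word with constant sum on closed paths is a shift. -/
theorem evM_eq_shift {w : List ℕ} (hw : ∀ l ∈ w, l < 2 * d) {z : A}
    (h : ∀ i, i < n → actW C.τ w i = i ∧ sumA κ C.τ w i = z) : ev (yM C hκ) w = shiftP (-z) := by
  rw [← inv_inj]
  ext1 p
  obtain ⟨h1, h2⟩ := evM_apply C hκ w hw p
  obtain ⟨h3, h4⟩ := h p.1.1 p.1.2
  have e : (shiftP (-z) : Equiv.Perm (PM n A))⁻¹ = shiftP z := by
    rw [inv_eq_iff_mul_eq_one, ← shiftP_add, neg_add_cancel, shiftP_zero]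
  rw [e]
  refine Prod.ext (Fin.ext ?_) ?_
  · rw [h1, h3]
    rfl
  · rw [h2, h4]
    rfl

theorem monoP_comm {x : ℕ} (c : A) : monoP C κ hκ x * shiftP c = shiftP c * monoP C κ hκ x := by
  by_cases hx : x < d
  · ext1 p
    simp only [Equiv.Perm.mul_apply, monoP_apply C hκ hx, shiftP_apply]
    refine Prod.ext rfl ?_
    simp only
    abel
  · simp [monoP, hx]

theorem yM_comm (x : ℕ) (c : A) : yM C hκ x * shiftP c = shiftP c * yM C hκ x := by
  have h := monoP_comm C hκ (x := x) c
  have e : Commute (monoP C κ hκ x) (shiftP c) := h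
  exact e.inv_left

end mono

/-- The lower bound for the multiplier. -/
theorem lowerA [Finite A] {G : Type} [Group G] [Finite G] {g : ℕ → G} {rels : List (List ℕ)} (hP : IsPres d g rels)
    (C : Coset d n) (h0 : 0 < n) (κ : ℕ → ℕ → A)
    (hκ : ∀ l i, l < 2 * d → i < n → κ l i + κ (invL l) (C.τ l i) = 0)
    (U V : ℕ → List ℕ) (hcomm : ∀ x, x < d → g x = ⁅ev g (U x), ev g (V x)⁆)
    (hok : ∀ r ∈ rels, ∀ l ∈ r, l < 2 * d)
    (hAB : ∀ x, x < d → (∀ l ∈ U x, l < 2 * d) ∧ (∀ l ∈ V x, l < 2 * d))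
    (hrel : ∀ r ∈ rels, ∃ z : A, ∀ i, i < n → actW C.τ r i = i ∧ sumA κ C.τ r i = z)
    (hrho : ∀ x, x < d → ∀ i, i < n → actW C.τ (rhoW U V x) i = i ∧ sumA κ C.τ (rhoW U V x) i = 0)
    (hgenA : AddSubgroup.closure {z : A | ∃ r ∈ rels, ∀ i, i < n → actW C.τ r i = i ∧ sumA κ C.τ r i = z} = ⊤) :
    ∃ (Γ : Type) (_ : Group Γ) (_ : Finite Γ) (σ : Γ →* G), IsStemExtension σ ∧ Nonempty (σ.ker ≃* Multiplicative A) := by
  classical
  -- the generators
  let gh : ℕ → Equiv.Perm (PM n A) × G := fun x => (yM C hκ x, g x)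
  let K : Subgroup (Equiv.Perm (PM n A) × G) := Subgroup.closure (gh '' {x | x < d})
  have hgh1 : ∀ w, (ev gh w).1 = ev (yM C hκ) w := fun w => map_ev (MonoidHom.fst _ _) gh w
  have hgh2 : ∀ w, (ev gh w).2 = ev g w := fun w => map_ev (MonoidHom.snd _ _) gh w
  have hmemgh : ∀ x, x < d → gh x ∈ K := fun x hx => Subgroup.subset_closure ⟨x, hx, rfl⟩
  have hlvmem : ∀ l, l < 2 * d → lv gh l ∈ K := by
    intro l hl
    have hx : l / 2 < d := by omega
    unfold lv
    split_ifs
    · exact hmemgh _ hx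
    · exact K.inv_mem (hmemgh _ hx)
  have hevmem : ∀ w, (∀ l ∈ w, l < 2 * d) → ev gh w ∈ K := by
    intro w hw
    induction w with
    | nil => exact K.one_mem
    | cons l w ih =>
      rw [ev_cons]
      exact K.mul_mem (hlvmem l (hw l List.mem_cons_self)) (ih (fun a ha => hw a (List.mem_cons_of_mem _ ha)))
  -- the lifts in the subgroup
  let ty : ℕ → K := fun x => if hx : x < d then ⟨gh x, hmemgh x hx⟩ else 1
  have hty : ∀ x, x < d → ((ty x : K) : Equiv.Perm (PM n A) × G) = gh x := by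
    intro x hx
    simp [ty, hx]
  have hlvty : ∀ l, l < 2 * d → ((lv ty l : K) : Equiv.Perm (PM n A) × G) = lv gh l := by
    intro l hl
    have hx : l / 2 < d := by omega
    unfold lv
    split_ifs
    · exact hty _ hx
    · show (((ty (l / 2))⁻¹ : K) : Equiv.Perm (PM n A) × G) = _
      rw [Subgroup.coe_inv, hty _ hx]
  have hevty : ∀ w, (∀ l ∈ w, l < 2 * d) → ((ev ty w : K) : Equiv.Perm (PM n A) × G) = ev gh w := by
    intro w hw
    induction w with
    | nil => rfl
    | cons l w ih =>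
      rw [ev_cons, ev_cons, Subgroup.coe_mul, hlvty l (hw l List.mem_cons_self),
        ih (fun a ha => hw a (List.mem_cons_of_mem _ ha))]
  have hclosure : Subgroup.closure (ty '' {x | x < d}) = ⊤ := by
    have h1 : ty '' {x | x < d} = (Subtype.val : K → _) ⁻¹' (gh '' {x | x < d}) := by
      ext u
      constructor
      · rintro ⟨x, hx, rfl⟩
        exact ⟨x, hx, (hty x hx).symm⟩
      · rintro ⟨x, hx, e⟩
        exact ⟨x, hx, Subtype.ext ((hty x hx).trans e)⟩
    rw [h1]
    exact Subgroup.closure_closure_coe_preimage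
  -- the extension
  let σ : K →* G := (MonoidHom.snd _ _).comp K.subtype
  have hσty : ∀ x, x < d → σ (ty x) = g x := by
    intro x hx
    show ((ty x : K) : Equiv.Perm (PM n A) × G).2 = _
    rw [hty x hx]
  have hsurj : Function.Surjective σ := by
    rw [← MonoidHom.range_eq_top, eq_top_iff, ← hP.hgen, Subgroup.closure_le]
    rintro _ ⟨x, hx, rfl⟩
    exact ⟨ty x, hσty x hx⟩
  -- the scalars commute with everything
  have hcommK : ∀ u ∈ K, ∀ c : A, u.1 * shiftP c = shiftP c * u.1 := by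
    intro u hu c
    induction hu using Subgroup.closure_induction with
    | mem a ha =>
      obtain ⟨x, _, rfl⟩ := ha
      exact yM_comm C hκ x c
    | one => simp
    | mul a b _ _ h1 h2 =>
      show a.1 * b.1 * _ = _ * (a.1 * b.1)
      rw [mul_assoc, h2, ← mul_assoc, h1, mul_assoc]
    | inv a _ h1 =>
      have e : Commute a.1 (shiftP c) := h1
      exact e.inv_left
  -- the kernel
  let Sh : Subgroup (Equiv.Perm (PM n A)) :=
    { carrier := {s | ∃ c, s = shiftP c}
      one_mem' := ⟨0, shiftP_zero.symm⟩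
      mul_mem' := by
        rintro _ _ ⟨c, rfl⟩ ⟨c', rfl⟩
        exact ⟨c + c', (shiftP_add c c').symm⟩
      inv_mem' := by
        rintro _ ⟨c, rfl⟩
        refine ⟨-c, ?_⟩
        rw [inv_eq_iff_mul_eq_one, ← shiftP_add, add_neg_cancel, shiftP_zero] }
  let N : Subgroup K := (Sh.prod ⊥).comap K.subtype
  have hmemN : ∀ u : K, u ∈ N ↔ (∃ c, u.1.1 = shiftP c) ∧ u.1.2 = 1 := by
    intro u
    show (u.1 ∈ Sh.prod ⊥) ↔ _
    rw [Subgroup.mem_prod, Subgroup.mem_bot]
    rfl
  have hNcen : N ≤ Subgroup.center K := by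
    intro u hu
    rw [Subgroup.mem_center_iff]
    intro v
    obtain ⟨⟨c, h1⟩, h2⟩ := (hmemN u).1 hu
    apply Subtype.ext
    refine Prod.ext ?_ ?_
    · show v.1.1 * u.1.1 = u.1.1 * v.1.1
      rw [h1]
      exact hcommK v.1 v.2 c
    · show v.1.2 * u.1.2 = u.1.2 * v.1.2
      rw [h2]
      simp
  haveI hNn : N.Normal := by
    constructor
    intro a ha b
    have := Subgroup.mem_center_iff.1 (hNcen ha) b
    rw [this, mul_inv_cancel_right]
    exact ha
  have hNle : N ≤ σ.ker := by
    intro u hu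
    exact ((hmemN u).1 hu).2
  have hker : σ.ker ≤ N := by
    refine ker_le_of_rels hP σ ty hσty hclosure N hNle ?_
    intro r hr
    rw [hmemN]
    have hw := hok r hr
    rw [hevty r hw, hgh1, hgh2]
    obtain ⟨z, hz'⟩ := hrel r hr
    exact ⟨⟨-z, evM_eq_shift C hκ hw hz'⟩, hP.hrel r hr⟩
  -- each lift is a commutator
  have htyc : ∀ x, x < d → ty x = ⁅ev ty (U x), ev ty (V x)⁆ := by
    intro x hx
    obtain ⟨hA, hB⟩ := hAB x hx
    apply Subtype.ext
    have ec : ((⁅ev ty (U x), ev ty (V x)⁆ : K) : Equiv.Perm (PM n A) × G) =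
        ⁅((ev ty (U x) : K) : Equiv.Perm (PM n A) × G), ((ev ty (V x) : K) : Equiv.Perm (PM n A) × G)⁆ := rfl
    rw [hty x hx, ec, hevty _ hA, hevty _ hB]
    refine Prod.ext ?_ ?_
    · show yM C hκ x = ⁅(ev gh (U x)).1, (ev gh (V x)).1⁆
      rw [hgh1, hgh1]
      have hw : ∀ l ∈ rhoW U V x, l < 2 * d := by
        intro l hl
        rcases List.mem_cons.1 hl with rfl | h
        · omega
        · unfold comW at h
          simp only [List.mem_append] at h
          have hinv : ∀ (w : List ℕ), (∀ l ∈ w, l < 2 * d) → ∀ l ∈ invW w, l < 2 * d := by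
            intro w hw l hl
            unfold invW at hl
            rw [List.mem_reverse, List.mem_map] at hl
            obtain ⟨a, ha, rfl⟩ := hl
            have := hw a ha
            unfold invL
            split_ifs <;> omega
          rcases h with ((h | h) | h) | h
          · exact hA l h
          · exact hB l h
          · exact hinv _ hA l h
          · exact hinv _ hB l h
      have h1 := evM_eq_shift C hκ hw (hrho x hx)
      rw [neg_zero, shiftP_zero] at h1
      unfold rhoW at h1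
      rw [ev_cons, ev_comW] at h1
      have e1 : (2 * x + 1) % 2 ≠ 0 := by omega
      have e2 : (2 * x + 1) / 2 = x := by omega
      have e3 : lv (yM C hκ) (2 * x + 1) = (yM C hκ x)⁻¹ := by simp [lv, e1, e2]
      rw [e3] at h1
      exact (inv_mul_eq_one.1 h1)
    · show g x = ⁅(ev gh (U x)).2, (ev gh (V x)).2⁆
      rw [hgh2, hgh2]
      exact hcomm x hx
  have hperf : commutator K = ⊤ := by
    rw [eq_top_iff, ← hclosure, Subgroup.closure_le]
    rintro _ ⟨x, hx, rfl⟩
    rw [htyc x hx]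
    exact Subgroup.commutator_mem_commutator (Subgroup.mem_top _) (Subgroup.mem_top _)
  have hstem : IsStemExtension σ := ⟨hsurj, hker.trans hNcen, by rw [hperf]; exact le_top⟩
  -- the shifts are in the subgroup
  have hsall : ∀ c : A, ((shiftP c : Equiv.Perm (PM n A)), (1 : G)) ∈ K := by
    intro c
    have hc : c ∈ AddSubgroup.closure {z : A | ∃ r ∈ rels, ∀ i, i < n → actW C.τ r i = i ∧ sumA κ C.τ r i = z} := by
      rw [hgenA]
      trivial
    induction hc using AddSubgroup.closure_induction with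
    | mem z hz =>
      obtain ⟨r, hr, hz'⟩ := hz
      have h1 := K.inv_mem (hevmem r (hok r hr))
      have h2 : ev gh r = ((shiftP (-z) : Equiv.Perm (PM n A)), (1 : G)) := by
        refine Prod.ext ?_ ?_
        · rw [hgh1]
          exact evM_eq_shift C hκ (hok r hr) hz'
        · rw [hgh2]
          exact hP.hrel r hr
      rw [h2] at h1
      have h3 : ((shiftP (-z) : Equiv.Perm (PM n A)), (1 : G))⁻¹ = ((shiftP z : Equiv.Perm (PM n A)), (1 : G)) := by
        refine Prod.ext ?_ ?_
        · show (shiftP (-z) : Equiv.Perm (PM n A))⁻¹ = _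
          rw [inv_eq_iff_mul_eq_one, ← shiftP_add, neg_add_cancel, shiftP_zero]
        · exact inv_one
      rwa [h3] at h1
    | zero =>
      have e : ((shiftP (0 : A) : Equiv.Perm (PM n A)), (1 : G)) = 1 := Prod.ext shiftP_zero rfl
      rw [e]
      exact K.one_mem
    | add a b _ _ h1 h2 =>
      have e : ((shiftP (a + b) : Equiv.Perm (PM n A)), (1 : G)) = ((shiftP a : Equiv.Perm (PM n A)), (1 : G)) * ((shiftP b : Equiv.Perm (PM n A)), (1 : G)) :=
        Prod.ext (shiftP_add a b) (mul_one _).symm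
      rw [e]
      exact K.mul_mem h1 h2
    | neg a _ h1 =>
      have h3 := K.inv_mem h1
      have e : ((shiftP a : Equiv.Perm (PM n A)), (1 : G))⁻¹ = ((shiftP (-a) : Equiv.Perm (PM n A)), (1 : G)) := by
        refine Prod.ext ?_ ?_
        · show (shiftP a : Equiv.Perm (PM n A))⁻¹ = _
          rw [inv_eq_iff_mul_eq_one, ← shiftP_add, add_neg_cancel, shiftP_zero]
        · exact inv_one
      rwa [e] at h3
  -- the kernel is isomorphic to the scalars
  let Φ : Multiplicative A →* σ.ker :=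
    { toFun := fun c => ⟨⟨((shiftP (Multiplicative.toAdd c) : Equiv.Perm (PM n A)), (1 : G)), hsall _⟩, rfl⟩
      map_one' := by
        apply Subtype.ext
        apply Subtype.ext
        exact Prod.ext shiftP_zero rfl
      map_mul' := by
        intro a b
        apply Subtype.ext
        apply Subtype.ext
        refine Prod.ext ?_ ?_
        · exact shiftP_add _ _
        · exact (mul_one _).symm }
  have hΦ : Function.Bijective Φ := by
    constructor
    · intro a b e
      have e1 := congrArg (fun u : σ.ker => ((u : K) : Equiv.Perm (PM n A) × G).1) e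
      have e2 : (shiftP (Multiplicative.toAdd a) : Equiv.Perm (PM n A)) = shiftP (Multiplicative.toAdd b) := e1
      have e3 := congrArg (fun s : Equiv.Perm (PM n A) => (s (⟨0, h0⟩, 0)).2) e2
      simp only [shiftP_apply, zero_add] at e3
      exact Multiplicative.toAdd.injective e3
    · rintro ⟨u, hu⟩
      obtain ⟨⟨c, h1⟩, h2⟩ := (hmemN u).1 (hker hu)
      refine ⟨Multiplicative.ofAdd c, ?_⟩
      apply Subtype.ext
      apply Subtype.ext
      exact Prod.ext h1.symm h2.symm
  exact ⟨K, inferInstance, inferInstance, σ, hstem, ⟨(MulEquiv.ofBijective Φ hΦ).symm⟩⟩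

end Cfsg.Agent.Lib.KnownSimple.MultC.LowA
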