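import Cfsg.Agent.Lib.KnownSimple.MultC.Glue

/-!
# The cocycle test on the relators up to rotation
-/

set_option autoImplicit false

namespace Cfsg.Agent.Lib.KnownSimple.MultC

open Cfsg Cfsg.Agent.Lib.Compute

variable {d n : ℕ}

theorem sumK_append (κ τ : ℕ → ℕ → ℕ) (u v : List ℕ) (i : ℕ) :
    sumK κ τ (u ++ v) i = sumK κ τ u i + sumK κ τ v (actW τ u i) := by
  induction u generalizing i with
  | nil => simp [sumK_nil, actW_nil]
  | cons a u ih => simp only [List.cons_append, sumK_cons, actW_cons, ih, Nat.add_assoc]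

theorem actW_lt_n (C : Coset d n) {w : List ℕ} (hw : ∀ l ∈ w, l < 2 * d) {i : ℕ} (hi : i < n) : actW C.τ w i < n := by
  induction w generalizing i with
  | nil => exact hi
  | cons a w ih =>
    rw [actW_cons]
    exact ih (fun l hl => hw l (List.mem_cons_of_mem _ hl)) (C.hlt _ _ (hw a List.mem_cons_self) hi)

theorem rot_const (C : Coset d n) {κ : ℕ → ℕ → ℕ} {m : ℕ} {u w : List ℕ} (hu : ∀ l ∈ u, l < 2 * d) (hw : ∀ l ∈ w, l < 2 * d)
    {z : ZMod m} (h : ∀ i, i < n → actW C.τ (u ++ w) i = i ∧ ((sumK κ C.τ (u ++ w) i : ℕ) : ZMod m) = z) :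
    ∀ j, j < n → actW C.τ (w ++ u) j = j ∧ ((sumK κ C.τ (w ++ u) j : ℕ) : ZMod m) = z := by
  intro j hj
  let fu : Fin n → Fin n := fun i => ⟨actW C.τ u i.1, actW_lt_n C hu i.2⟩
  have hinj : Function.Injective fu := by
    intro a b hab
    have h1 := (h a.1 a.2).1
    have h2 := (h b.1 b.2).1
    rw [actW_append] at h1 h2
    have h3 : actW C.τ u a.1 = actW C.τ u b.1 := congrArg Fin.val hab
    rw [h3] at h1
    exact Fin.ext (h1.symm.trans h2)
  obtain ⟨i, hi⟩ := (Finite.injective_iff_surjective.1 hinj) ⟨j, hj⟩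
  have e1 : actW C.τ u i.1 = j := congrArg Fin.val hi
  have e2 := (h i.1 i.2).1
  rw [actW_append, e1] at e2
  have e3 := (h i.1 i.2).2
  rw [sumK_append, e1] at e3
  constructor
  · rw [actW_append, e2, e1]
  · rw [sumK_append, e2, add_comm]
    exact e3

/-- The relations of the presentation, from those up to rotation. -/
theorem of_chkRels_rot (C : Coset d n) {κ : ℕ → ℕ → ℕ} {m : ℕ} {R₀ rels : List (List ℕ)} (h : chkRels κ C.τ n m R₀ = true)
    (hok : ∀ r ∈ R₀, ∀ l ∈ r, l < 2 * d) (hrot : ∀ r ∈ rels, ∃ r₀ ∈ R₀, ∃ k, r₀.rotate k = r) :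
    ∀ r ∈ rels, ∃ z : ZMod m, ∀ i, i < n → actW C.τ r i = i ∧ ((sumK κ C.τ r i : ℕ) : ZMod m) = z := by
  intro r hr
  obtain ⟨r₀, hr₀, k, rfl⟩ := hrot r hr
  obtain ⟨z, hz⟩ := of_chkRels h r₀ hr₀
  refine ⟨z, ?_⟩
  rw [List.rotate_eq_drop_append_take_mod]
  have e : r₀ = r₀.take (k % r₀.length) ++ r₀.drop (k % r₀.length) := (List.take_append_drop _ _).symm
  refine rot_const C (fun l hl => hok r₀ hr₀ l (List.mem_of_mem_take hl)) (fun l hl => hok r₀ hr₀ l (List.mem_of_mem_drop hl)) ?_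
  rw [← e]
  exact hz

end Cfsg.Agent.Lib.KnownSimple.MultC
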