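import Cfsg.Agent.Lib.KnownSimple.MultC.LowR

/-!
# The loops of the relators up to rotation
-/

set_option autoImplicit false

namespace Cfsg.Agent.Lib.KnownSimple.MultC

open Cfsg Cfsg.Agent.Lib.Compute

variable {d n : ℕ}

/-- The loops of all rotations, from those of representatives. -/
theorem loops_rot (C : Coset d n) {R₀ rels : List (List ℕ)} (hok : ∀ r ∈ R₀, ∀ l ∈ r, l < 2 * d)
    (h : ∀ r ∈ R₀, ∀ i, i < n → actW C.τ r i = i) (hrot : ∀ r ∈ rels, ∃ r₀ ∈ R₀, ∃ k, r₀.rotate k = r) :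
    ∀ r ∈ rels, ∀ i, i < n → actW C.τ r i = i := by
  intro r hr i hi
  obtain ⟨r₀, hr₀, k, rfl⟩ := hrot r hr
  rw [List.rotate_eq_drop_append_take_mod]
  have e : r₀ = r₀.take (k % r₀.length) ++ r₀.drop (k % r₀.length) := (List.take_append_drop _ _).symm
  refine (rot_const C (κ := fun _ _ => 0) (m := 1) (z := 0) (fun l hl => hok r₀ hr₀ l (List.mem_of_mem_take hl))
    (fun l hl => hok r₀ hr₀ l (List.mem_of_mem_drop hl)) ?_ i hi).1
  intro j hj
  rw [← e]
  exact ⟨h r₀ hr₀ j hj, Subsingleton.elim _ _⟩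

end Cfsg.Agent.Lib.KnownSimple.MultC
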