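import Cfsg.Agent.Lib.KnownSimple.MultC.Val

/-!
# Schur multipliers: the upper bound from a table of values of the edges
-/

set_option autoImplicit false

namespace Cfsg.Agent.Lib.KnownSimple.MultC

open Cfsg Cfsg.Agent.Lib.Compute
open scoped commutatorElement

variable {d n : ℕ}

theorem and_of_bcond' {a b : Bool} (h : bcond a b false = true) : a = true ∧ b = true := by
  cases a <;> cases b <;> simp_all [bcond]

theorem tw_pos {par gen : ℕ → ℕ} {i : ℕ} (h : par i < i) : tw par gen i = tw par gen (par i) ++ [gen i] := by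
  rw [tw, dif_pos h]

theorem tw_zero {par gen : ℕ → ℕ} : tw par gen 0 = [] := by
  rw [tw, dif_neg (Nat.not_lt_zero _)]

theorem tree_facts {τ : ℕ → ℕ → ℕ} {par gen : ℕ → ℕ} (h : chkTree τ d n par gen = true) {i : ℕ} (hi : i < n) (hi0 : i ≠ 0) :
    par i < i ∧ gen i < 2 * d ∧ τ (gen i) (par i) = i := by
  have h1 := (allBelow_iff _ _).1 h i hi
  have h3 : Nat.beq i 0 = false := by
    cases h2 : Nat.beq i 0 with
    | false => rfl
    | true => exact absurd (Nat.eq_of_beq_eq_true h2) hi0
  rw [h3, bcond_false] at h1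
  cases h4 : Nat.blt (par i) i with
  | false => rw [h4, bcond_false] at h1; exact Bool.noConfusion h1
  | true =>
    rw [h4, bcond_true] at h1
    cases h5 : Nat.blt (gen i) (2 * d) with
    | false => rw [h5, bcond_false] at h1; exact Bool.noConfusion h1
    | true =>
      rw [h5, bcond_true] at h1
      exact ⟨by simpa [Nat.blt_eq] using h4, by simpa [Nat.blt_eq] using h5, Nat.eq_of_beq_eq_true h1⟩

theorem tw_ok {τ : ℕ → ℕ → ℕ} {par gen : ℕ → ℕ} (h : chkTree τ d n par gen = true) :
    ∀ i, i < n → (∀ l ∈ tw par gen i, l < 2 * d) ∧ actW τ (tw par gen i) 0 = i := by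
  intro i
  induction i using Nat.strong_induction_on with
  | _ i ih =>
    intro hi
    by_cases hi0 : i = 0
    · subst hi0
      rw [tw_zero]
      exact ⟨by simp, rfl⟩
    · obtain ⟨h1, h2, h3⟩ := tree_facts h hi hi0
      obtain ⟨h4, h5⟩ := ih _ h1 (by omega)
      rw [tw_pos h1]
      refine ⟨?_, ?_⟩
      · intro l hl
        rcases List.mem_append.1 hl with h6 | h6
        · exact h4 l h6
        · rw [List.mem_singleton] at h6
          rw [h6]
          exact h2
      · rw [actW_append, h5, actW_cons, actW_nil]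
        exact h3

section vec

variable {A : Type*} [CommGroup A]

theorem eq_one_of_zpow {r : A} {k : ℤ} (h : r ^ k = 1) (hk : k = 1 ∨ k = -1) : r = 1 := by
  rcases hk with rfl | rfl
  · simpa using h
  · simpa using h

theorem lg_mem_default {β : Type} (a : β) {l : List β} {k : ℕ} (h : k < l.length) : lg a l k ∈ l := by
  rw [lg_eq, List.getD_eq_getElem _ _ h]
  exact List.getElem_mem h

theorem evalV_tgt {c : ℕ → A} {P Qr q : ℕ} {acc : List ℤ} {z : A} (hz : evalV c acc = z)
    (h1 : q < Qr → c (P + q) = z) (h2 : ¬ q < Qr → z = 1) : evalV c (tgt P Qr q acc) = 1 := by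
  unfold tgt
  by_cases h : q < Qr
  · have h3 : Nat.blt q Qr = true := by simpa [Nat.blt_eq] using h
    rw [h3, bcond_true, evalV_vsub, evalV_unitV, hz, h1 h, mul_inv_cancel]
  · have h3 : Nat.blt q Qr = false := by
      cases h4 : Nat.blt q Qr with
      | false => rfl
      | true => exact absurd (by simpa [Nat.blt_eq] using h4) h
    rw [h3, bcond_false, hz, h2 h]

theorem eval_of_tgt {c : ℕ → A} {P Qr q : ℕ} {acc : List ℤ} {z : A} (h : evalV c (tgt P Qr q acc) = 1)
    (h1 : q < Qr → c (P + q) = z) (h2 : ¬ q < Qr → z = 1) : evalV c acc = z := by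
  unfold tgt at h
  by_cases hq : q < Qr
  · have h3 : Nat.blt q Qr = true := by simpa [Nat.blt_eq] using hq
    rw [h3, bcond_true, evalV_vsub, evalV_unitV, h1 hq] at h
    exact mul_inv_eq_one.1 h
  · have h3 : Nat.blt q Qr = false := by
      cases h4 : Nat.blt q Qr with
      | false => rfl
      | true => exact absurd (by simpa [Nat.blt_eq] using h4) hq
    rw [h3, bcond_false] at h
    rw [h, h2 hq]

theorem sumComb_one {c : ℕ → A} {P Qr : ℕ} {rows : List (ℕ × ℕ × List ℤ)}
    (hrows : ∀ x ∈ rows, evalV c (tgt P Qr x.2.1 x.2.2) = 1) (L : List (ℕ × ℤ)) (hL : ∀ a ∈ L, a.1 < rows.length) :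
    evalV c (sumComb P Qr rows L) = 1 := by
  induction L with
  | nil => rfl
  | cons a L ih =>
    show evalV c (vadd (vsm a.2 (tgt P Qr (lg (0, 0, []) rows a.1).2.1 (lg (0, 0, []) rows a.1).2.2)) (sumComb P Qr rows L)) = 1
    rw [evalV_vadd, ih (fun b hb => hL b (List.mem_cons_of_mem _ hb)), evalV_vsm,
      hrows _ (lg_mem_default _ (hL a List.mem_cons_self)), one_zpow, mul_one]

theorem comb_sound {c : ℕ → A} {P Qr qs q : ℕ} {rows : List (ℕ × ℕ × List ℤ)}
    (hrows : ∀ x ∈ rows, evalV c (tgt P Qr x.2.1 x.2.2) = 1) {a : ℤ} {L : List (ℕ × ℤ)}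
    (h : chkComb P Qr rows qs q a L = true) : c (P + q) = c (P + qs) ^ a := by
  unfold chkComb at h
  cases h1 : L.all (fun x => Nat.blt x.1 rows.length) with
  | false => rw [h1, bcond_false] at h; exact Bool.noConfusion h
  | true =>
    rw [h1, bcond_true] at h
    have hL : ∀ x ∈ L, x.1 < rows.length := by
      intro x hx
      simpa [Nat.blt_eq] using List.all_eq_true.1 h1 x hx
    have h2 := evalV_of_vzero h c
    rw [evalV_vsub, sumComb_one hrows L hL, one_mul, inv_eq_one, evalV_vadd, evalV_vsm, evalV_unitV, evalV_unitV, zpow_neg]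
      at h2
    exact mul_inv_eq_one.1 h2

end vec

section main

variable {G Γ : Type} [Group G] [Group Γ] {g : ℕ → G} {σ : Γ →* G} {ρ : G →* Equiv.Perm (Fin n)} {h0 : 0 < n}
  (C : Coset d n) {y : ℕ → Γ}

/-- The coordinates of the vectors. -/
noncomputable def cV (C : Coset d n) (σ : Γ →* G) (ρ : G →* Equiv.Perm (Fin n)) (h0 : 0 < n) (y t : ℕ → Γ)
    (RL : List (List ℕ)) (P : ℕ) (pe : ℕ → ℕ) (j : ℕ) : Abelianization (Ht σ ρ h0) :=
  if j < P then edgeV C σ ρ h0 y t (pe j) else cl σ ρ h0 (ev y (lg [] RL (j - P)))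

theorem ht_tree (hρ : ∀ x, x < d → ρ (g x) = (C.p x)⁻¹) (hy : ∀ x, σ (y x) = g x) {par gen : ℕ → ℕ}
    (hTree : chkTree C.τ d n par gen = true) :
    ∀ i (hi : i < n), (ρ (σ (ev y (tw par gen i))))⁻¹ ⟨0, h0⟩ = ⟨i, hi⟩ := by
  intro i hi
  obtain ⟨h1, h2⟩ := tw_ok hTree i hi
  have hev : σ (ev y (tw par gen i)) = ev g (tw par gen i) := by
    rw [map_ev]
    congr 1
    exact funext hy
  rw [hev]
  exact Fin.ext ((act_rho C hρ _ h1 ⟨0, h0⟩).trans h2)

theorem edge_tree (hρ : ∀ x, x < d → ρ (g x) = (C.p x)⁻¹) (hy : ∀ x, σ (y x) = g x) {par gen : ℕ → ℕ}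
    (hTree : chkTree C.τ d n par gen = true) {i : ℕ} (hi : i < n) (hi0 : i ≠ 0) :
    edgeV C σ ρ h0 y (fun i => ev y (tw par gen i)) (treeE d par gen i) = 1 := by
  have ht := ht_tree (h0 := h0) C hρ hy hTree
  obtain ⟨h1, h2, h3⟩ := tree_facts hTree hi hi0
  have hp : par i < n := by omega
  have e1 : ev y (tw par gen (par i)) * lv y (gen i) * (ev y (tw par gen (C.τ (gen i) (par i))))⁻¹ = 1 := by
    rw [h3, tw_pos h1, ev_append, ev_cons, ev_nil, mul_one, mul_inv_cancel]
  unfold treeE
  by_cases hg : gen i % 2 = 0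
  · have hb : Nat.beq (Nat.mod (gen i) 2) 0 = true := by
      rw [Nat.beq_eq]
      exact hg
    rw [hb, bcond_true]
    show edgeV C σ ρ h0 y _ (par i * d + gen i / 2) = 1
    rw [edge_even (ρ := ρ) (h0 := h0) C hρ hy ht h2 hg]
    show cl σ ρ h0 (ev y (tw par gen (par i)) * lv y (gen i) * (ev y (tw par gen (C.τ (gen i) (par i))))⁻¹) = 1
    rw [e1, cl_one]
  · have hb : Nat.beq (Nat.mod (gen i) 2) 0 = false := by
      cases h5 : Nat.beq (Nat.mod (gen i) 2) 0 with
      | false => rfl
      | true => exact absurd (Nat.eq_of_beq_eq_true h5) hg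
    rw [hb, bcond_false]
    show edgeV C σ ρ h0 y _ (i * d + gen i / 2) = 1
    have e2 := edge_odd (ρ := ρ) (h0 := h0) C hρ hy ht h2 hg hp
    rw [h3] at e2
    rw [e2]
    show (cl σ ρ h0 (ev y (tw par gen (par i)) * lv y (gen i) * (ev y (tw par gen _))⁻¹))⁻¹ = 1
    rw [h3] at e1
    rw [e1, cl_one, inv_one]

theorem closed_central {t₀ : Γ} {r : Γ} (hc : σ.ker ≤ Subgroup.center Γ) (h : r ∈ σ.ker) : t₀ * r * t₀⁻¹ = r := by
  rw [Subgroup.mem_center_iff.1 (hc h) t₀]
  group

theorem edges_ok (hρ : ∀ x, x < d → ρ (g x) = (C.p x)⁻¹) (hy : ∀ x, σ (y x) = g x) (hc : σ.ker ≤ Subgroup.center Γ)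
    {RL : List (List ℕ)}
    (hRL : ∀ r ∈ RL, (∀ l ∈ r, l < 2 * d) ∧ (∀ i, i < n → actW C.τ r i = i) ∧ ev y r ∈ σ.ker) {Q P Qr : ℕ}
    (hQ : RL.length = Q) (hrho : ∀ q, Qr ≤ q → q < Q → ev y (lg [] RL q) = 1) {par gen pe : ℕ → ℕ}
    (hTree : chkTree C.τ d n par gen = true) {T : ZV}
    (hE : ∀ e, e < n * d → chkEdge C.τ d n RL Q P Qr par gen pe T e = true) :
    ∀ e, e < n * d → edgeV C σ ρ h0 y (fun i => ev y (tw par gen i)) e =
      evalV (cV C σ ρ h0 y (fun i => ev y (tw par gen i)) RL P pe) (lookV e e T).2.2 := by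
  have ht := ht_tree (h0 := h0) C hρ hy hTree
  set t : ℕ → Γ := fun i => ev y (tw par gen i) with htdef
  set c := cV C σ ρ h0 y t RL P pe with hcdef
  have key : ∀ R e, e < n * d → (lookV e e T).1 = R → edgeV C σ ρ h0 y t e = evalV c (lookV e e T).2.2 := by
    intro R
    induction R using Nat.strong_induction_on with
    | _ R ih =>
      intro e he hR
      have h := hE e he
      unfold chkEdge at h
      rw [elimN_eq] at h
      cases hb : Nat.beq (lookV e e T).1 0 with
      | true =>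
        rw [hb, bcond_true] at h
        cases hj : Nat.blt (lookV e e T).2.1 n with
        | true =>
          rw [hj, bcond_true] at h
          cases hj0 : Nat.blt 0 (lookV e e T).2.1 with
          | false => rw [hj0, bcond_false] at h; exact Bool.noConfusion h
          | true =>
            rw [hj0, bcond_true] at h
            cases hte : Nat.beq (treeE d par gen (lookV e e T).2.1) e with
            | false => rw [hte, bcond_false] at h; exact Bool.noConfusion h
            | true =>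
              rw [hte, bcond_true] at h
              have h1 : (lookV e e T).2.1 < n := by simpa [Nat.blt_eq] using hj
              have h2 : 0 < (lookV e e T).2.1 := by simpa [Nat.blt_eq] using hj0
              rw [evalV_of_vzero h, ← Nat.eq_of_beq_eq_true hte]
              exact edge_tree (h0 := h0) C hρ hy hTree h1 (by omega)
        | false =>
          rw [hj, bcond_false] at h
          cases hp : Nat.blt ((lookV e e T).2.1 - n) P with
          | false => rw [hp, bcond_false] at h; exact Bool.noConfusion h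
          | true =>
            rw [hp, bcond_true] at h
            cases hpe : Nat.beq (pe ((lookV e e T).2.1 - n)) e with
            | false => rw [hpe, bcond_false] at h; exact Bool.noConfusion h
            | true =>
              rw [hpe, bcond_true] at h
              have h1 := evalV_of_vzero h c
              rw [evalV_vsub, evalV_unitV] at h1
              rw [mul_inv_eq_one.1 h1]
              have h2 : (lookV e e T).2.1 - n < P := by simpa [Nat.blt_eq] using hp
              have h3 : c ((lookV e e T).2.1 - n) = edgeV C σ ρ h0 y t (pe ((lookV e e T).2.1 - n)) := by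
                simp only [hcdef, cV]
                rw [if_pos h2]
              rw [h3, Nat.eq_of_beq_eq_true hpe]
      | false =>
        rw [hb, bcond_false] at h
        simp only [fN_eq] at h
        cases hiq : bcond (Nat.blt (Nat.div (lookV e e T).2.1 Q) n) (Nat.blt (Nat.mod (lookV e e T).2.1 Q) Q) false with
        | false => rw [hiq, bcond_false] at h; exact Bool.noConfusion h
        | true =>
          rw [hiq, bcond_true] at h
          obtain ⟨hi1, hq1⟩ := and_of_bcond' hiq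
          set i := Nat.div (lookV e e T).2.1 Q with hidef
          set q := Nat.mod (lookV e e T).2.1 Q with hqdef
          have hi : i < n := by simpa [Nat.blt_eq] using hi1
          have hq : q < Q := by simpa [Nat.blt_eq] using hq1
          have hr : lg [] RL q ∈ RL := lg_mem_default _ (by omega)
          obtain ⟨h1, h2, h3⟩ := hRL _ hr
          have hIH : ∀ f, f < n * d → (lookV f f T).1 < (lookV e e T).1 →
              edgeV C σ ρ h0 y t f = evalV c (lookV f f T).2.2 := fun f hf hlt => ih _ (hR ▸ hlt) f hf rfl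
          obtain ⟨acc', net', hK, he'⟩ := wkD_sound C hρ hy ht c hIH _ h1 hi [] 0 _ h
          cases hK1 : vzero (tgt P Qr q acc') with
          | false => rw [hK1, bcond_false] at hK; exact Bool.noConfusion hK
          | true =>
            rw [hK1, bcond_true] at hK
            have hnet : net' = 1 ∨ net' = -1 := by
              cases h5 : decide (net' = 1) with
              | true => exact Or.inl (of_decide_eq_true h5)
              | false =>
                rw [h5, bcond_false] at hK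
                exact Or.inr (of_decide_eq_true hK)
            have he2 := evalV_of_vzero hK1 c
            have e3 : evalV c acc' = cl σ ρ h0 (ev y (lg [] RL q)) := by
              refine eval_of_tgt he2 (fun h6 => ?_) (fun h6 => ?_)
              · simp only [hcdef, cV]
                rw [if_neg (by omega), Nat.add_sub_cancel_left]
              · rw [hrho q (by omega) hq, cl_one]
            rw [e3, h2 i hi, closed_central hc h3] at he'
            have e4 : evalV c (([] : List ℤ)) = 1 := rfl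
            rw [e4, one_mul, sub_zero] at he'
            have e5 := eq_one_of_zpow (mul_eq_left.1 he'.symm) hnet
            exact (mul_inv_eq_one.1 e5).symm
  exact fun e he => key _ e he rfl

theorem rows_ok (hρ : ∀ x, x < d → ρ (g x) = (C.p x)⁻¹) (hy : ∀ x, σ (y x) = g x) (hc : σ.ker ≤ Subgroup.center Γ)
    {RL : List (List ℕ)}
    (hRL : ∀ r ∈ RL, (∀ l ∈ r, l < 2 * d) ∧ (∀ i, i < n → actW C.τ r i = i) ∧ ev y r ∈ σ.ker) {Q P Qr : ℕ}
    (hQ : RL.length = Q) (hrho : ∀ q, Qr ≤ q → q < Q → ev y (lg [] RL q) = 1) {par gen pe : ℕ → ℕ}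
    (hTree : chkTree C.τ d n par gen = true) {T : ZV}
    (hE : ∀ e, e < n * d → chkEdge C.τ d n RL Q P Qr par gen pe T e = true) {Rb : ℕ} {rows : List (ℕ × ℕ × List ℤ)}
    (hF : ∀ x ∈ rows, chkRow C.τ d n RL Q (n * d) Rb T x = true) :
    ∀ x ∈ rows, evalV (cV C σ ρ h0 y (fun i => ev y (tw par gen i)) RL P pe) (tgt P Qr x.2.1 x.2.2) = 1 := by
  have ht := ht_tree (h0 := h0) C hρ hy hTree
  have hok := edges_ok (h0 := h0) C hρ hy hc hRL hQ hrho hTree hE
  set t : ℕ → Γ := fun i => ev y (tw par gen i) with htdef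
  set c := cV C σ ρ h0 y t RL P pe with hcdef
  intro x hx
  have h := hF x hx
  unfold chkRow at h
  cases hiq : bcond (Nat.blt x.1 n) (Nat.blt x.2.1 Q) false with
  | false => rw [hiq, bcond_false] at h; exact Bool.noConfusion h
  | true =>
    rw [hiq, bcond_true] at h
    obtain ⟨hi1, hq1⟩ := and_of_bcond' hiq
    have hi : x.1 < n := by simpa [Nat.blt_eq] using hi1
    have hq : x.2.1 < Q := by simpa [Nat.blt_eq] using hq1
    have hr : lg [] RL x.2.1 ∈ RL := lg_mem_default _ (by omega)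
    obtain ⟨h1, h2, h3⟩ := hRL _ hr
    obtain ⟨acc', net', hK, he'⟩ := wkD_sound C hρ hy ht c (fun f hf _ => hok f hf) _ h1 hi [] 0 _ h
    cases hK1 : decide (net' = 0) with
    | false => rw [hK1, bcond_false] at hK; exact Bool.noConfusion hK
    | true =>
      rw [hK1, bcond_true] at hK
      have hnet : net' = 0 := of_decide_eq_true hK1
      have he2 := evalV_of_vzero hK c
      rw [evalV_vsub] at he2
      have e1 : evalV c acc' = evalV c x.2.2 := mul_inv_eq_one.1 he2
      rw [h2 _ hi, closed_central hc h3, hnet, sub_zero, zpow_zero, mul_one, e1] at he'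
      have e4 : evalV c (([] : List ℤ)) = 1 := rfl
      rw [e4, one_mul] at he'
      refine evalV_tgt he' (fun h6 => ?_) (fun h6 => ?_)
      · simp only [hcdef, cV]
        rw [if_neg (by omega), Nat.add_sub_cancel_left]
      · rw [hrho _ (by omega) hq, cl_one]

/-- The relations between the values of the relators. -/
theorem val_sound [Finite Γ] (hρ : ∀ x, x < d → ρ (g x) = (C.p x)⁻¹) (hy : ∀ x, σ (y x) = g x)
    (hs : Function.Surjective σ) (hc : σ.ker ≤ Subgroup.center Γ) (hMF : MF (stabOf ρ h0)) {RL : List (List ℕ)}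
    (hRL : ∀ r ∈ RL, (∀ l ∈ r, l < 2 * d) ∧ (∀ i, i < n → actW C.τ r i = i) ∧ ev y r ∈ σ.ker) {Q P Qr : ℕ}
    (hQ : RL.length = Q) (hrho : ∀ q, Qr ≤ q → q < Q → ev y (lg [] RL q) = 1) (hQr : Qr ≤ Q) {par gen pe : ℕ → ℕ}
    (hTree : chkTree C.τ d n par gen = true) {T : ZV}
    (hE : ∀ e, e < n * d → chkEdge C.τ d n RL Q P Qr par gen pe T e = true) {Rb : ℕ} {rows : List (ℕ × ℕ × List ℤ)}
    (hF : ∀ x ∈ rows, chkRow C.τ d n RL Q (n * d) Rb T x = true) {qs q : ℕ} (hq : q < Qr) (hqs : qs < Qr) {a : ℤ}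
    {L : List (ℕ × ℤ)} (h : chkComb P Qr rows qs q a L = true) : ev y (lg [] RL q) = ev y (lg [] RL qs) ^ a := by
  have h1 := comb_sound (rows_ok (h0 := h0) C hρ hy hc hRL hQ hrho hTree hE hF) h
  have e1 : ∀ q', cV C σ ρ h0 y (fun i => ev y (tw par gen i)) RL P pe (P + q') = cl σ ρ h0 (ev y (lg [] RL q')) := by
    intro q'
    simp only [cV]
    rw [if_neg (by omega), Nat.add_sub_cancel_left]
  rw [e1, e1] at h1
  have hz : ∀ q', q' < Q → ev y (lg [] RL q') ∈ σ.ker := by
    intro q' hq'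
    exact (hRL _ (lg_mem_default _ (by omega))).2.2
  have h9 : ev y (lg [] RL qs) ∈ Ht σ ρ h0 := ker_le_Ht (hz qs (by omega))
  apply cl_inj (h0 := h0) (ρ := ρ) hs hc hMF (hz q (by omega)) (σ.ker.zpow_mem (hz qs (by omega)) a)
  rw [cl_zpow h9]
  exact h1

/-- The upper bound for the multiplier, from a table of values. -/
theorem upperV [Finite G] {rels : List (List ℕ)} (hP : IsPres d g rels) (A B : ℕ → List ℕ)
    (hcomm : ∀ x, x < d → g x = ⁅ev g (A x), ev g (B x)⁆)
    (hρ : ∀ x, x < d → ρ (g x) = (C.p x)⁻¹) (hMF : MF (stabOf ρ h0))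
    {R₀ : List (List ℕ)} (hR₀ : ∀ r ∈ R₀, r ∈ rels) (hrot : ∀ r ∈ rels, ∃ r₀ ∈ R₀, ∃ k, r₀.rotate k = r)
    {RL : List (List ℕ)} (hRL : RL = R₀ ++ (List.range d).map (rhoW A B))
    (hok : ∀ r ∈ RL, ∀ l ∈ r, l < 2 * d) (hloop : ∀ r ∈ RL, ∀ i, i < n → actW C.τ r i = i)
    {Q P Qr : ℕ} (hQ : RL.length = Q) (hQr : R₀.length = Qr) {par gen pe : ℕ → ℕ}
    (hTree : chkTree C.τ d n par gen = true) {T : ZV}
    (hE : ∀ e, e < n * d → chkEdge C.τ d n RL Q P Qr par gen pe T e = true) {Rb : ℕ} {rows : List (ℕ × ℕ × List ℤ)}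
    (hF : ∀ x ∈ rows, chkRow C.τ d n RL Q (n * d) Rb T x = true)
    {qs m : ℕ} (hqs : qs < Qr)
    (hcert : ∀ q, q < Qr → ∃ (a : ℤ) (L : List (ℕ × ℤ)), chkComb P Qr rows qs q a L = true ∧ (q = qs → a = 1 - m))
    (Γ : Type) [Group Γ] [Finite Γ] (σ : Γ →* G) (hσ : IsStemExtension σ) :
    ∃ π : Multiplicative (ZMod m) →* σ.ker, Function.Surjective π := by
  classical
  obtain ⟨y, hy, hyc⟩ := exists_lifts (d := d) hσ.1 hσ.2.1 g A B hcomm
  have hev : ∀ w, σ (ev y w) = ev g w := fun w => by
    rw [map_ev]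
    congr 1
    exact funext hy
  have hrho1 : ∀ x, x < d → ev y (rhoW A B x) = 1 := by
    intro x hx
    unfold rhoW
    rw [ev_cons, ev_comW, ← hyc x hx]
    have e1 : (2 * x + 1) % 2 ≠ 0 := by omega
    have e2 : (2 * x + 1) / 2 = x := by omega
    simp [lv, e1, e2]
  have hkerR : ∀ r ∈ R₀, ev y r ∈ σ.ker := by
    intro r hr
    rw [MonoidHom.mem_ker, hev]
    exact hP.hrel r (hR₀ r hr)
  have hRL2 : ∀ r ∈ RL, (∀ l ∈ r, l < 2 * d) ∧ (∀ i, i < n → actW C.τ r i = i) ∧ ev y r ∈ σ.ker := by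
    intro r hr
    refine ⟨hok r hr, hloop r hr, ?_⟩
    rw [hRL] at hr
    rcases List.mem_append.1 hr with h | h
    · exact hkerR r h
    · obtain ⟨x, hx, rfl⟩ := List.mem_map.1 h
      rw [hrho1 x (List.mem_range.1 hx)]
      exact σ.ker.one_mem
  have hlen : RL.length = R₀.length + d := by
    rw [hRL]
    simp
  have hlg : ∀ q, q < R₀.length → lg [] RL q = R₀.getD q [] := by
    intro q hq
    rw [lg_eq, hRL, List.getD_append _ _ _ _ hq]
  have hrho : ∀ q', Qr ≤ q' → q' < Q → ev y (lg [] RL q') = 1 := by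
    intro q' h1 h2
    rw [← hQr] at h1
    rw [← hQ] at h2
    have e1 : lg [] RL q' = rhoW A B (q' - R₀.length) := by
      have h3 : q' - R₀.length < d := by omega
      rw [lg_eq, hRL, List.getD_append_right _ _ _ _ h1]
      rw [List.getD_eq_getElem _ _ (by simpa using h3)]
      simp
    rw [e1]
    exact hrho1 _ (by omega)
  have hQrQ : Qr ≤ Q := by omega
  set u := ev y (lg [] RL qs) with hu
  have hz : ∀ q, q < R₀.length → ∃ a : ℤ, ev y (lg [] RL q) = u ^ a ∧ (q = qs → a = 1 - m) := by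
    intro q hq
    rw [hQr] at hq
    obtain ⟨a, L, h1, h2⟩ := hcert q hq
    exact ⟨a, val_sound (h0 := h0) C hρ hy hσ.1 hσ.2.1 hMF hRL2 hQ hrho hQrQ hTree hE hF hq hqs h1, h2⟩
  have hqs' : qs < R₀.length := by omega
  have hu1 : u ∈ σ.ker := by
    rw [hu, hlg qs hqs', List.getD_eq_getElem _ _ hqs']
    exact hkerR _ (List.getElem_mem hqs')
  have hum : u ^ m = 1 := by
    obtain ⟨a, h1, h2⟩ := hz qs hqs'
    rw [h2 rfl, ← hu] at h1
    have h3 : u = u * (u ^ m)⁻¹ := by
      have e : u ^ (1 - (m : ℤ)) = u * (u ^ m)⁻¹ := by rw [zpow_sub, zpow_one, zpow_natCast]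
      exact h1.trans e
    have h4 : (u ^ m)⁻¹ = 1 := by
      have := mul_left_cancel (a := u) (b := 1) (c := (u ^ m)⁻¹) (by rw [mul_one]; exact h3)
      exact this.symm
    exact inv_eq_one.1 h4
  have hcen : Subgroup.zpowers u ≤ Subgroup.center Γ := by
    rw [Subgroup.zpowers_le]
    exact hσ.2.1 hu1
  haveI hN : (Subgroup.zpowers u).Normal := by
    constructor
    intro a ha b
    have := Subgroup.mem_center_iff.1 (hcen ha) b
    rw [this, mul_inv_cancel_right]
    exact ha
  have hle : σ.ker ≤ Subgroup.zpowers u := by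
    refine ker_le_of_rels hP σ y (fun x _ => hy x) (closure_lifts hσ hy hP.hgen) _ ?_ ?_
    · rw [Subgroup.zpowers_le]
      exact hu1
    · intro r hr
      obtain ⟨r₀, hr₀, k, rfl⟩ := hrot r hr
      rw [ev_rotate_of_central (hσ.2.1 (hkerR r₀ hr₀))]
      obtain ⟨q, hq, rfl⟩ := List.mem_iff_getElem.1 hr₀
      obtain ⟨a, h1, _⟩ := hz q hq
      rw [hlg q hq, List.getD_eq_getElem _ _ hq] at h1
      rw [h1]
      exact Subgroup.zpow_mem_zpowers u a
  obtain ⟨π, hπ⟩ := exists_cyclic (K := σ.ker) m ⟨u, hu1⟩ (Subtype.ext (by simpa using hum))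
  refine ⟨π, ?_⟩
  rintro ⟨v, hv⟩
  obtain ⟨k, hk⟩ := Subgroup.mem_zpowers_iff.1 (hle hv)
  refine ⟨Multiplicative.ofAdd (k : ZMod m), ?_⟩
  rw [hπ]
  apply Subtype.ext
  simpa using hk

end main

end Cfsg.Agent.Lib.KnownSimple.MultC
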