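import Cfsg.Agent.Lib.KnownSimple.MultC.ValF
import Cfsg.Agent.Lib.KnownSimple.MultC.ValMain

/-!
# Products of matrices over small fields, by computation with digits
-/

set_option autoImplicit false

namespace Cfsg.Agent.Lib.KnownSimple.MultC.MatN

open Cfsg Cfsg.Agent.Lib.Compute Cfsg.Agent.Lib.KnownSimple.MultC
open scoped Matrix

/-- A coding of the elements of a ring by digits. -/
structure FC (R : Type) [CommRing R] where
  b : ℕ
  add : ℕ → ℕ → ℕ
  mul : ℕ → ℕ → ℕ
  c : ℕ → R
  hb : 1 < b
  c_mod : ∀ a, c (a % b) = c a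
  c_add : ∀ a x, c (add a x) = c a + c x
  c_mul : ∀ a x, c (mul a x) = c a * c x
  c_zero : c 0 = 0
  c_one : c 1 = 1

/-- A row times a vector of digits. -/
noncomputable def rowN (add mul : ℕ → ℕ → ℕ) (b : ℕ) : List ℕ → ℕ → ℕ :=
  fun row => List.rec (fun _ => 0) (fun a _ ih x => add (mul a (Nat.mod x b)) (fN (Nat.div x b) ih)) row

/-- A matrix times a vector of digits. -/
noncomputable def packS (add mul : ℕ → ℕ → ℕ) (b : ℕ) (rows : List (List ℕ)) (x : ℕ) : ℕ :=
  List.rec 0 (fun row _ ih => Nat.add (Nat.mod (rowN add mul b row x) b) (Nat.mul b ih)) rows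

/-- A column of a matrix, as a vector of digits. -/
noncomputable def colC (b : ℕ) (rows : List (List ℕ)) (j : ℕ) : ℕ :=
  List.rec 0 (fun row _ ih => Nat.add (Nat.mod (lg 0 row j) b) (Nat.mul b ih)) rows

/-- A word of matrices times a vector of digits. -/
noncomputable def actN (add mul : ℕ → ℕ → ℕ) (b : ℕ) (T : ℕ → List (List ℕ)) (w : List ℕ) (x : ℕ) : ℕ :=
  List.rec x (fun l _ ih => fN ih fun y => packS add mul b (T l) y) w

/-- The shape of a matrix. -/
def shapeOK (n : ℕ) (rows : List (List ℕ)) : Bool :=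
  Nat.beq rows.length n && rows.all fun row => Nat.beq row.length n

section

variable {R : Type} [CommRing R] (F : FC R)

theorem c_row (row : List ℕ) (x : ℕ) :
    F.c (rowN F.add F.mul F.b row x) = ∑ j ∈ Finset.range row.length, F.c (lg 0 row j) * F.c (dig F.b x j) := by
  induction row generalizing x with
  | nil =>
    show F.c 0 = _
    simp [F.c_zero]
  | cons a row ih =>
    have e : rowN F.add F.mul F.b (a :: row) x = F.add (F.mul a (Nat.mod x F.b)) (fN (Nat.div x F.b) (rowN F.add F.mul F.b row)) := rfl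
    rw [e, fN_eq, F.c_add, F.c_mul, ih, List.length_cons, Finset.sum_range_succ', add_comm]
    rfl

theorem dig_pack (rows : List (List ℕ)) (x i : ℕ) (hi : i < rows.length) :
    dig F.b (packS F.add F.mul F.b rows x) i = (rowN F.add F.mul F.b (lg [] rows i) x) % F.b := by
  have hb : 0 < F.b := by have := F.hb; omega
  induction rows generalizing i with
  | nil => simp at hi
  | cons row rows ih =>
    have e : packS F.add F.mul F.b (row :: rows) x =
        (rowN F.add F.mul F.b row x) % F.b + F.b * packS F.add F.mul F.b rows x := rfl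
    rw [e]
    cases i with
    | zero =>
      show ((rowN F.add F.mul F.b row x) % F.b + F.b * packS F.add F.mul F.b rows x) % F.b = (rowN F.add F.mul F.b row x) % F.b
      rw [Nat.add_mul_mod_self_left, Nat.mod_mod]
    | succ i =>
      show dig F.b (((rowN F.add F.mul F.b row x) % F.b + F.b * packS F.add F.mul F.b rows x) / F.b) i = rowN F.add F.mul F.b (lg [] rows i) x % F.b
      rw [Nat.add_mul_div_left _ _ hb, Nat.div_eq_of_lt (Nat.mod_lt _ hb), zero_add]
      exact ih i (by simpa using hi)

theorem dig_col (rows : List (List ℕ)) (j i : ℕ) (hi : i < rows.length) :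
    dig F.b (colC F.b rows j) i = (lg 0 (lg [] rows i) j) % F.b := by
  have hb : 0 < F.b := by have := F.hb; omega
  induction rows generalizing i with
  | nil => simp at hi
  | cons row rows ih =>
    have e : colC F.b (row :: rows) j = (lg 0 row j) % F.b + F.b * colC F.b rows j := rfl
    rw [e]
    cases i with
    | zero =>
      show ((lg 0 row j) % F.b + F.b * colC F.b rows j) % F.b = (lg 0 row j) % F.b
      rw [Nat.add_mul_mod_self_left, Nat.mod_mod]
    | succ i =>
      show dig F.b (((lg 0 row j) % F.b + F.b * colC F.b rows j) / F.b) i = lg 0 (lg [] rows i) j % F.b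
      rw [Nat.add_mul_div_left _ _ hb, Nat.div_eq_of_lt (Nat.mod_lt _ hb), zero_add]
      exact ih i (by simpa using hi)

variable {ι : Type} [Fintype ι] [DecidableEq ι] (ord : ι → ℕ) {n : ℕ}

/-- The matrix of a table. -/
noncomputable def toM (rows : List (List ℕ)) : Matrix ι ι R := fun i j => F.c (lg 0 (lg [] rows (ord i)) (ord j))

/-- The vector of a number. -/
noncomputable def vecC (x : ℕ) : ι → R := fun i => F.c (dig F.b x (ord i))

variable (hlt : ∀ i, ord i < n) (hinj : Function.Injective ord)
  (hord : ∀ f : ℕ → R, ∑ i, f (ord i) = ∑ j ∈ Finset.range n, f j)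

include hlt hord

theorem vec_step {rows : List (List ℕ)} (hs : shapeOK n rows = true) (x : ℕ) :
    vecC F ord (packS F.add F.mul F.b rows x) = toM F ord rows *ᵥ vecC F ord x := by
  unfold shapeOK at hs
  rw [Bool.and_eq_true] at hs
  have h1 : rows.length = n := Nat.eq_of_beq_eq_true hs.1
  ext i
  have hi : ord i < rows.length := by rw [h1]; exact hlt i
  have hl : (lg [] rows (ord i)).length = n := by
    have h2 := List.all_eq_true.1 hs.2 _ (lg_mem_default [] hi)
    exact Nat.eq_of_beq_eq_true h2
  show F.c (dig F.b _ (ord i)) = ∑ j, F.c (lg 0 (lg [] rows (ord i)) (ord j)) * F.c (dig F.b x (ord j))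
  rw [dig_pack F rows x _ hi, F.c_mod, c_row, hl]
  exact (hord (fun j => F.c (lg 0 (lg [] rows (ord i)) j) * F.c (dig F.b x j))).symm

theorem vec_act {T : ℕ → List (List ℕ)} {w : List ℕ} (hs : ∀ l ∈ w, shapeOK n (T l) = true) (x : ℕ) :
    vecC F ord (actN F.add F.mul F.b T w x) = (w.map fun l => toM F ord (T l)).prod *ᵥ vecC F ord x := by
  induction w with
  | nil =>
    show vecC F ord x = _
    simp
  | cons l w ih =>
    have e : actN F.add F.mul F.b T (l :: w) x = fN (actN F.add F.mul F.b T w x) fun y => packS F.add F.mul F.b (T l) y := rfl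
    rw [e, fN_eq, vec_step F ord hlt hord (hs l List.mem_cons_self), ih (fun a ha => hs a (List.mem_cons_of_mem _ ha))]
    rw [List.map_cons, List.prod_cons, Matrix.mulVec_mulVec]

omit hlt hord in
include hinj in
theorem vec_pow (i : ι) : vecC F ord (F.b ^ ord i) = Pi.single i 1 := by
  ext k
  show F.c (dig F.b (F.b ^ ord i) (ord k)) = _
  rw [dig_pow F.hb]
  by_cases h : k = i
  · subst h
    simp [F.c_one]
  · have : ord k ≠ ord i := fun e => h (hinj e)
    rw [if_neg this, F.c_zero, Pi.single_eq_of_ne h]

include hinj in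
theorem word_eq {T : ℕ → List (List ℕ)} {w : List ℕ} {rows : List (List ℕ)} (hs : ∀ l ∈ w, shapeOK n (T l) = true)
    (hr : rows.length = n)
    (hall : allBelow (fun j => Nat.beq (actN F.add F.mul F.b T w (F.b ^ j)) (colC F.b rows j)) n = true) :
    (w.map fun l => toM F ord (T l)).prod = toM F ord rows := by
  ext k i
  have h1 := Nat.eq_of_beq_eq_true ((allBelow_iff _ _).1 hall (ord i) (hlt i))
  have h2 := vec_act F ord hlt hord hs (F.b ^ ord i)
  rw [vec_pow F ord hinj, h1] at h2
  have h3 := congrFun h2 k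
  rw [Matrix.mulVec_single_one] at h3
  have h4 : vecC F ord (colC F.b rows (ord i)) k = toM F ord rows k i := by
    show F.c (dig F.b _ (ord k)) = F.c _
    rw [dig_col F rows _ _ (by rw [hr]; exact hlt k), F.c_mod]
  rw [h4] at h3
  exact h3.symm

include hinj in
theorem word_one {T : ℕ → List (List ℕ)} {w : List ℕ} (hs : ∀ l ∈ w, shapeOK n (T l) = true)
    (hall : allBelow (fun j => Nat.beq (actN F.add F.mul F.b T w (F.b ^ j)) (F.b ^ j)) n = true) :
    (w.map fun l => toM F ord (T l)).prod = 1 := by
  ext k i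
  have h1 := Nat.eq_of_beq_eq_true ((allBelow_iff _ _).1 hall (ord i) (hlt i))
  have h2 := vec_act F ord hlt hord hs (F.b ^ ord i)
  rw [h1, vec_pow F ord hinj] at h2
  have h3 := congrFun h2 k
  rw [Matrix.mulVec_single_one] at h3
  have h4 : (w.map fun l => toM F ord (T l)).prod k i = (Pi.single i (1 : R) : ι → R) k := h3.symm
  rw [Matrix.one_apply, h4]
  by_cases h : k = i
  · subst h
    simp
  · rw [Pi.single_eq_of_ne h, if_neg h]

end

section group

variable {R : Type} [CommRing R] {ι : Type} [Fintype ι] [DecidableEq ι] {H : Type} [Group H]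

theorem ev_mat (Φ : H →* Matrix ι ι R) (g : ℕ → H) (M : ℕ → Matrix ι ι R) (w : List ℕ)
    (hg : ∀ l ∈ w, Φ (lv g l) = M l) : Φ (ev g w) = (w.map M).prod := by
  induction w with
  | nil => simp
  | cons l w ih =>
    rw [ev_cons, map_mul, hg l List.mem_cons_self, ih (fun a ha => hg a (List.mem_cons_of_mem _ ha))]
    simp

end group

end Cfsg.Agent.Lib.KnownSimple.MultC.MatN
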