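import Cfsg.Agent.Lib.KnownSimple.MultC.GenP
import Cfsg.Agent.Lib.Classical.SymplecticTrans
import Cfsg.Agent.Lib.Classical.SpSimple
import Cfsg.Agent.Lib.Classical.SpCenter
import Cfsg.Agent.Lib.Known3.FieldAutSp
import Cfsg.Agent.S0245

/-!
# The symplectic group of dimension six over the field with two elements
-/

set_option autoImplicit false

namespace Cfsg.Agent.Lib.KnownSimple.MultC.SpP

open Cfsg Cfsg.Agent.Lib.Compute Cfsg.Agent.Lib.KnownSimple.MultC MatN Matrix
open Cfsg.Agent.Lib.Classical (tv TT TT_eq_top)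
open scoped Matrix MatrixGroups

/-- The coordinates. -/
abbrev I3 := Fin 3 ⊕ Fin 3
/-- The group. -/
abbrev Sp6 := ↥(Matrix.symplecticGroup (Fin 3) (ZMod 2))

/-- The coding of the field with two elements. -/
def FC2 : FC (ZMod 2) where
  b := 2
  add := Nat.add
  mul := Nat.mul
  c := fun a => (a : ZMod 2)
  hb := by norm_num
  c_mod a := ZMod.natCast_mod a 2
  c_add a x := Nat.cast_add a x
  c_mul a x := Nat.cast_mul a x
  c_zero := Nat.cast_zero
  c_one := Nat.cast_one

/-- The coordinates as numbers. -/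
def ord6 : I3 → ℕ
  | Sum.inl i => i.val
  | Sum.inr i => 3 + i.val

theorem ord6_lt (i : I3) : ord6 i < 6 := by
  rcases i with i | i
  · have := i.2
    show i.val < 6
    omega
  · have := i.2
    show 3 + i.val < 6
    omega

theorem ord6_inj : Function.Injective ord6 := by decide

theorem ord6_sum {R : Type} [CommRing R] (f : ℕ → R) : ∑ i, f (ord6 i) = ∑ j ∈ Finset.range 6, f j := by
  rw [Fintype.sum_sum_type]
  simp only [Fin.sum_univ_three, ord6, Finset.sum_range_succ, Finset.sum_range_zero]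
  simp only [Fin.val_zero, Fin.val_one, Fin.val_two]
  ring

/-- The matrix of an element. -/
def Phi6 : Sp6 →* Matrix I3 I3 (ZMod 2) := (Matrix.symplecticGroup (Fin 3) (ZMod 2)).subtype

theorem Phi6_inj : Function.Injective Phi6 := Subtype.val_injective

/-- The vector of a number. -/
def vec6 (l : ℕ) : I3 → ZMod 2 := fun i => (((l / 2 ^ ord6 i) % 2 : ℕ) : ZMod 2)

theorem vec6_surj0 : ∀ a0 a1 a2 a3 a4 a5 : ZMod 2,
    vec6 (a0.val + 2 * a1.val + 4 * a2.val + 8 * a3.val + 16 * a4.val + 32 * a5.val) (Sum.inl 0) = a0 ∧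
    vec6 (a0.val + 2 * a1.val + 4 * a2.val + 8 * a3.val + 16 * a4.val + 32 * a5.val) (Sum.inl 1) = a1 ∧
    vec6 (a0.val + 2 * a1.val + 4 * a2.val + 8 * a3.val + 16 * a4.val + 32 * a5.val) (Sum.inl 2) = a2 ∧
    vec6 (a0.val + 2 * a1.val + 4 * a2.val + 8 * a3.val + 16 * a4.val + 32 * a5.val) (Sum.inr 0) = a3 ∧
    vec6 (a0.val + 2 * a1.val + 4 * a2.val + 8 * a3.val + 16 * a4.val + 32 * a5.val) (Sum.inr 1) = a4 ∧
    vec6 (a0.val + 2 * a1.val + 4 * a2.val + 8 * a3.val + 16 * a4.val + 32 * a5.val) (Sum.inr 2) = a5 := by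
  decide +kernel

theorem vec6_surj (w : I3 → ZMod 2) : ∃ l, l < 64 ∧ vec6 l = w := by
  have hv : ∀ a : ZMod 2, a.val < 2 := fun a => ZMod.val_lt a
  refine ⟨(w (Sum.inl 0)).val + 2 * (w (Sum.inl 1)).val + 4 * (w (Sum.inl 2)).val + 8 * (w (Sum.inr 0)).val
    + 16 * (w (Sum.inr 1)).val + 32 * (w (Sum.inr 2)).val, ?_, ?_⟩
  · have h0 := hv (w (Sum.inl 0))
    have h1 := hv (w (Sum.inl 1))
    have h2 := hv (w (Sum.inl 2))
    have h3 := hv (w (Sum.inr 0))
    have h4 := hv (w (Sum.inr 1))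
    have h5 := hv (w (Sum.inr 2))
    omega
  · obtain ⟨h0, h1, h2, h3, h4, h5⟩ := vec6_surj0 (w (Sum.inl 0)) (w (Sum.inl 1)) (w (Sum.inl 2)) (w (Sum.inr 0)) (w (Sum.inr 1)) (w (Sum.inr 2))
    funext i
    rcases i with i | i <;> fin_cases i
    · exact h0
    · exact h1
    · exact h2
    · exact h3
    · exact h4
    · exact h5

/-- The transvections. -/
noncomputable def rootS (l : ℕ) : Sp6 := tv (vec6 l) 1

theorem rootS_val (l : ℕ) : Phi6 (rootS l) = Cfsg.sympTransvection 3 (vec6 l) 1 := rfl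

theorem rootS_gen : Subgroup.closure (rootS '' {l | l < 64}) = ⊤ := by
  rw [eq_top_iff, ← TT_eq_top (m := 3) (F := ZMod 2)]
  refine (Subgroup.closure_le _).2 ?_
  rintro A ⟨w, c, hA⟩
  obtain ⟨l, hl, rfl⟩ := vec6_surj w
  have hc : c = 0 ∨ c = 1 := by
    have h : ∀ c : ZMod 2, c = 0 ∨ c = 1 := by decide
    exact h c
  rcases hc with rfl | rfl
  · have : A = 1 := by
      apply Subtype.ext
      rw [hA]
      simp [Cfsg.sympTransvection]
    rw [this]
    exact Subgroup.one_mem _
  · have : A = rootS l := Subtype.ext hA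
    rw [this]
    exact Subgroup.subset_closure ⟨l, hl, rfl⟩

theorem card_Sp6 : Nat.card Sp6 = 1451520 := by
  have h := Cfsg.Agent.S0245.result (F := ZMod 2) (q := 2) (ZMod.card 2) 3
  rw [h]
  norm_num [Finset.prod_range_succ]

section transfer

variable {R F : Type*} [Field R] [Field F]

lemma sp_map_mem (φ : R →+* F) (A : Matrix I3 I3 R) (hA : A ∈ Matrix.symplecticGroup (Fin 3) R) :
    A.map φ ∈ Matrix.symplecticGroup (Fin 3) F := by
  exact SymplecticGroup.map_mem hA φ

/-- The symplectic groups over isomorphic fields. -/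
noncomputable def spMap (φ : R ≃+* F) : ↥(Matrix.symplecticGroup (Fin 3) R) ≃* ↥(Matrix.symplecticGroup (Fin 3) F) where
  toFun A := ⟨A.1.map φ, sp_map_mem φ.toRingHom A.1 A.2⟩
  invFun A := ⟨A.1.map φ.symm, sp_map_mem φ.symm.toRingHom A.1 A.2⟩
  left_inv A := by
    apply Subtype.ext
    ext i j
    simp
  right_inv A := by
    apply Subtype.ext
    ext i j
    simp
  map_mul' A B := by
    apply Subtype.ext
    exact Matrix.map_mul (f := φ.toRingHom) (L := A.1) (M := B.1)

theorem center_bot {F : Type*} [Field F] [Fintype F] (hF : Fintype.card F = 2) :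
    Subgroup.center (Matrix.symplecticGroup (Fin 3) F) = ⊥ := by
  have h := Cfsg.Agent.Lib.Classical.card_center_sp (m := 3) (F := F) (by norm_num)
  rw [hF] at h
  have h1 : Nat.card (Subgroup.center (Matrix.symplecticGroup (Fin 3) F)) = 1 := by
    rw [h]
    rfl
  exact Subgroup.eq_bot_of_card_eq _ h1

/-- The projective symplectic group over a field with two elements. -/
noncomputable def psEquiv {F : Type*} [Field F] [Fintype F] (hF : Fintype.card F = 2) :
    Sp6 ≃* Cfsg.PSp 3 F :=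
  (spMap (ZMod.ringEquivOfPrime F Nat.prime_two hF)).trans
    ((QuotientGroup.quotientBot.symm).trans (QuotientGroup.quotientMulEquivOfEq (center_bot hF).symm))

instance instSimple6 : IsSimpleGroup Sp6 := by
  haveI : IsSimpleGroup (Cfsg.PSp 3 (ZMod 2)) :=
    Cfsg.Agent.Lib.Classical.psp_simple (m := 3) (F := ZMod 2) (by norm_num) (by omega)
  exact (psEquiv (F := ZMod 2) (ZMod.card 2)).isSimpleGroup

end transfer

end Cfsg.Agent.Lib.KnownSimple.MultC.SpP
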