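import Cfsg.Agent.Lib.KnownSimple.MultC.GenP
import Cfsg.Agent.Lib.KnownSimple.MultC.CongrU
import Cfsg.Agent.Lib.Sz.Lie
import Cfsg.Agent.Lib.Sz.Bridge
import Cfsg.Agent.Lib.Sz.Cent
import Cfsg.Agent.Lib.Sz.Simple
import Cfsg.Agent.Lib.Sz.Order

/-!
# The Suzuki group over the field with eight elements
-/

set_option autoImplicit false

namespace Cfsg.Agent.Lib.KnownSimple.MultC.SzP

open Cfsg Cfsg.Agent.Lib.Compute Cfsg.Agent.Lib.KnownSimple.MultC MatN Matrix Cfsg.Agent.SzT
open scoped Matrix MatrixGroups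

/-- The field with eight elements. -/
structure FF8 where
  val : Fin 8
  deriving DecidableEq, Fintype

namespace FF8

/-- The table of the products. -/
def mulT (a b : Fin 8) : Fin 8 := ⟨(2821848294356612419217921029917578219971947684264937521152 / 8 ^ (8 * a.val + b.val)) % 8, Nat.mod_lt _ (by norm_num)⟩

/-- The table of the inverses. -/
def invT (a : Fin 8) : Fin 8 := ⟨(9272648 / 8 ^ a.val) % 8, Nat.mod_lt _ (by norm_num)⟩

instance : Add FF8 := ⟨fun a b => ⟨⟨a.val.val ^^^ b.val.val, by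
  have h1 := a.val.2
  have h2 := b.val.2
  exact Nat.lt_of_lt_of_eq (Nat.xor_lt_two_pow (n := 3) h1 h2) rfl⟩⟩⟩
instance : Zero FF8 := ⟨⟨0⟩⟩
instance : One FF8 := ⟨⟨1⟩⟩
instance : Neg FF8 := ⟨fun a => a⟩
instance : Mul FF8 := ⟨fun a b => ⟨mulT a.val b.val⟩⟩
instance : Inv FF8 := ⟨fun a => ⟨invT a.val⟩⟩

set_option maxHeartbeats 0 in
set_option maxRecDepth 100000 in
instance : Field FF8 where
  add_assoc := by decide +kernel
  zero_add := by decide +kernel
  add_zero := by decide +kernel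
  add_comm := by decide +kernel
  neg_add_cancel := by decide +kernel
  mul_assoc := by decide +kernel
  one_mul := by decide +kernel
  mul_one := by decide +kernel
  left_distrib := by decide +kernel
  right_distrib := by decide +kernel
  zero_mul := by decide +kernel
  mul_zero := by decide +kernel
  mul_comm := by decide +kernel
  exists_pair_ne := ⟨0, 1, by decide +kernel⟩
  mul_inv_cancel := by decide +kernel
  inv_zero := by decide +kernel
  nsmul := nsmulRec
  zsmul := zsmulRec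
  nnqsmul := _
  qsmul := _

theorem card8 : Fintype.card FF8 = 8 := by decide

/-- The element with a number. -/
def ofN (a : ℕ) : FF8 := ⟨⟨a % 8, Nat.mod_lt _ (by norm_num)⟩⟩

theorem ofN_mod (a : ℕ) : ofN (a % 8) = ofN a := by
  have h : a % 8 % 8 = a % 8 := Nat.mod_mod _ _
  show FF8.mk _ = FF8.mk _
  exact congrArg FF8.mk (Fin.ext h)

theorem ofN_add0 : ∀ a b : Fin 8, ofN (Nat.xor a.val b.val) = ofN a.val + ofN b.val := by decide +kernel

set_option maxHeartbeats 0 in
set_option maxRecDepth 100000 in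
theorem ofN_mul0 : ∀ a b : Fin 8, ofN (((2821848294356612419217921029917578219971947684264937521152 : ℕ) / 8 ^ (8 * (a.val % 8) + b.val % 8)) % 8) = ofN a.val * ofN b.val := by decide +kernel

end FF8

open FF8

/-- The products, as numbers. -/
noncomputable def mulN (a x : ℕ) : ℕ :=
  Nat.mod (Nat.div 2821848294356612419217921029917578219971947684264937521152 (Nat.pow 8 (Nat.add (Nat.mul 8 (Nat.mod a 8)) (Nat.mod x 8)))) 8

/-- The sums, as numbers. -/
noncomputable def addN (a x : ℕ) : ℕ := Nat.xor (Nat.mod a 8) (Nat.mod x 8)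

/-- The coding of the field with eight elements. -/
noncomputable def FC8 : FC FF8 where
  b := 8
  add := addN
  mul := mulN
  c := ofN
  hb := by norm_num
  c_mod a := ofN_mod a
  c_add a x := by
    have h := ofN_add0 ⟨a % 8, Nat.mod_lt _ (by norm_num)⟩ ⟨x % 8, Nat.mod_lt _ (by norm_num)⟩
    simp only [ofN_mod] at h
    exact h
  c_mul a x := by
    have h := ofN_mul0 ⟨a % 8, Nat.mod_lt _ (by norm_num)⟩ ⟨x % 8, Nat.mod_lt _ (by norm_num)⟩
    simp only [Nat.mod_mod, ofN_mod] at h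
    show ofN ((2821848294356612419217921029917578219971947684264937521152 / 8 ^ (8 * (a % 8) + x % 8)) % 8) = _
    rw [ofN_mod]
    exact h
  c_zero := rfl
  c_one := rfl

theorem hc8 (t : FF8) : ∃ k, k < 8 ∧ FC8.c k = t := by
  obtain ⟨v⟩ := t
  refine ⟨v.val, v.2, ?_⟩
  show ofN v.val = _
  revert v
  decide

instance instSz : SzF FF8 4 := szF_of_card (m := 1) le_rfl (by rw [card8]; norm_num)

/-- The group. -/
abbrev Sz8 := ↥(GG 4 FF8)

/-- The matrix of an element. -/
noncomputable def Phi8 : Sz8 →* Matrix (Fin 4) (Fin 4) FF8 := matHom 4 FF8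

theorem Phi8_inj : Function.Injective Phi8 := matHom_inj

/-- The coordinates as numbers. -/
abbrev ord4 : Fin 4 → ℕ := fun i => i.val

theorem ord4_lt (i : Fin 4) : ord4 i < 4 := i.2
theorem ord4_inj : Function.Injective ord4 := Fin.val_injective
theorem ord4_sum (f : ℕ → FF8) : ∑ i, f (ord4 i) = ∑ j ∈ Finset.range 4, f j := Fin.sum_univ_eq_sum_range f 4

/-- The unit with a number. -/
noncomputable def unitN (k : ℕ) : FF8ˣ := if h : FC8.c k ≠ 0 then Units.mk0 _ h else 1

/-- The generators. -/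
noncomputable def rootZ (l : ℕ) : Sz8 :=
  if l < 64 then uG 4 (FC8.c (l / 8)) (FC8.c (l % 8))
  else if l < 72 then dG 4 (unitN (l - 64))
  else wG 4 FF8

/-- The entries of a diagonal matrix. -/
noncomputable def unitV (k : ℕ) : FF8 := if FC8.c k ≠ 0 then FC8.c k else 1

theorem unitN_val (k : ℕ) : ((unitN k : FF8ˣ) : FF8) = unitV k := by
  unfold unitN unitV
  by_cases h : FC8.c k ≠ 0
  · rw [dif_pos h, if_pos h]
    rfl
  · rw [dif_neg h, if_neg h]
    rfl

/-- The matrices of the generators, in a form for computations. -/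
noncomputable def rootN (l : ℕ) : Matrix (Fin 4) (Fin 4) FF8 :=
  if l < 64 then uM 4 (FC8.c (l / 8)) (FC8.c (l % 8))
  else if l < 72 then dM 4 (unitV (l - 64))
  else wM FF8

theorem rootZ_val (l : ℕ) : Phi8 (rootZ l) = rootN l := by
  unfold rootZ rootN
  by_cases h1 : l < 64
  · rw [if_pos h1, if_pos h1]
    rfl
  · rw [if_neg h1, if_neg h1]
    by_cases h2 : l < 72
    · rw [if_pos h2, if_pos h2, ← unitN_val]
      rfl
    · rw [if_neg h2, if_neg h2]
      rfl

theorem rootZ_gen : Subgroup.closure (rootZ '' {l | l < 73}) = ⊤ := by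
  set K := Subgroup.closure (rootZ '' {l | l < 73}) with hK
  have hu : ∀ a b : FF8, uG 4 a b ∈ K := by
    intro a b
    obtain ⟨x, hx, rfl⟩ := hc8 a
    obtain ⟨y, hy, rfl⟩ := hc8 b
    refine Subgroup.subset_closure ⟨x * 8 + y, ?_, ?_⟩
    · show x * 8 + y < 73
      omega
    · have e1 : (x * 8 + y) / 8 = x := by omega
      have e2 : (x * 8 + y) % 8 = y := by omega
      unfold rootZ
      rw [if_pos (by omega), e1, e2]
  have hd : ∀ t : FF8ˣ, dG 4 t ∈ K := by
    intro t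
    obtain ⟨k, hk, e⟩ := hc8 t
    refine Subgroup.subset_closure ⟨64 + k, ?_, ?_⟩
    · show 64 + k < 73
      omega
    · unfold rootZ
      rw [if_neg (by omega), if_pos (by omega), Nat.add_sub_cancel_left]
      congr 1
      apply Units.ext
      unfold unitN
      have h : FC8.c k ≠ 0 := by
        rw [e]
        exact t.ne_zero
      rw [dif_pos h]
      exact e
  have hw : wG 4 FF8 ∈ K := by
    refine Subgroup.subset_closure ⟨72, ?_, ?_⟩
    · show 72 < 73
      norm_num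
    · unfold rootZ
      rw [if_neg (by norm_num), if_neg (by norm_num)]
  rw [eq_top_iff]
  rintro g -
  by_cases h1 : g • pI FF8 = pI FF8
  · obtain ⟨a, b, t, rfl⟩ := stab1G h1
    exact K.mul_mem (hu a b) (hd t)
  · obtain ⟨a, b, c, e, t, rfl⟩ := stab0G h1
    exact K.mul_mem (K.mul_mem (K.mul_mem (hu a b) hw) (hu c e)) (hd t)

theorem card_Sz8 : Nat.card Sz8 = 29120 := by
  rw [card_GG, card8]
  norm_num

instance instSimple8 : IsSimpleGroup Sz8 := isSimple_GG

section transfer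

variable {R F : Type*} [Field R] [Field F]

/-- Transfer along a field isomorphism. -/
noncomputable def glE4 (φ : R ≃+* F) : GL (Fin 4) R ≃* GL (Fin 4) F :=
  Units.mapEquiv (φ.mapMatrix (m := Fin 4)).toMulEquiv

lemma glE4_coe (φ : R ≃+* F) (g : GL (Fin 4) R) :
    ((glE4 φ g : GL (Fin 4) F) : Matrix (Fin 4) (Fin 4) F) = (g : Matrix (Fin 4) (Fin 4) R).map φ := rfl

lemma star4_map (φ : R ≃+* F) (M : Matrix (Fin 4) (Fin 4) R) :
    Cfsg.Lie.star4 (M.map φ) = (Cfsg.Lie.star4 M).map φ := by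
  ext p r
  simp [Cfsg.Lie.star4]

lemma altForm_map (φ : R ≃+* F) (u v : Fin 4 → R) :
    Cfsg.Lie.altForm4 (fun i => φ (u i)) (fun i => φ (v i)) = φ (Cfsg.Lie.altForm4 u v) := by
  simp [Cfsg.Lie.altForm4]

lemma mulVec_map (φ : R ≃+* F) (M : Matrix (Fin 4) (Fin 4) R) (u : Fin 4 → R) :
    (M.map φ) *ᵥ (fun i => φ (u i)) = fun i => φ ((M *ᵥ u) i) := by
  funext i
  simp [Matrix.mulVec, dotProduct, map_sum]

lemma sp_map (φ : R ≃+* F) {g : GL (Fin 4) R} (hg : g ∈ Cfsg.Lie.Sp4 R) : glE4 φ g ∈ Cfsg.Lie.Sp4 F := by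
  intro u v
  show Cfsg.Lie.altForm4 ((g : Matrix (Fin 4) (Fin 4) R).map φ *ᵥ u) ((g : Matrix (Fin 4) (Fin 4) R).map φ *ᵥ v) = _
  have hu : u = fun i => φ (φ.symm (u i)) := by
    funext i
    simp
  have hv : v = fun i => φ (φ.symm (v i)) := by
    funext i
    simp
  rw [hu, hv, mulVec_map, mulVec_map, altForm_map, altForm_map]
  congr 1
  exact hg _ _

lemma gen_map (φ : R ≃+* F) (e : ℕ) {g : GL (Fin 4) R}
    (hg : g ∈ {g | g ∈ Cfsg.Lie.Sp4 R ∧ Cfsg.Lie.star4 (g : Matrix (Fin 4) (Fin 4) R) = (g : Matrix (Fin 4) (Fin 4) R).map (fun x => x ^ e)}) :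
    glE4 φ g ∈ {g | g ∈ Cfsg.Lie.Sp4 F ∧ Cfsg.Lie.star4 (g : Matrix (Fin 4) (Fin 4) F) = (g : Matrix (Fin 4) (Fin 4) F).map (fun x => x ^ e)} := by
  refine ⟨sp_map φ hg.1, ?_⟩
  rw [glE4_coe, star4_map, hg.2]
  ext i j
  simp

theorem sz_map_le (φ : R ≃+* F) (e : ℕ) : (Cfsg.Lie.Sz R e).map (glE4 φ).toMonoidHom ≤ Cfsg.Lie.Sz F e := by
  rw [Subgroup.map_le_iff_le_comap]
  refine (Subgroup.closure_le _).2 ?_
  intro g hg
  exact Subgroup.subset_closure (gen_map φ e hg)

theorem glE4_symm (φ : R ≃+* F) (g : GL (Fin 4) F) : glE4 φ.symm g = (glE4 φ).symm g := by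
  apply (glE4 φ).injective
  rw [MulEquiv.apply_symm_apply]
  apply Units.ext
  rw [glE4_coe, glE4_coe]
  ext i j
  simp

theorem sz_map_eq (φ : R ≃+* F) (e : ℕ) : (Cfsg.Lie.Sz R e).map (glE4 φ).toMonoidHom = Cfsg.Lie.Sz F e := by
  apply le_antisymm (sz_map_le φ e)
  intro g hg
  refine ⟨(glE4 φ).symm g, ?_, (glE4 φ).apply_symm_apply g⟩
  have h : glE4 φ.symm g ∈ Cfsg.Lie.Sz R e := sz_map_le φ.symm e ⟨g, hg, rfl⟩
  rw [glE4_symm] at h
  exact h

/-- The Suzuki groups over isomorphic fields. -/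
noncomputable def szMap (φ : R ≃+* F) (e : ℕ) : ↥(Cfsg.Lie.Sz R e) ≃* ↥(Cfsg.Lie.Sz F e) :=
  ((glE4 φ).subgroupMap _).trans (MulEquiv.subgroupCongr (sz_map_eq φ e))

end transfer

/-- The group over any field with eight elements. -/
noncomputable def szEq {F : Type*} [Field F] [Fintype F] (hF : Fintype.card F = 8) : Sz8 ≃* ↥(Cfsg.Lie.Sz F 4) :=
  (szEquiv 4 FF8).trans (szMap (FiniteField.ringEquivOfCardEq (K := FF8) (K' := F) (by rw [hF, card8])) 4)

end Cfsg.Agent.Lib.KnownSimple.MultC.SzP
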