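import Cfsg.Agent.Lib.KnownSimple.MultC.Std

/-!
# Packed tables of natural numbers
-/

set_option autoImplicit false

namespace Cfsg.Agent.Lib.KnownSimple.MultC

/-- A lookup in a packed table: 32 entries of 16 bits in each node. -/
noncomputable def lookP (t : ZN) (e : ℕ) : ℕ :=
  fN (Nat.div e 32) fun c => Nat.land (Nat.shiftRight (lookN c c t) (Nat.mul 16 (Nat.mod e 32))) 65535

/-- The table of the letters. -/
noncomputable def tauP (d : ℕ) (t : ZN) (l i : ℕ) : ℕ :=
  fN (Nat.add (Nat.mul i (Nat.mul 2 d)) l) fun e => lookP t e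

end Cfsg.Agent.Lib.KnownSimple.MultC
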