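import Cfsg.Agent.Lib.KnownSimple.MultC.GenQ
import Cfsg.Agent.Lib.KnownSimple.MultC.CongrU
import Cfsg.Agent.Lib.Classical.UTBridge
import Cfsg.Agent.Lib.Classical.RingCongr3
import Cfsg.Agent.Lib.ThreeT.U43SevenB
import Cfsg.Agent.S0283

/-!
# The projective special unitary group of dimension four over the field with nine elements
-/

set_option autoImplicit false

namespace Cfsg.Agent.Lib.KnownSimple.MultC.U43P

open Cfsg Cfsg.Agent.Lib.Compute Cfsg.Agent.Lib.KnownSimple.MultC MatN Matrix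
open Cfsg.Agent.Lib.Classical.UT Cfsg.Agent.Lib.Classical.Witt Cfsg.Agent.Lib.Classical
open scoped Matrix MatrixGroups

/-- The field with nine elements. -/
structure FF9 where
  val : Fin 9
  deriving DecidableEq, Fintype

namespace FF9

/-- The table of the sums. -/
def addT (a b : Fin 9) : Fin 9 := ⟨(96051920073429517465643282160833405478053728016721738867077621179668491191620 / 9 ^ (9 * a.val + b.val)) % 9, Nat.mod_lt _ (by norm_num)⟩

/-- The table of the products. -/
def mulT (a b : Fin 9) : Fin 9 := ⟨(134933521601014739983835492958995385744646755219336662194622111016280497100512 / 9 ^ (9 * a.val + b.val)) % 9, Nat.mod_lt _ (by norm_num)⟩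

/-- The table of the opposites. -/
def negT (a : Fin 9) : Fin 9 := ⟨(198166356 / 9 ^ a.val) % 9, Nat.mod_lt _ (by norm_num)⟩

/-- The table of the inverses. -/
def invT (a : Fin 9) : Fin 9 := ⟨(341458668 / 9 ^ a.val) % 9, Nat.mod_lt _ (by norm_num)⟩

instance : Add FF9 := ⟨fun a b => ⟨addT a.val b.val⟩⟩
instance : Zero FF9 := ⟨⟨0⟩⟩
instance : One FF9 := ⟨⟨1⟩⟩
instance : Neg FF9 := ⟨fun a => ⟨negT a.val⟩⟩
instance : Mul FF9 := ⟨fun a b => ⟨mulT a.val b.val⟩⟩
instance : Inv FF9 := ⟨fun a => ⟨invT a.val⟩⟩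

set_option maxHeartbeats 0 in
set_option maxRecDepth 100000 in
instance : Field FF9 where
  add_assoc := by decide +kernel
  zero_add := by decide +kernel
  add_zero := by decide +kernel
  add_comm := by decide +kernel
  neg_add_cancel := by decide +kernel
  mul_assoc := by decide +kernel
  one_mul := by decide +kernel
  mul_one := by decide +kernel
  left_distrib := by decide +kernel
  right_distrib := by decide +kernel
  zero_mul := by decide +kernel
  mul_zero := by decide +kernel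
  mul_comm := by decide +kernel
  exists_pair_ne := ⟨0, 1, by decide +kernel⟩
  mul_inv_cancel := by decide +kernel
  inv_zero := by decide +kernel
  nsmul := nsmulRec
  zsmul := zsmulRec
  nnqsmul := _
  qsmul := _

theorem card9 : Fintype.card FF9 = 9 := by decide

/-- The element with a number. -/
def ofN (a : ℕ) : FF9 := ⟨⟨a % 9, Nat.mod_lt _ (by norm_num)⟩⟩

theorem ofN_mod (a : ℕ) : ofN (a % 9) = ofN a := by
  have h : a % 9 % 9 = a % 9 := Nat.mod_mod _ _
  show FF9.mk _ = FF9.mk _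
  exact congrArg FF9.mk (Fin.ext h)

set_option maxHeartbeats 0 in
set_option maxRecDepth 100000 in
theorem ofN_add0 : ∀ a b : Fin 9, ofN (((96051920073429517465643282160833405478053728016721738867077621179668491191620 : ℕ) / 9 ^ (9 * (a.val % 9) + b.val % 9)) % 9) = ofN a.val + ofN b.val := by decide +kernel

set_option maxHeartbeats 0 in
set_option maxRecDepth 100000 in
theorem ofN_mul0 : ∀ a b : Fin 9, ofN (((134933521601014739983835492958995385744646755219336662194622111016280497100512 : ℕ) / 9 ^ (9 * (a.val % 9) + b.val % 9)) % 9) = ofN a.val * ofN b.val := by decide +kernel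

end FF9

open FF9

/-- The products, as numbers. -/
noncomputable def mulN (a x : ℕ) : ℕ :=
  Nat.mod (Nat.div 134933521601014739983835492958995385744646755219336662194622111016280497100512 (Nat.pow 9 (Nat.add (Nat.mul 9 (Nat.mod a 9)) (Nat.mod x 9)))) 9

/-- The sums, as numbers. -/
noncomputable def addN (a x : ℕ) : ℕ :=
  Nat.mod (Nat.div 96051920073429517465643282160833405478053728016721738867077621179668491191620 (Nat.pow 9 (Nat.add (Nat.mul 9 (Nat.mod a 9)) (Nat.mod x 9)))) 9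

/-- The coding of the field with nine elements. -/
noncomputable def FC9 : FC FF9 where
  b := 9
  add := addN
  mul := mulN
  c := ofN
  hb := by norm_num
  c_mod a := ofN_mod a
  c_add a x := by
    have h := ofN_add0 ⟨a % 9, Nat.mod_lt _ (by norm_num)⟩ ⟨x % 9, Nat.mod_lt _ (by norm_num)⟩
    simp only [Nat.mod_mod, ofN_mod] at h
    show ofN ((96051920073429517465643282160833405478053728016721738867077621179668491191620 / 9 ^ (9 * (a % 9) + x % 9)) % 9) = _
    rw [ofN_mod]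
    exact h
  c_mul a x := by
    have h := ofN_mul0 ⟨a % 9, Nat.mod_lt _ (by norm_num)⟩ ⟨x % 9, Nat.mod_lt _ (by norm_num)⟩
    simp only [Nat.mod_mod, ofN_mod] at h
    show ofN ((134933521601014739983835492958995385744646755219336662194622111016280497100512 / 9 ^ (9 * (a % 9) + x % 9)) % 9) = _
    rw [ofN_mod]
    exact h
  c_zero := rfl
  c_one := rfl

/-- The group of matrices. -/
abbrev SU9 := ↥(Cfsg.SU 4 FF9 3)
/-- The projective group. -/
abbrev PSU9 := Cfsg.PSU 4 FF9 3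

/-- The matrix of an element. -/
def Phi9 : SU9 →* Matrix (Fin 4) (Fin 4) FF9 where
  toFun A := ((A : Matrix.SpecialLinearGroup (Fin 4) FF9) : Matrix (Fin 4) (Fin 4) FF9)
  map_one' := rfl
  map_mul' _ _ := rfl

theorem Phi9_inj : Function.Injective Phi9 := fun _ _ h => Subtype.ext (Subtype.ext h)

/-- The projection. -/
def pi9 : SU9 →* PSU9 := QuotientGroup.mk' (Subgroup.center SU9)

theorem pi9_surj : Function.Surjective pi9 := QuotientGroup.mk'_surjective _

/-- The coordinates as numbers. -/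
abbrev ord4 : Fin 4 → ℕ := fun i => i.val

theorem ord4_lt (i : Fin 4) : ord4 i < 4 := i.2
theorem ord4_inj : Function.Injective ord4 := Fin.val_injective
theorem ord4_sum (f : ℕ → FF9) : ∑ i, f (ord4 i) = ∑ j ∈ Finset.range 4, f j := Fin.sum_univ_eq_sum_range f 4

theorem hF9 : Fintype.card FF9 = 3 ^ 2 := by rw [card9]; norm_num

theorem card_PSU9 : Nat.card PSU9 = 3265920 := Cfsg.Agent.Lib.ThreeT.U43Seven.card_PSU card9

instance instSimple9 : IsSimpleGroup PSU9 := Cfsg.Agent.S0283.result hF9 4 (by norm_num) (by norm_num)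

/-- The generators of the group of matrices, with their forms. -/
theorem SU_closure' :
    Subgroup.closure {A : SU9 | ∃ (v : Fin 4 → FF9) (c : FF9), Cfsg.hermForm 4 FF9 3 v v = 0 ∧ c + c ^ 3 = 0 ∧
      Phi9 A = Cfsg.unitaryTransvection 4 3 v c} = ⊤ := by
  rw [eq_top_iff]
  rintro A -
  set S := {A : SU9 | ∃ (v : Fin 4 → FF9) (c : FF9), Cfsg.hermForm 4 FF9 3 v v = 0 ∧ c + c ^ 3 = 0 ∧
      Phi9 A = Cfsg.unitaryTransvection 4 3 v c} with hS
  have key : ∀ t ∈ TG (hermB hF9 4), ∃ A' ∈ Subgroup.closure S, fromSU 4 FF9 3 A' = t := by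
    intro t ht
    induction ht using Subgroup.closure_induction with
    | mem a ha =>
      have hmem : a ∈ TG (hermB hF9 4) := Subgroup.subset_closure ha
      obtain ⟨A', hA'⟩ := exists_fromSU hF9 a (TG_iso (hermB_symm hF9 4) hmem) (TG_det hmem)
      refine ⟨A', Subgroup.subset_closure ?_, hA'⟩
      obtain ⟨v, c, hv, hc, h⟩ := ha
      refine ⟨v, c, hv, hc, ?_⟩
      apply Matrix.mulVec_injective
      funext x
      have := fromSU_apply (n := 4) (F := FF9) (q := 3) A' x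
      show Matrix.mulVec ((A'.1 : Matrix.SpecialLinearGroup (Fin 4) FF9) : Matrix (Fin 4) (Fin 4) FF9) x = _
      rw [← this, hA', h, uT_mulVec hF9]
    | one => exact ⟨1, Subgroup.one_mem _, map_one _⟩
    | mul a b _ _ ha hb =>
      obtain ⟨A₁, h₁, rfl⟩ := ha
      obtain ⟨A₂, h₂, rfl⟩ := hb
      exact ⟨A₁ * A₂, Subgroup.mul_mem _ h₁ h₂, map_mul _ _ _⟩
    | inv a _ ha =>
      obtain ⟨A₁, h₁, rfl⟩ := ha
      exact ⟨A₁⁻¹, Subgroup.inv_mem _ h₁, map_inv _ _⟩
  have hmem := gen_main 4 (Fin 4 → FF9) (hermB hF9 4) (hermB_symm hF9 4) (hermB_nondeg hF9 4) (by simp) (Or.inl (by norm_num))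
    (fromSU 4 FF9 3 A) (fromSU_iso hF9 A) (fromSU_det A)
  obtain ⟨A', hA', h⟩ := key _ hmem
  rw [← fromSU_injective h]
  exact hA'

/-- The element of the group with the matrix of a transvection. -/
theorem exists_uT (v : Fin 4 → FF9) (c : FF9) (hv : Cfsg.hermForm 4 FF9 3 v v = 0) (hc : c + c ^ 3 = 0) :
    ∃ A : SU9, Phi9 A = Cfsg.unitaryTransvection 4 3 v c := by
  have hmem : tvE (hermB hF9 4) v c hv ∈ TG (hermB hF9 4) := tvE_mem hv hc
  obtain ⟨A', hA'⟩ := exists_fromSU hF9 _ (TG_iso (hermB_symm hF9 4) hmem) (TG_det hmem)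
  refine ⟨A', ?_⟩
  apply Matrix.mulVec_injective
  funext x
  have := fromSU_apply (n := 4) (F := FF9) (q := 3) A' x
  show Matrix.mulVec ((A'.1 : Matrix.SpecialLinearGroup (Fin 4) FF9) : Matrix (Fin 4) (Fin 4) FF9) x = _
  rw [← this, hA', uT_mulVec hF9]
  rfl

/-- The normal forms of the isotropic vectors, as numbers. -/
def V0L : List ℕ := [37, 46, 64, 73, 91, 100, 109, 136, 172, 181, 190, 217, 253, 262, 271, 298, 325, 333, 406, 414, 496, 505, 514, 541, 568, 576, 649, 657, 739, 748, 757, 784, 811, 819, 892, 900, 973, 981, 1090, 1099, 1117, 1126, 1171, 1180, 1198, 1207, 1216, 1224, 1333, 1342, 1360, 1369, 1414, 1423, 1441, 1450, 1468, 1477, 1486, 1513, 1540, 1548, 1621, 1629, 1702, 1710, 1819, 1828, 1846, 1855, 1900, 1909, 1927, 1936, 1945, 1953, 2062, 2071, 2089, 2098, 2143, 2152, 2170, 2179, 2197, 2206, 2215, 2242, 2269, 2277, 2350, 2358, 2431, 2439, 2548, 2557, 2575, 2584, 2629, 2638, 2656, 2665, 2674, 2682, 2791, 2800, 2818, 2827, 2872, 2881,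 2899, 2908, 2917, 2925, 2997, 3034, 3043, 3061, 3070, 3115, 3124, 3142, 3151, 3196, 3205, 3223, 3232, 3250, 3259, 3268, 3295, 3331, 3340, 3349, 3376, 3439, 3448, 3466, 3475, 3493, 3502, 3511, 3538, 3574, 3583, 3592, 3619, 3646, 3654, 3726, 3763, 3772, 3790, 3799, 3844, 3853, 3871, 3880, 3925, 3934, 3952, 3961, 3979, 3988, 3997, 4024, 4060, 4069, 4078, 4105, 4168, 4177, 4195, 4204, 4222, 4231, 4240, 4267, 4303, 4312, 4321, 4348, 4384, 4393, 4402, 4429, 4456, 4464, 4537, 4545, 4618, 4626, 4735, 4744, 4762, 4771, 4816, 4825, 4843, 4852, 4861, 4869, 4978, 4987, 5005, 5014, 5059, 5068, 5086, 5095, 5104, 5112, 5184, 5221, 5230, 5248, 5257, 5302, 5311, 5329, 5338, 5383, 5392, 5410, 5419, 5437, 5446, 5455, 5482, 5518, 5527, 5536, 5563, 5626, 5635, 5653, 5662, 5680, 5689, 5698, 5725, 5761, 5770, 5779, 5806, 5833, 5841, 5913, 5950, 5959, 5977, 5986, 6031, 6040, 6058, 6067, 6112, 6121, 6139, 6148, 6166, 6175, 6184, 6211, 6247, 6256, 6265, 6292, 6355, 6364, 6382,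 6391, 6409, 6418, 6427, 6454, 6490, 6499, 6508, 6535]

/-- The vector of a number. -/
def vecU (x : ℕ) : Fin 4 → FF9 := fun i => ofN (x / 9 ^ i.val)

/-- The constants. -/
def cstU (l : ℕ) : FF9 := if l % 2 = 0 then ofN 3 else ofN 6

/-- The vector of a root element. -/
def vOf (l : ℕ) : Fin 4 → FF9 := vecU (V0L.getD (l / 2) 0)

/-- The matrices of the root elements. -/
noncomputable def rootMU (l : ℕ) : Matrix (Fin 4) (Fin 4) FF9 := Cfsg.unitaryTransvection 4 3 (vOf l) (cstU l)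

theorem herm_eq (v : Fin 4 → FF9) : Cfsg.hermForm 4 FF9 3 v v = v 0 * v 0 ^ 3 + v 1 * v 1 ^ 3 + v 2 * v 2 ^ 3 + v 3 * v 3 ^ 3 := by
  simp [Cfsg.hermForm, Fin.sum_univ_four]

set_option maxHeartbeats 0 in
set_option maxRecDepth 100000 in
theorem hV0 : ∀ k : Fin 560, decide ((vOf k.val 0) * (vOf k.val 0) ^ 3 + (vOf k.val 1) * (vOf k.val 1) ^ 3 + (vOf k.val 2) * (vOf k.val 2) ^ 3
    + (vOf k.val 3) * (vOf k.val 3) ^ 3 = 0) = true := by decide +kernel

theorem hcst : ∀ l : ℕ, cstU l + cstU l ^ 3 = 0 := by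
  intro l
  unfold cstU
  split_ifs <;> decide

theorem vOf_iso (l : ℕ) (hl : l < 560) : Cfsg.hermForm 4 FF9 3 (vOf l) (vOf l) = 0 := by
  rw [herm_eq]
  exact of_decide_eq_true (hV0 ⟨l, hl⟩)

/-- The root elements. -/
noncomputable def rootU (l : ℕ) : SU9 :=
  @dite _ (∃ A : SU9, Phi9 A = rootMU l) (Classical.propDecidable _) (fun h => h.choose) (fun _ => 1)

theorem rootU_val (l : ℕ) (hl : l < 560) : Phi9 (rootU l) = rootMU l := by
  have h : ∃ A : SU9, Phi9 A = rootMU l := exists_uT _ _ (vOf_iso l hl) (hcst l)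
  unfold rootU
  rw [dif_pos h]
  exact h.choose_spec

/-- The test of a vector. -/
def chkD (a b c d : Fin 9) : Bool :=
  let v0 : FF9 := ⟨a⟩
  let v1 : FF9 := ⟨b⟩
  let v2 : FF9 := ⟨c⟩
  let v3 : FF9 := ⟨d⟩
  if v0 * v0 ^ 3 + v1 * v1 ^ 3 + v2 * v2 ^ 3 + v3 * v3 ^ 3 = 0 ∧ (v0 ≠ 0 ∨ v1 ≠ 0 ∨ v2 ≠ 0 ∨ v3 ≠ 0) then
    let t : FF9 := if v0 ≠ 0 then v0 else if v1 ≠ 0 then v1 else if v2 ≠ 0 then v2 else v3
    let x : ℕ := (t⁻¹ * v0).val.val + 9 * ((t⁻¹ * v1).val.val + 9 * ((t⁻¹ * v2).val.val + 9 * (t⁻¹ * v3).val.val))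
    decide (t ≠ 0) && decide (x ∈ V0L) && decide (V0L.idxOf x < 280) &&
      decide (vecU x 0 = t⁻¹ * v0) && decide (vecU x 1 = t⁻¹ * v1) && decide (vecU x 2 = t⁻¹ * v2) && decide (vecU x 3 = t⁻¹ * v3)
  else true

set_option maxHeartbeats 0 in
set_option maxRecDepth 100000 in
theorem hchkD0 : ∀ b c d : Fin 9, chkD 0 b c d = true := by decide +kernel
set_option maxHeartbeats 0 in
set_option maxRecDepth 100000 in
theorem hchkD1 : ∀ b c d : Fin 9, chkD 1 b c d = true := by decide +kernel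
set_option maxHeartbeats 0 in
set_option maxRecDepth 100000 in
theorem hchkD2 : ∀ b c d : Fin 9, chkD 2 b c d = true := by decide +kernel
set_option maxHeartbeats 0 in
set_option maxRecDepth 100000 in
theorem hchkD3 : ∀ b c d : Fin 9, chkD 3 b c d = true := by decide +kernel
set_option maxHeartbeats 0 in
set_option maxRecDepth 100000 in
theorem hchkD4 : ∀ b c d : Fin 9, chkD 4 b c d = true := by decide +kernel
set_option maxHeartbeats 0 in
set_option maxRecDepth 100000 in
theorem hchkD5 : ∀ b c d : Fin 9, chkD 5 b c d = true := by decide +kernel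
set_option maxHeartbeats 0 in
set_option maxRecDepth 100000 in
theorem hchkD6 : ∀ b c d : Fin 9, chkD 6 b c d = true := by decide +kernel
set_option maxHeartbeats 0 in
set_option maxRecDepth 100000 in
theorem hchkD7 : ∀ b c d : Fin 9, chkD 7 b c d = true := by decide +kernel
set_option maxHeartbeats 0 in
set_option maxRecDepth 100000 in
theorem hchkD8 : ∀ b c d : Fin 9, chkD 8 b c d = true := by decide +kernel
theorem hchkD : ∀ a b c d : Fin 9, chkD a b c d = true := by
  intro a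
  have h : a = 0 ∨ a = 1 ∨ a = 2 ∨ a = 3 ∨ a = 4 ∨ a = 5 ∨ a = 6 ∨ a = 7 ∨ a = 8 := by
    revert a
    decide
  rcases h with rfl | rfl | rfl | rfl | rfl | rfl | rfl | rfl | rfl
  · exact hchkD0
  · exact hchkD1
  · exact hchkD2
  · exact hchkD3
  · exact hchkD4
  · exact hchkD5
  · exact hchkD6
  · exact hchkD7
  · exact hchkD8

theorem decomp (v : Fin 4 → FF9) (hv : Cfsg.hermForm 4 FF9 3 v v = 0) (hv0 : v ≠ 0) :
    ∃ (t : FF9) (x : ℕ), t ≠ 0 ∧ x ∈ V0L ∧ V0L.idxOf x < 280 ∧ ∀ i, v i = t * vecU x i := by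
  have h1 := hchkD (v 0).val (v 1).val (v 2).val (v 3).val
  have hnz : v 0 ≠ 0 ∨ v 1 ≠ 0 ∨ v 2 ≠ 0 ∨ v 3 ≠ 0 := by
    by_contra hcon
    push_neg at hcon
    apply hv0
    funext i
    fin_cases i
    · exact hcon.1
    · exact hcon.2.1
    · exact hcon.2.2.1
    · exact hcon.2.2.2
  rw [herm_eq] at hv
  unfold chkD at h1
  have eη : ∀ t : FF9, (FF9.mk t.val) = t := fun t => rfl
  simp only [eη] at h1
  rw [if_pos ⟨hv, hnz⟩] at h1
  simp only [Bool.and_eq_true, decide_eq_true_eq] at h1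
  obtain ⟨⟨⟨⟨⟨⟨ht, hx⟩, hi⟩, h0⟩, h1'⟩, h2⟩, h3⟩ := h1
  refine ⟨_, _, ht, hx, hi, fun i => ?_⟩
  fin_cases i
  · show v 0 = _ * vecU _ 0
    rw [h0, mul_inv_cancel_left₀ ht]
  · show v 1 = _ * vecU _ 1
    rw [h1', mul_inv_cancel_left₀ ht]
  · show v 2 = _ * vecU _ 2
    rw [h2, mul_inv_cancel_left₀ ht]
  · show v 3 = _ * vecU _ 3
    rw [h3, mul_inv_cancel_left₀ ht]

theorem hscale : ∀ c t : FF9, c + c ^ 3 = 0 → t ≠ 0 → c * t ^ 4 = 0 ∨ c * t ^ 4 = ofN 3 ∨ c * t ^ 4 = ofN 6 := by decide +kernel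

theorem uT_scale (v : Fin 4 → FF9) (c t : FF9) (x : ℕ) (h : ∀ i, v i = t * vecU x i) :
    Cfsg.unitaryTransvection 4 3 v c = Cfsg.unitaryTransvection 4 3 (vecU x) (c * t ^ 4) := by
  ext i j
  simp only [Cfsg.unitaryTransvection, Matrix.add_apply, Matrix.smul_apply, Matrix.vecMulVec_apply, smul_eq_mul, h]
  ring

theorem rootU_gen : Subgroup.closure (rootU '' {l | l < 560}) = ⊤ := by
  rw [eq_top_iff, ← SU_closure']
  refine (Subgroup.closure_le _).2 ?_
  rintro A ⟨v, c, hv, hc, hA⟩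
  have hone : Phi9 A = 1 → A ∈ Subgroup.closure (rootU '' {l | l < 560}) := by
    intro h
    have : A = 1 := Phi9_inj (by rw [h, map_one])
    rw [this]
    exact Subgroup.one_mem _
  by_cases hv0 : v = 0
  · apply hone
    rw [hA, hv0]
    ext i j
    simp [Cfsg.unitaryTransvection]
  obtain ⟨t, x, ht, hx, hi, hvx⟩ := decomp v hv hv0
  rw [uT_scale v c t x hvx] at hA
  have hidx : V0L.getD (V0L.idxOf x) 0 = x := by
    rw [List.getD_eq_getElem _ _ (List.idxOf_lt_length_iff.2 hx)]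
    exact List.getElem_idxOf _
  rcases hscale c t hc ht with h0 | h1 | h2
  · apply hone
    rw [hA, h0]
    ext i j
    simp [Cfsg.unitaryTransvection]
  · have : A = rootU (2 * V0L.idxOf x) := by
      apply Phi9_inj
      rw [rootU_val _ (by omega), hA, h1]
      have e1 : 2 * V0L.idxOf x / 2 = V0L.idxOf x := by omega
      have e2 : (2 * V0L.idxOf x) % 2 = 0 := by omega
      unfold rootMU vOf cstU
      rw [e1, e2, hidx, if_pos rfl]
    rw [this]
    exact Subgroup.subset_closure ⟨_, by show 2 * V0L.idxOf x < 560; omega, rfl⟩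
  · have : A = rootU (2 * V0L.idxOf x + 1) := by
      apply Phi9_inj
      rw [rootU_val _ (by omega), hA, h2]
      have e1 : (2 * V0L.idxOf x + 1) / 2 = V0L.idxOf x := by omega
      have e2 : (2 * V0L.idxOf x + 1) % 2 = 1 := by omega
      unfold rootMU vOf cstU
      rw [e1, e2, hidx, if_neg (by norm_num)]
    rw [this]
    exact Subgroup.subset_closure ⟨_, by show 2 * V0L.idxOf x + 1 < 560; omega, rfl⟩

/-- The scalar matrices. -/
def scs9 : List (List (List ℕ)) :=
  [[[1,0,0,0],[0,1,0,0],[0,0,1,0],[0,0,0,1]], [[2,0,0,0],[0,2,0,0],[0,0,2,0],[0,0,0,2]],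
   [[3,0,0,0],[0,3,0,0],[0,0,3,0],[0,0,0,3]], [[6,0,0,0],[0,6,0,0],[0,0,6,0],[0,0,0,6]]]

theorem scs9_len : ∀ S ∈ scs9, S.length = 4 := by decide

lemma center_of_scal (r : FF9) (x : SU9) (h : ∀ a b, Phi9 x a b = if a = b then r else 0) : pi9 x = 1 := by
  apply (QuotientGroup.eq_one_iff x).2
  rw [Subgroup.mem_center_iff]
  intro y
  apply Phi9_inj
  rw [map_mul, map_mul]
  have e : Phi9 x = Matrix.scalar (Fin 4) r := by
    ext a b
    rw [h a b]
    by_cases hab : a = b
    · subst hab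
      simp
    · simp [hab]
  rw [e]
  ext a b
  simp [Matrix.mul_apply, Matrix.scalar_apply, Matrix.diagonal_apply, mul_comm]

theorem hsc9 : ∀ S ∈ scs9, ∀ x : SU9, Phi9 x = toM FC9 ord4 S → pi9 x = 1 := by
  have key : ∀ (k : ℕ) (S : List (List ℕ)), (∀ a b : Fin 4, decide (toM FC9 ord4 S a b = if a = b then FC9.c k else 0) = true) →
      ∀ x : SU9, Phi9 x = toM FC9 ord4 S → pi9 x = 1 := by
    intro k S h2 x hx
    refine center_of_scal (FC9.c k) x (fun a b => ?_)
    rw [← of_decide_eq_true (h2 a b), ← hx]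
  intro S hS
  simp only [scs9, List.mem_cons, List.not_mem_nil, or_false] at hS
  rcases hS with rfl | rfl | rfl | rfl
  · exact key 1 _ (by decide +kernel)
  · exact key 2 _ (by decide +kernel)
  · exact key 3 _ (by decide +kernel)
  · exact key 6 _ (by decide +kernel)

/-- The group over any field with nine elements. -/
noncomputable def psuEquiv {F : Type*} [Field F] [Fintype F] (hF : Fintype.card F = 9) :
    PSU9 ≃* Cfsg.PSU 4 F 3 :=
  RC.psuCongr (FiniteField.ringEquivOfCardEq (K := FF9) (K' := F) (by rw [hF, card9])) 4 3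

end Cfsg.Agent.Lib.KnownSimple.MultC.U43P
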