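import Cfsg.Agent.Lib.KnownSimple.MultC.ValMain
import Cfsg.Agent.Lib.KnownSimple.MultC.LowA
import Cfsg.Agent.Lib.KnownSimple.MultC.Glue

/-!
# Schur multipliers which are not cyclic
-/

set_option autoImplicit false

namespace Cfsg.Agent.Lib.KnownSimple.MultC

open Cfsg Cfsg.Agent.Lib.Compute
open scoped commutatorElement

variable {d n : ℕ}

section vec

variable {A : Type*} [CommGroup A]

/-- A combination of the values of relators. -/
noncomputable def wsum (P : ℕ) (B : List (ℕ × ℤ)) : List ℤ :=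
  List.rec [] (fun a _ ih => vadd (vsm a.2 (unitV (P + a.1))) ih) B

theorem evalV_wsum (c : ℕ → A) (P : ℕ) (B : List (ℕ × ℤ)) :
    evalV c (wsum P B) = (B.map fun a => c (P + a.1) ^ a.2).prod := by
  induction B with
  | nil => rfl
  | cons a B ih =>
    show evalV c (vadd (vsm a.2 (unitV (P + a.1))) (wsum P B)) = _
    rw [evalV_vadd, evalV_vsm, evalV_unitV, ih, List.map_cons, List.prod_cons, mul_comm]

/-- The test of a combination of relations. -/
noncomputable def chkCombW (P Qr : ℕ) (rows : List (ℕ × ℕ × List ℤ)) (B : List (ℕ × ℤ)) (q : ℕ) (L : List (ℕ × ℤ)) : Bool :=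
  bcond (L.all fun x => Nat.blt x.1 rows.length)
    (vzero (vsub (vadd (vsm (-1) (wsum P B)) (unitV (P + q))) (sumComb P Qr rows L))) false

theorem comb_soundW {c : ℕ → A} {P Qr q : ℕ} {rows : List (ℕ × ℕ × List ℤ)}
    (hrows : ∀ x ∈ rows, evalV c (tgt P Qr x.2.1 x.2.2) = 1) {B : List (ℕ × ℤ)} {L : List (ℕ × ℤ)}
    (h : chkCombW P Qr rows B q L = true) : c (P + q) = (B.map fun a => c (P + a.1) ^ a.2).prod := by
  unfold chkCombW at h
  cases h1 : L.all (fun x => Nat.blt x.1 rows.length) with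
  | false => rw [h1, bcond_false] at h; exact Bool.noConfusion h
  | true =>
    rw [h1, bcond_true] at h
    have hL : ∀ x ∈ L, x.1 < rows.length := by
      intro x hx
      simpa [Nat.blt_eq] using List.all_eq_true.1 h1 x hx
    have h2 := evalV_of_vzero h c
    rw [evalV_vsub, sumComb_one hrows L hL, one_mul, inv_eq_one, evalV_vadd, evalV_vsm, evalV_unitV, evalV_wsum, zpow_neg, zpow_one]
      at h2
    exact mul_inv_eq_one.1 h2

end vec

section main

variable {G Γ : Type} [Group G] [Group Γ] {g : ℕ → G} {σ : Γ →* G} {ρ : G →* Equiv.Perm (Fin n)} {h0 : 0 < n}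
  (C : Coset d n) {y : ℕ → Γ}

theorem cl_prod (hz : ∀ x, x ∈ (σ.ker : Subgroup Γ) → x ∈ Ht σ ρ h0) (f : (ℕ × ℤ) → Γ) (hf : ∀ a, f a ∈ σ.ker) (e : ℕ × ℤ → ℤ) (B : List (ℕ × ℤ)) :
    ((B.map fun a => (f a) ^ e a).prod ∈ σ.ker) ∧
      cl σ ρ h0 (B.map fun a => (f a) ^ e a).prod = (B.map fun a => (cl σ ρ h0 (f a)) ^ e a).prod := by
  induction B with
  | nil => exact ⟨σ.ker.one_mem, cl_one⟩
  | cons a B ih =>
    obtain ⟨h1, h2⟩ := ih
    have h3 : (f a) ^ e a ∈ σ.ker := σ.ker.zpow_mem (hf a) _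
    simp only [List.map_cons, List.prod_cons]
    refine ⟨σ.ker.mul_mem h3 h1, ?_⟩
    rw [cl_mul (hz _ h3) (hz _ h1), cl_zpow (hz _ (hf a)), h2]

/-- The relations between the values of the relators. -/
theorem val_soundW [Finite Γ] (hρ : ∀ x, x < d → ρ (g x) = (C.p x)⁻¹) (hy : ∀ x, σ (y x) = g x)
    (hs : Function.Surjective σ) (hc : σ.ker ≤ Subgroup.center Γ) (hMF : MF (stabOf ρ h0)) {RL : List (List ℕ)}
    (hRL : ∀ r ∈ RL, (∀ l ∈ r, l < 2 * d) ∧ (∀ i, i < n → actW C.τ r i = i) ∧ ev y r ∈ σ.ker) {Q P Qr : ℕ}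
    (hQ : RL.length = Q) (hrho : ∀ q, Qr ≤ q → q < Q → ev y (lg [] RL q) = 1) (hQr : Qr ≤ Q) {par gen pe : ℕ → ℕ}
    (hTree : chkTree C.τ d n par gen = true) {T : ZV}
    (hE : ∀ e, e < n * d → chkEdge C.τ d n RL Q P Qr par gen pe T e = true) {Rb : ℕ} {rows : List (ℕ × ℕ × List ℤ)}
    (hF : ∀ x ∈ rows, chkRow C.τ d n RL Q (n * d) Rb T x = true) {q : ℕ} (hq : q < Qr) {B : List (ℕ × ℤ)}
    (hB : ∀ a ∈ B, a.1 < Qr)
    {L : List (ℕ × ℤ)} (h : chkCombW P Qr rows B q L = true) :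
    ev y (lg [] RL q) = (B.map fun a => ev y (lg [] RL a.1) ^ a.2).prod := by
  have h1 := comb_soundW (rows_ok (h0 := h0) C hρ hy hc hRL hQ hrho hTree hE hF) h
  have e1 : ∀ q', cV C σ ρ h0 y (fun i => ev y (tw par gen i)) RL P pe (P + q') = cl σ ρ h0 (ev y (lg [] RL q')) := by
    intro q'
    simp only [cV]
    rw [if_neg (by omega), Nat.add_sub_cancel_left]
  simp only [e1] at h1
  have hz : ∀ q', q' < Q → ev y (lg [] RL q') ∈ σ.ker := by
    intro q' hq'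
    exact (hRL _ (lg_mem_default _ (by omega))).2.2
  -- a version of the function which lands in the kernel for every argument
  let f : ℕ × ℤ → Γ := fun a => if a.1 < Q then ev y (lg [] RL a.1) else 1
  have hf : ∀ a, f a ∈ σ.ker := by
    intro a
    by_cases h2 : a.1 < Q
    · simp only [f, if_pos h2]
      exact hz _ h2
    · simp only [f, if_neg h2]
      exact σ.ker.one_mem
  have hfe : ∀ a ∈ B, f a = ev y (lg [] RL a.1) := by
    intro a ha
    have : a.1 < Q := lt_of_lt_of_le (hB a ha) hQr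
    simp only [f, if_pos this]
  have e2 : (B.map fun a => ev y (lg [] RL a.1) ^ a.2) = (B.map fun a => (f a) ^ a.2) :=
    List.map_congr_left (fun a ha => by rw [hfe a ha])
  have e3 : (B.map fun a => cl σ ρ h0 (ev y (lg [] RL a.1)) ^ a.2) = (B.map fun a => (cl σ ρ h0 (f a)) ^ a.2) :=
    List.map_congr_left (fun a ha => by rw [hfe a ha])
  obtain ⟨h4, h5⟩ := cl_prod (ρ := ρ) (h0 := h0) (fun x hx => ker_le_Ht hx) f hf (fun a => a.2) B
  rw [e2]
  apply cl_inj (h0 := h0) (ρ := ρ) hs hc hMF (hz q (by omega)) h4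
  rw [h5, ← e3]
  exact h1

/-- The upper bound for the multiplier, from a table of values: the values of some relators generate the kernel. -/
theorem upperW [Finite G] {rels : List (List ℕ)} (hP : IsPres d g rels) (A B : ℕ → List ℕ)
    (hcomm : ∀ x, x < d → g x = ⁅ev g (A x), ev g (B x)⁆)
    (hρ : ∀ x, x < d → ρ (g x) = (C.p x)⁻¹) (hMF : MF (stabOf ρ h0))
    {R₀ : List (List ℕ)} (hR₀ : ∀ r ∈ R₀, r ∈ rels) (hrot : ∀ r ∈ rels, ∃ r₀ ∈ R₀, ∃ k, r₀.rotate k = r)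
    {RL : List (List ℕ)} (hRL : RL = R₀ ++ (List.range d).map (rhoW A B))
    (hok : ∀ r ∈ RL, ∀ l ∈ r, l < 2 * d) (hloop : ∀ r ∈ RL, ∀ i, i < n → actW C.τ r i = i)
    {Q P Qr : ℕ} (hQ : RL.length = Q) (hQr : R₀.length = Qr) {par gen pe : ℕ → ℕ}
    (hTree : chkTree C.τ d n par gen = true) {T : ZV}
    (hE : ∀ e, e < n * d → chkEdge C.τ d n RL Q P Qr par gen pe T e = true) {Rb : ℕ} {rows : List (ℕ × ℕ × List ℤ)}
    (hF : ∀ x ∈ rows, chkRow C.τ d n RL Q (n * d) Rb T x = true)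
    (ss : List ℕ) (hss : ∀ s ∈ ss, s < Qr)
    (hcert : ∀ q, q < Qr → ∃ (W L : List (ℕ × ℤ)), chkCombW P Qr rows W q L = true ∧ ∀ a ∈ W, a.1 ∈ ss)
    (Γ : Type) [Group Γ] [Finite Γ] (σ : Γ →* G) (hσ : IsStemExtension σ) :
    ∃ u : ℕ → Γ, (∀ s ∈ ss, u s ∈ σ.ker) ∧
      (∀ s ∈ ss, ∀ m : ℕ, (∃ L, chkCombW P Qr rows [(s, 1 - (m : ℤ))] s L = true) → u s ^ m = 1) ∧
      σ.ker ≤ Subgroup.closure (u '' {s | s ∈ ss}) := by
  classical
  obtain ⟨y, hy, hyc⟩ := exists_lifts (d := d) hσ.1 hσ.2.1 g A B hcomm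
  have hev : ∀ w, σ (ev y w) = ev g w := fun w => by
    rw [map_ev]
    congr 1
    exact funext hy
  have hrho1 : ∀ x, x < d → ev y (rhoW A B x) = 1 := by
    intro x hx
    unfold rhoW
    rw [ev_cons, ev_comW, ← hyc x hx]
    have e1 : (2 * x + 1) % 2 ≠ 0 := by omega
    have e2 : (2 * x + 1) / 2 = x := by omega
    simp [lv, e1, e2]
  have hkerR : ∀ r ∈ R₀, ev y r ∈ σ.ker := by
    intro r hr
    rw [MonoidHom.mem_ker, hev]
    exact hP.hrel r (hR₀ r hr)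
  have hRL2 : ∀ r ∈ RL, (∀ l ∈ r, l < 2 * d) ∧ (∀ i, i < n → actW C.τ r i = i) ∧ ev y r ∈ σ.ker := by
    intro r hr
    refine ⟨hok r hr, hloop r hr, ?_⟩
    rw [hRL] at hr
    rcases List.mem_append.1 hr with h | h
    · exact hkerR r h
    · obtain ⟨x, hx, rfl⟩ := List.mem_map.1 h
      rw [hrho1 x (List.mem_range.1 hx)]
      exact σ.ker.one_mem
  have hlen : RL.length = R₀.length + d := by
    rw [hRL]
    simp
  have hlg : ∀ q, q < R₀.length → lg [] RL q = R₀.getD q [] := by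
    intro q hq
    rw [lg_eq, hRL, List.getD_append _ _ _ _ hq]
  have hrho : ∀ q', Qr ≤ q' → q' < Q → ev y (lg [] RL q') = 1 := by
    intro q' h1 h2
    rw [← hQr] at h1
    rw [← hQ] at h2
    have e1 : lg [] RL q' = rhoW A B (q' - R₀.length) := by
      have h3 : q' - R₀.length < d := by omega
      rw [lg_eq, hRL, List.getD_append_right _ _ _ _ h1]
      rw [List.getD_eq_getElem _ _ (by simpa using h3)]
      simp
    rw [e1]
    exact hrho1 _ (by omega)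
  have hQrQ : Qr ≤ Q := by omega
  let u : ℕ → Γ := fun s => ev y (lg [] RL s)
  have hu1 : ∀ s, s < Qr → u s ∈ σ.ker := by
    intro s hs
    have hs' : s < R₀.length := by omega
    show ev y (lg [] RL s) ∈ σ.ker
    rw [hlg s hs', List.getD_eq_getElem _ _ hs']
    exact hkerR _ (List.getElem_mem hs')
  have hz : ∀ q, q < R₀.length → u q ∈ Subgroup.closure (u '' {s | s ∈ ss}) := by
    intro q hq
    have hq' : q < Qr := by omega
    obtain ⟨W, L, h1, h2⟩ := hcert q hq'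
    have hW : ∀ a ∈ W, a.1 < Qr := fun a ha => hss _ (h2 a ha)
    have h3 := val_soundW (h0 := h0) C hρ hy hσ.1 hσ.2.1 hMF hRL2 hQ hrho hQrQ hTree hE hF hq' hW h1
    show ev y (lg [] RL q) ∈ _
    rw [h3]
    apply Subgroup.list_prod_mem
    intro b hb
    obtain ⟨a, ha, rfl⟩ := List.mem_map.1 hb
    exact Subgroup.zpow_mem _ (Subgroup.subset_closure (Set.mem_image_of_mem u (h2 a ha))) _
  refine ⟨u, fun s hs => hu1 s (hss s hs), ?_, ?_⟩
  · rintro s hs m ⟨L, hL⟩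
    have h1 := val_soundW (h0 := h0) C hρ hy hσ.1 hσ.2.1 hMF hRL2 hQ hrho hQrQ hTree hE hF (hss s hs)
      (B := [(s, 1 - (m : ℤ))]) (by
        intro a ha
        rw [List.mem_singleton] at ha
        subst ha
        exact hss s hs) hL
    simp only [List.map_cons, List.map_nil, List.prod_cons, List.prod_nil, mul_one] at h1
    have h1' : u s = u s ^ (1 - (m : ℤ)) := h1
    have h3 : u s = u s * (u s ^ m)⁻¹ := by
      have e : u s ^ (1 - (m : ℤ)) = u s * (u s ^ m)⁻¹ := by rw [zpow_sub, zpow_one, zpow_natCast]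
      exact h1'.trans e
    have h4 : (u s ^ m)⁻¹ = 1 := by
      have := mul_left_cancel (a := u s) (b := 1) (c := (u s ^ m)⁻¹) (by rw [mul_one]; exact h3)
      exact this.symm
    exact inv_eq_one.1 h4
  · have hcen : Subgroup.closure (u '' {s | s ∈ ss}) ≤ Subgroup.center Γ := by
      rw [Subgroup.closure_le]
      rintro _ ⟨s, hs, rfl⟩
      exact hσ.2.1 (hu1 s (hss s hs))
    haveI hN : (Subgroup.closure (u '' {s | s ∈ ss})).Normal := by
      constructor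
      intro a ha b
      have := Subgroup.mem_center_iff.1 (hcen ha) b
      rw [this, mul_inv_cancel_right]
      exact ha
    refine ker_le_of_rels hP σ y (fun x _ => hy x) (closure_lifts hσ hy hP.hgen) _ ?_ ?_
    · rw [Subgroup.closure_le]
      rintro _ ⟨s, hs, rfl⟩
      exact hu1 s (hss s hs)
    · intro r hr
      obtain ⟨r₀, hr₀, k, rfl⟩ := hrot r hr
      rw [ev_rotate_of_central (hσ.2.1 (hkerR r₀ hr₀))]
      obtain ⟨q, hq, rfl⟩ := List.mem_iff_getElem.1 hr₀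
      have h1 := hz q hq
      have e : u q = ev y R₀[q] := by
        show ev y (lg [] RL q) = _
        rw [hlg q hq, List.getD_eq_getElem _ _ hq]
      rwa [e] at h1

end main

section pi

variable {Γ : Type} [Group Γ] {K : Subgroup Γ}

theorem zmod_hom_one {m : ℕ} {X : Type*} [Group X] (π : Multiplicative (ZMod m) →* X) (u : X)
    (h : ∀ k : ℤ, π (Multiplicative.ofAdd (k : ZMod m)) = u ^ k) : π (Multiplicative.ofAdd 1) = u := by
  have := h 1
  simpa using this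

/-- Two commuting generators of orders dividing `a` and `b`. -/
theorem exists_pi2 (hc : K ≤ Subgroup.center Γ) {a b : ℕ} {ua ub : Γ} (h1 : ua ∈ K) (h2 : ub ∈ K) (ha : ua ^ a = 1) (hb : ub ^ b = 1)
    (hk : K ≤ Subgroup.closure {ua, ub}) :
    ∃ π : Multiplicative (ZMod a × ZMod b) →* K, Function.Surjective π := by
  obtain ⟨π1, h3⟩ := exists_cyclic (K := K) a ⟨ua, h1⟩ (Subtype.ext (by simpa using ha))
  obtain ⟨π2, h4⟩ := exists_cyclic (K := K) b ⟨ub, h2⟩ (Subtype.ext (by simpa using hb))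
  have hcomm : ∀ x y : K, x * y = y * x := by
    intro x y
    apply Subtype.ext
    exact (Subgroup.mem_center_iff.1 (hc y.2) x.1)
  let π : Multiplicative (ZMod a × ZMod b) →* K :=
    { toFun := fun c => π1 (Multiplicative.ofAdd (Multiplicative.toAdd c).1) * π2 (Multiplicative.ofAdd (Multiplicative.toAdd c).2)
      map_one' := by
        show π1 (Multiplicative.ofAdd 0) * π2 (Multiplicative.ofAdd 0) = 1
        simp only [ofAdd_zero, map_one, mul_one]
      map_mul' := by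
        intro x y
        show π1 (Multiplicative.ofAdd ((Multiplicative.toAdd x).1 + (Multiplicative.toAdd y).1)) *
          π2 (Multiplicative.ofAdd ((Multiplicative.toAdd x).2 + (Multiplicative.toAdd y).2)) = _
        rw [ofAdd_add, ofAdd_add, map_mul, map_mul]
        simp only [mul_assoc]
        congr 1
        simp only [← mul_assoc]
        rw [hcomm (π1 _) (π2 _)] }
  refine ⟨π, ?_⟩
  have hA : π (Multiplicative.ofAdd ((1 : ZMod a), (0 : ZMod b))) = ⟨ua, h1⟩ := by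
    show π1 (Multiplicative.ofAdd 1) * π2 (Multiplicative.ofAdd 0) = _
    rw [zmod_hom_one π1 _ h3]
    simp only [ofAdd_zero, map_one, mul_one]
  have hB : π (Multiplicative.ofAdd ((0 : ZMod a), (1 : ZMod b))) = ⟨ub, h2⟩ := by
    show π1 (Multiplicative.ofAdd 0) * π2 (Multiplicative.ofAdd 1) = _
    rw [zmod_hom_one π2 _ h4]
    simp only [ofAdd_zero, map_one, one_mul]
  have hle : Subgroup.closure {ua, ub} ≤ π.range.map K.subtype := by
    rw [Subgroup.closure_le]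
    intro x hx
    rcases hx with hx | hx
    · rw [hx]
      exact ⟨⟨ua, h1⟩, ⟨_, hA⟩, rfl⟩
    · rw [Set.mem_singleton_iff.1 hx]
      exact ⟨⟨ub, h2⟩, ⟨_, hB⟩, rfl⟩
  rintro ⟨v, hv⟩
  obtain ⟨w, ⟨c, hc'⟩, e⟩ := hle (hk hv)
  refine ⟨c, ?_⟩
  apply Subtype.ext
  rw [hc']
  exact e

/-- Three commuting generators of orders dividing `a`, `b` and `e`. -/
theorem exists_pi3 (hc : K ≤ Subgroup.center Γ) {a b e : ℕ} {ua ub ue : Γ} (h1 : ua ∈ K) (h2 : ub ∈ K) (h5 : ue ∈ K)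
    (ha : ua ^ a = 1) (hb : ub ^ b = 1) (he : ue ^ e = 1) (hk : K ≤ Subgroup.closure {ua, ub, ue}) :
    ∃ π : Multiplicative (ZMod a × ZMod b × ZMod e) →* K, Function.Surjective π := by
  obtain ⟨π1, h3⟩ := exists_cyclic (K := K) a ⟨ua, h1⟩ (Subtype.ext (by simpa using ha))
  obtain ⟨π2, h4⟩ := exists_cyclic (K := K) b ⟨ub, h2⟩ (Subtype.ext (by simpa using hb))
  obtain ⟨π3, h6⟩ := exists_cyclic (K := K) e ⟨ue, h5⟩ (Subtype.ext (by simpa using he))
  have hcomm : ∀ x y : K, x * y = y * x := by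
    intro x y
    apply Subtype.ext
    exact (Subgroup.mem_center_iff.1 (hc y.2) x.1)
  let π : Multiplicative (ZMod a × ZMod b × ZMod e) →* K :=
    { toFun := fun c => π1 (Multiplicative.ofAdd (Multiplicative.toAdd c).1) * (π2 (Multiplicative.ofAdd (Multiplicative.toAdd c).2.1) *
        π3 (Multiplicative.ofAdd (Multiplicative.toAdd c).2.2))
      map_one' := by
        show π1 (Multiplicative.ofAdd 0) * (π2 (Multiplicative.ofAdd 0) * π3 (Multiplicative.ofAdd 0)) = 1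
        simp only [ofAdd_zero, map_one, mul_one]
      map_mul' := by
        intro x y
        show π1 (Multiplicative.ofAdd ((Multiplicative.toAdd x).1 + (Multiplicative.toAdd y).1)) *
          (π2 (Multiplicative.ofAdd ((Multiplicative.toAdd x).2.1 + (Multiplicative.toAdd y).2.1)) *
          π3 (Multiplicative.ofAdd ((Multiplicative.toAdd x).2.2 + (Multiplicative.toAdd y).2.2))) = _
        rw [ofAdd_add, ofAdd_add, ofAdd_add, map_mul, map_mul, map_mul]
        generalize π1 (Multiplicative.ofAdd (Multiplicative.toAdd x).1) = x1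
        generalize π1 (Multiplicative.ofAdd (Multiplicative.toAdd y).1) = y1
        generalize π2 (Multiplicative.ofAdd (Multiplicative.toAdd x).2.1) = x2
        generalize π2 (Multiplicative.ofAdd (Multiplicative.toAdd y).2.1) = y2
        generalize π3 (Multiplicative.ofAdd (Multiplicative.toAdd x).2.2) = x3
        generalize π3 (Multiplicative.ofAdd (Multiplicative.toAdd y).2.2) = y3
        calc x1 * y1 * (x2 * y2 * (x3 * y3)) = x1 * (y1 * (x2 * y2 * (x3 * y3))) := mul_assoc _ _ _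
          _ = x1 * (x2 * y2 * (x3 * y3) * y1) := by rw [hcomm y1]
          _ = x1 * (x2 * (y2 * (x3 * y3)) * y1) := by simp only [mul_assoc]
          _ = x1 * (x2 * ((x3 * y3) * y2) * y1) := by rw [hcomm y2]
          _ = x1 * (x2 * x3 * (y3 * y2 * y1)) := by simp only [mul_assoc]
          _ = x1 * (x2 * x3) * (y3 * y2 * y1) := by simp only [mul_assoc]
          _ = x1 * (x2 * x3) * (y1 * (y3 * y2)) := by rw [hcomm _ y1, mul_assoc]
          _ = x1 * (x2 * x3) * (y1 * (y2 * y3)) := by rw [hcomm y3] }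
  refine ⟨π, ?_⟩
  have hA : π (Multiplicative.ofAdd ((1 : ZMod a), (0 : ZMod b), (0 : ZMod e))) = ⟨ua, h1⟩ := by
    show π1 (Multiplicative.ofAdd 1) * (π2 (Multiplicative.ofAdd 0) * π3 (Multiplicative.ofAdd 0)) = _
    rw [zmod_hom_one π1 _ h3]
    simp only [ofAdd_zero, map_one, mul_one]
  have hB : π (Multiplicative.ofAdd ((0 : ZMod a), (1 : ZMod b), (0 : ZMod e))) = ⟨ub, h2⟩ := by
    show π1 (Multiplicative.ofAdd 0) * (π2 (Multiplicative.ofAdd 1) * π3 (Multiplicative.ofAdd 0)) = _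
    rw [zmod_hom_one π2 _ h4]
    simp only [ofAdd_zero, map_one, mul_one, one_mul]
  have hE : π (Multiplicative.ofAdd ((0 : ZMod a), (0 : ZMod b), (1 : ZMod e))) = ⟨ue, h5⟩ := by
    show π1 (Multiplicative.ofAdd 0) * (π2 (Multiplicative.ofAdd 0) * π3 (Multiplicative.ofAdd 1)) = _
    rw [zmod_hom_one π3 _ h6]
    simp only [ofAdd_zero, map_one, one_mul]
  have hle : Subgroup.closure {ua, ub, ue} ≤ π.range.map K.subtype := by
    rw [Subgroup.closure_le]
    intro x hx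
    rcases hx with hx | hx | hx
    · rw [hx]
      exact ⟨⟨ua, h1⟩, ⟨_, hA⟩, rfl⟩
    · rw [hx]
      exact ⟨⟨ub, h2⟩, ⟨_, hB⟩, rfl⟩
    · rw [Set.mem_singleton_iff.1 hx]
      exact ⟨⟨ue, h5⟩, ⟨_, hE⟩, rfl⟩
  rintro ⟨v, hv⟩
  obtain ⟨w, ⟨c, hc'⟩, e'⟩ := hle (hk hv)
  refine ⟨c, ?_⟩
  apply Subtype.ext
  rw [hc']
  exact e'

end pi

section lowerN

open LowA

variable {G : Type} [Group G] [Finite G] {g : ℕ → G} {rels : List (List ℕ)}

theorem sum_two {a b : ℕ} (κ1 κ2 τ : ℕ → ℕ → ℕ) (w : List ℕ) (i : ℕ) :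
    sumA (fun l i => (((κ1 l i : ℕ) : ZMod a), ((κ2 l i : ℕ) : ZMod b))) τ w i =
      (((sumK κ1 τ w i : ℕ) : ZMod a), ((sumK κ2 τ w i : ℕ) : ZMod b)) := by
  induction w generalizing i with
  | nil =>
    simp [sumA_nil, sumK_nil]
    rfl
  | cons l w ih =>
    rw [sumA_cons, ih, sumK_cons, sumK_cons, Nat.cast_add, Nat.cast_add]
    rfl

theorem sum_three {a b e : ℕ} (κ1 κ2 κ3 τ : ℕ → ℕ → ℕ) (w : List ℕ) (i : ℕ) :
    sumA (fun l i => (((κ1 l i : ℕ) : ZMod a), ((κ2 l i : ℕ) : ZMod b), ((κ3 l i : ℕ) : ZMod e))) τ w i =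
      (((sumK κ1 τ w i : ℕ) : ZMod a), ((sumK κ2 τ w i : ℕ) : ZMod b), ((sumK κ3 τ w i : ℕ) : ZMod e)) := by
  induction w generalizing i with
  | nil =>
    simp [sumA_nil, sumK_nil]
    rfl
  | cons l w ih =>
    rw [sumA_cons, ih, sumK_cons, sumK_cons, sumK_cons, Nat.cast_add, Nat.cast_add, Nat.cast_add]
    rfl

/-- The lower bound for the multiplier: two factors. -/
theorem lower2 {a b : ℕ} [NeZero a] [NeZero b] (hP : IsPres d g rels) (C : Coset d n) (h0 : 0 < n) (κ1 κ2 : ℕ → ℕ → ℕ)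
    (U V : ℕ → List ℕ) (hcomm : ∀ x, x < d → g x = ⁅ev g (U x), ev g (V x)⁆)
    (hok : ∀ r ∈ rels, ∀ l ∈ r, l < 2 * d)
    (hAB : ∀ x, x < d → (∀ l ∈ U x, l < 2 * d) ∧ (∀ l ∈ V x, l < 2 * d))
    (k1 : chkK κ1 C.τ d n a = true) (k2 : chkK κ2 C.τ d n b = true)
    (r1 : ∀ r ∈ rels, ∃ z : ZMod a, ∀ i, i < n → actW C.τ r i = i ∧ ((sumK κ1 C.τ r i : ℕ) : ZMod a) = z) (r2 : ∀ r ∈ rels, ∃ z : ZMod b, ∀ i, i < n → actW C.τ r i = i ∧ ((sumK κ2 C.τ r i : ℕ) : ZMod b) = z)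
    (o1 : chkRho κ1 C.τ d n a U V = true) (o2 : chkRho κ2 C.τ d n b U V = true)
    {s1 s2 : List ℕ} (hs1 : s1 ∈ rels) (hs2 : s2 ∈ rels)
    (z11 : chkConst κ1 C.τ n a s1 1 = true) (z12 : chkConst κ2 C.τ n b s1 0 = true)
    (z21 : chkConst κ1 C.τ n a s2 0 = true) (z22 : chkConst κ2 C.τ n b s2 1 = true) :
    ∃ (Γ : Type) (_ : Group Γ) (_ : Finite Γ) (σ : Γ →* G), IsStemExtension σ ∧ Nonempty (σ.ker ≃* Multiplicative (ZMod a × ZMod b)) := by
  classical
  let κ : ℕ → ℕ → ZMod a × ZMod b := fun l i => (((κ1 l i : ℕ) : ZMod a), ((κ2 l i : ℕ) : ZMod b))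
  have hval : ∀ w i, sumA κ C.τ w i = (((sumK κ1 C.τ w i : ℕ) : ZMod a), ((sumK κ2 C.τ w i : ℕ) : ZMod b)) := fun w i => sum_two κ1 κ2 C.τ w i
  refine lowerA hP C h0 κ ?_ U V hcomm hok hAB ?_ ?_ ?_
  · intro l i hl hi
    have h1 := of_chkK k1 l i hl hi
    have h2 := of_chkK k2 l i hl hi
    rw [Nat.cast_add] at h1 h2
    exact Prod.ext h1 h2
  · intro r hr
    obtain ⟨x1, h1⟩ := r1 r hr
    obtain ⟨x2, h2⟩ := r2 r hr
    refine ⟨(x1, x2), fun i hi => ⟨(h1 i hi).1, ?_⟩⟩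
    rw [hval, (h1 i hi).2, (h2 i hi).2]
  · intro x hx i hi
    have h1 := of_chkRho o1 x hx i hi
    have h2 := of_chkRho o2 x hx i hi
    refine ⟨h1.1, ?_⟩
    rw [hval, h1.2, h2.2]
    rfl
  · rw [eq_top_iff]
    rintro ⟨x, y⟩ -
    set S := AddSubgroup.closure {z : ZMod a × ZMod b | ∃ r ∈ rels, ∀ i, i < n → actW C.τ r i = i ∧ sumA κ C.τ r i = z}
    have e1 : ((1 : ZMod a), (0 : ZMod b)) ∈ S := by
      refine AddSubgroup.subset_closure ⟨s1, hs1, fun i hi => ?_⟩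
      have h1 := of_chkConst z11 i hi
      have h2 := of_chkConst z12 i hi
      refine ⟨h1.1, ?_⟩
      rw [hval, h1.2, h2.2]
      simp
    have e2 : ((0 : ZMod a), (1 : ZMod b)) ∈ S := by
      refine AddSubgroup.subset_closure ⟨s2, hs2, fun i hi => ?_⟩
      have h1 := of_chkConst z21 i hi
      have h2 := of_chkConst z22 i hi
      refine ⟨h1.1, ?_⟩
      rw [hval, h1.2, h2.2]
      simp
    have e3 : (x, y) = x.val • ((1 : ZMod a), (0 : ZMod b)) + y.val • ((0 : ZMod a), (1 : ZMod b)) := by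
      refine Prod.ext ?_ ?_ <;> simp
    rw [e3]
    exact S.add_mem (S.nsmul_mem e1 _) (S.nsmul_mem e2 _)

/-- The lower bound for the multiplier: three factors. -/
theorem lower3 {a b e : ℕ} [NeZero a] [NeZero b] [NeZero e] (hP : IsPres d g rels) (C : Coset d n) (h0 : 0 < n) (κ1 κ2 κ3 : ℕ → ℕ → ℕ)
    (U V : ℕ → List ℕ) (hcomm : ∀ x, x < d → g x = ⁅ev g (U x), ev g (V x)⁆)
    (hok : ∀ r ∈ rels, ∀ l ∈ r, l < 2 * d)
    (hAB : ∀ x, x < d → (∀ l ∈ U x, l < 2 * d) ∧ (∀ l ∈ V x, l < 2 * d))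
    (k1 : chkK κ1 C.τ d n a = true) (k2 : chkK κ2 C.τ d n b = true) (k3 : chkK κ3 C.τ d n e = true)
    (r1 : ∀ r ∈ rels, ∃ z : ZMod a, ∀ i, i < n → actW C.τ r i = i ∧ ((sumK κ1 C.τ r i : ℕ) : ZMod a) = z) (r2 : ∀ r ∈ rels, ∃ z : ZMod b, ∀ i, i < n → actW C.τ r i = i ∧ ((sumK κ2 C.τ r i : ℕ) : ZMod b) = z) (r3 : ∀ r ∈ rels, ∃ z : ZMod e, ∀ i, i < n → actW C.τ r i = i ∧ ((sumK κ3 C.τ r i : ℕ) : ZMod e) = z)
    (o1 : chkRho κ1 C.τ d n a U V = true) (o2 : chkRho κ2 C.τ d n b U V = true) (o3 : chkRho κ3 C.τ d n e U V = true)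
    {s1 s2 s3 : List ℕ} (hs1 : s1 ∈ rels) (hs2 : s2 ∈ rels) (hs3 : s3 ∈ rels)
    (z11 : chkConst κ1 C.τ n a s1 1 = true) (z12 : chkConst κ2 C.τ n b s1 0 = true) (z13 : chkConst κ3 C.τ n e s1 0 = true)
    (z21 : chkConst κ1 C.τ n a s2 0 = true) (z22 : chkConst κ2 C.τ n b s2 1 = true) (z23 : chkConst κ3 C.τ n e s2 0 = true)
    (z31 : chkConst κ1 C.τ n a s3 0 = true) (z32 : chkConst κ2 C.τ n b s3 0 = true) (z33 : chkConst κ3 C.τ n e s3 1 = true) :
    ∃ (Γ : Type) (_ : Group Γ) (_ : Finite Γ) (σ : Γ →* G), IsStemExtension σ ∧ Nonempty (σ.ker ≃* Multiplicative (ZMod a × ZMod b × ZMod e)) := by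
  classical
  let κ : ℕ → ℕ → ZMod a × ZMod b × ZMod e := fun l i => (((κ1 l i : ℕ) : ZMod a), ((κ2 l i : ℕ) : ZMod b), ((κ3 l i : ℕ) : ZMod e))
  have hval : ∀ w i, sumA κ C.τ w i = (((sumK κ1 C.τ w i : ℕ) : ZMod a), ((sumK κ2 C.τ w i : ℕ) : ZMod b), ((sumK κ3 C.τ w i : ℕ) : ZMod e)) :=
    fun w i => sum_three κ1 κ2 κ3 C.τ w i
  refine lowerA hP C h0 κ ?_ U V hcomm hok hAB ?_ ?_ ?_
  · intro l i hl hi
    have h1 := of_chkK k1 l i hl hi
    have h2 := of_chkK k2 l i hl hi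
    have h3 := of_chkK k3 l i hl hi
    rw [Nat.cast_add] at h1 h2 h3
    exact Prod.ext h1 (Prod.ext h2 h3)
  · intro r hr
    obtain ⟨x1, h1⟩ := r1 r hr
    obtain ⟨x2, h2⟩ := r2 r hr
    obtain ⟨x3, h3⟩ := r3 r hr
    refine ⟨(x1, x2, x3), fun i hi => ⟨(h1 i hi).1, ?_⟩⟩
    rw [hval, (h1 i hi).2, (h2 i hi).2, (h3 i hi).2]
  · intro x hx i hi
    have h1 := of_chkRho o1 x hx i hi
    have h2 := of_chkRho o2 x hx i hi
    have h3 := of_chkRho o3 x hx i hi
    refine ⟨h1.1, ?_⟩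
    rw [hval, h1.2, h2.2, h3.2]
    rfl
  · rw [eq_top_iff]
    rintro ⟨x, y, t⟩ -
    set S := AddSubgroup.closure {z : ZMod a × ZMod b × ZMod e | ∃ r ∈ rels, ∀ i, i < n → actW C.τ r i = i ∧ sumA κ C.τ r i = z}
    have e1 : ((1 : ZMod a), (0 : ZMod b), (0 : ZMod e)) ∈ S := by
      refine AddSubgroup.subset_closure ⟨s1, hs1, fun i hi => ?_⟩
      have h1 := of_chkConst z11 i hi
      have h2 := of_chkConst z12 i hi
      have h3 := of_chkConst z13 i hi
      refine ⟨h1.1, ?_⟩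
      rw [hval, h1.2, h2.2, h3.2]
      simp
    have e2 : ((0 : ZMod a), (1 : ZMod b), (0 : ZMod e)) ∈ S := by
      refine AddSubgroup.subset_closure ⟨s2, hs2, fun i hi => ?_⟩
      have h1 := of_chkConst z21 i hi
      have h2 := of_chkConst z22 i hi
      have h3 := of_chkConst z23 i hi
      refine ⟨h1.1, ?_⟩
      rw [hval, h1.2, h2.2, h3.2]
      simp
    have e4 : ((0 : ZMod a), (0 : ZMod b), (1 : ZMod e)) ∈ S := by
      refine AddSubgroup.subset_closure ⟨s3, hs3, fun i hi => ?_⟩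
      have h1 := of_chkConst z31 i hi
      have h2 := of_chkConst z32 i hi
      have h3 := of_chkConst z33 i hi
      refine ⟨h1.1, ?_⟩
      rw [hval, h1.2, h2.2, h3.2]
      simp
    have e3 : (x, y, t) = x.val • ((1 : ZMod a), (0 : ZMod b), (0 : ZMod e)) + y.val • ((0 : ZMod a), (1 : ZMod b), (0 : ZMod e)) +
        t.val • ((0 : ZMod a), (0 : ZMod b), (1 : ZMod e)) := by
      refine Prod.ext ?_ (Prod.ext ?_ ?_) <;> simp
    rw [e3]
    exact S.add_mem (S.add_mem (S.nsmul_mem e1 _) (S.nsmul_mem e2 _)) (S.nsmul_mem e4 _)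

end lowerN

end Cfsg.Agent.Lib.KnownSimple.MultC
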