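import Cfsg.Agent.Lib.KnownSimple.MultC.Nest

/-!
# Schur multipliers: tables of values of the edges

Instead of a linear combination of closed paths for each relation, a table gives the value of each edge of the coset
graph as a vector, over the values of a few edges and the values of the relators.  The table is checked one edge at a
time.
-/

set_option autoImplicit false

namespace Cfsg.Agent.Lib.KnownSimple.MultC

open Cfsg Cfsg.Agent.Lib.Compute
open scoped commutatorElement

/-- The sum of two vectors. -/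
noncomputable def vadd : List ℤ → List ℤ → List ℤ :=
  fun b => List.rec (fun a => a) (fun y _ ih a => List.rec (y :: ih []) (fun x a' _ => Int.add x y :: ih a') a) b

/-- The difference of two vectors: the second minus the first. -/
noncomputable def vsub : List ℤ → List ℤ → List ℤ :=
  fun b => List.rec (fun a => a) (fun y _ ih a => List.rec (Int.neg y :: ih []) (fun x a' _ => Int.sub x y :: ih a') a) b

/-- A multiple of a vector. -/
noncomputable def vsm (s : ℤ) : List ℤ → List ℤ :=
  fun v => List.rec [] (fun a _ ih => Int.mul s a :: ih) v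

/-- The zero test. -/
noncomputable def vzero : List ℤ → Bool :=
  fun v => List.rec true (fun a _ ih => bcond (decide (a = 0)) ih false) v

/-- A unit vector. -/
def unitV (j : ℕ) : List ℤ := List.replicate j 0 ++ [1]

section vec

variable {A : Type*} [CommGroup A]

/-- The value of a vector. -/
def evalV : (ℕ → A) → List ℤ → A
  | _, [] => 1
  | c, a :: v => c 0 ^ a * evalV (fun j => c (j + 1)) v

theorem evalV_vadd (b a : List ℤ) (c : ℕ → A) : evalV c (vadd b a) = evalV c a * evalV c b := by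
  induction b generalizing a c with
  | nil =>
    show evalV c a = evalV c a * 1
    rw [mul_one]
  | cons y b ih =>
    cases a with
    | nil =>
      show c 0 ^ y * evalV (fun j => c (j + 1)) (vadd b []) = 1 * (c 0 ^ y * evalV (fun j => c (j + 1)) b)
      rw [ih, one_mul]
      show c 0 ^ y * (1 * _) = _
      rw [one_mul]
    | cons x a =>
      show c 0 ^ (x + y) * evalV (fun j => c (j + 1)) (vadd b a) =
        (c 0 ^ x * evalV (fun j => c (j + 1)) a) * (c 0 ^ y * evalV (fun j => c (j + 1)) b)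
      rw [ih, zpow_add, mul_mul_mul_comm]

theorem evalV_vsub (b a : List ℤ) (c : ℕ → A) : evalV c (vsub b a) = evalV c a * (evalV c b)⁻¹ := by
  induction b generalizing a c with
  | nil =>
    show evalV c a = evalV c a * (1 : A)⁻¹
    rw [inv_one, mul_one]
  | cons y b ih =>
    cases a with
    | nil =>
      show c 0 ^ (-y) * evalV (fun j => c (j + 1)) (vsub b []) = 1 * (c 0 ^ y * evalV (fun j => c (j + 1)) b)⁻¹
      rw [ih, one_mul, mul_inv, zpow_neg]
      show _ * (1 * _) = _
      rw [one_mul]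
    | cons x a =>
      show c 0 ^ (x - y) * evalV (fun j => c (j + 1)) (vsub b a) =
        (c 0 ^ x * evalV (fun j => c (j + 1)) a) * (c 0 ^ y * evalV (fun j => c (j + 1)) b)⁻¹
      rw [ih, zpow_sub, mul_inv, mul_mul_mul_comm]

theorem evalV_vsm (s : ℤ) (v : List ℤ) (c : ℕ → A) : evalV c (vsm s v) = evalV c v ^ s := by
  induction v generalizing c with
  | nil =>
    show (1 : A) = 1 ^ s
    rw [one_zpow]
  | cons a v ih =>
    show c 0 ^ (s * a) * evalV (fun j => c (j + 1)) (vsm s v) = (c 0 ^ a * evalV (fun j => c (j + 1)) v) ^ s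
    rw [ih, mul_zpow, mul_comm s a, zpow_mul]

theorem evalV_of_vzero {v : List ℤ} (h : vzero v = true) (c : ℕ → A) : evalV c v = 1 := by
  induction v generalizing c with
  | nil => rfl
  | cons a v ih =>
    have h1 : bcond (decide (a = 0)) (vzero v) false = true := h
    cases h2 : decide (a = 0) with
    | false => rw [h2, bcond_false] at h1; exact Bool.noConfusion h1
    | true =>
      rw [h2, bcond_true] at h1
      have h3 : a = 0 := of_decide_eq_true h2
      show c 0 ^ a * evalV (fun j => c (j + 1)) v = 1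
      rw [h3, zpow_zero, one_mul, ih h1]

theorem evalV_unitV (j : ℕ) (c : ℕ → A) : evalV c (unitV j) = c j := by
  induction j generalizing c with
  | zero =>
    show c 0 ^ (1 : ℤ) * 1 = c 0
    rw [zpow_one, mul_one]
  | succ j ih =>
    show c 0 ^ (0 : ℤ) * evalV (fun j => c (j + 1)) (unitV j) = c (j + 1)
    rw [zpow_zero, one_mul, ih]

/-- Some identities. -/
theorem alg_even (E V X W r : A) (m k : ℤ) (hr : r = V * X⁻¹) :
    E * V * W * r ^ (m - (k + 1)) = E * (X * W) * r ^ (m - k) := by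
  have h1 : V = X * r := by rw [hr]; simp
  have h2 : m - k = (m - (k + 1)) + 1 := by ring
  rw [h2, zpow_add_one, h1]
  simp only [mul_assoc, mul_comm, mul_left_comm]

theorem alg_odd (E V X W r : A) (m k : ℤ) (hr : r = V * X⁻¹) :
    E * V⁻¹ * W * r ^ (m - (k - 1)) = E * (X⁻¹ * W) * r ^ (m - k) := by
  have h1 : V = X * r := by rw [hr]; simp
  have h2 : m - (k - 1) = (m - k) + 1 := by ring
  rw [h2, zpow_add_one, h1, mul_inv]
  have h3 : r⁻¹ * r = 1 := inv_mul_cancel r
  calc E * (X⁻¹ * r⁻¹) * W * (r ^ (m - k) * r) = E * (X⁻¹ * W) * r ^ (m - k) * (r⁻¹ * r) := by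
        simp only [mul_assoc, mul_comm, mul_left_comm]
    _ = _ := by rw [h3, mul_one]

end vec

/-- A table of values. -/
inductive ZV where
  | nil : ZV
  | node (rk jt : ℕ) (v : List ℤ) (l r : ZV) : ZV

/-- A lookup in a table of values. -/
noncomputable def lookV : ℕ → ℕ → ZV → ℕ × ℕ × List ℤ :=
  fun fuel => Nat.rec (fun _ T => ZV.rec (0, 0, []) (fun rk jt v _ _ _ _ => (rk, jt, v)) T)
    (fun _ ih e T => ZV.rec (0, 0, []) (fun rk jt v l r _ _ => bcond (Nat.beq e 0) (rk, jt, v)
      (bcond (Nat.beq (Nat.mod e 2) 1) (ih (Nat.div e 2) l) (ih (Nat.sub (Nat.div e 2) 1) r))) T) fuel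

/-- The parts of an entry. -/
noncomputable def elimN {β : Type} (p : ℕ × ℕ × List ℤ) (f : ℕ → ℕ → List ℤ → β) : β :=
  Prod.rec (fun a b => Prod.rec (fun c e => f a c e) b) p

theorem elimN_eq {β : Type} (p : ℕ × ℕ × List ℤ) (f : ℕ → ℕ → List ℤ → β) : elimN p f = f p.1 p.2.1 p.2.2 := by
  obtain ⟨a, b, c⟩ := p
  rfl

/-- The walk along a word: the sum of the values of the edges, where the edges other than `e` have smaller rank. -/
noncomputable def wkD (τ : ℕ → ℕ → ℕ) (d : ℕ) (T : ZV) (e R : ℕ) :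
    List ℕ → ℕ → List ℤ → ℤ → (List ℤ → ℤ → Bool) → Bool :=
  fun w => List.rec (fun _ acc net K => K acc net)
    (fun l _ ih i acc net K =>
      fN (τ l i) fun j =>
        bcond (Nat.beq (Nat.mod l 2) 0)
          (fN (Nat.add (Nat.mul i d) (Nat.div l 2)) fun f => elimN (lookV f f T) fun rk _ v =>
            bcond (Nat.beq f e) (ih j (vadd v acc) (Int.add net 1) K)
              (bcond (Nat.blt rk R) (ih j (vadd v acc) net K) false))
          (fN (Nat.add (Nat.mul j d) (Nat.div l 2)) fun f => elimN (lookV f f T) fun rk _ v =>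
            bcond (Nat.beq f e) (ih j (vsub v acc) (Int.sub net 1) K)
              (bcond (Nat.blt rk R) (ih j (vsub v acc) net K) false))) w

theorem wkD_nil (τ : ℕ → ℕ → ℕ) (d : ℕ) (T : ZV) (e R i : ℕ) (acc : List ℤ) (net : ℤ) (K : List ℤ → ℤ → Bool) :
    wkD τ d T e R [] i acc net K = K acc net := rfl

theorem wkD_even (τ : ℕ → ℕ → ℕ) (d : ℕ) (T : ZV) (e R l : ℕ) (w : List ℕ) (i : ℕ) (acc : List ℤ) (net : ℤ)
    (K : List ℤ → ℤ → Bool) (h : l % 2 = 0) :
    wkD τ d T e R (l :: w) i acc net K =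
      bcond (Nat.beq (i * d + l / 2) e)
        (wkD τ d T e R w (τ l i) (vadd (lookV (i * d + l / 2) (i * d + l / 2) T).2.2 acc) (net + 1) K)
        (bcond (Nat.blt (lookV (i * d + l / 2) (i * d + l / 2) T).1 R)
          (wkD τ d T e R w (τ l i) (vadd (lookV (i * d + l / 2) (i * d + l / 2) T).2.2 acc) net K) false) := by
  show fN (τ l i) (fun j => bcond (Nat.beq (Nat.mod l 2) 0)
    (fN (Nat.add (Nat.mul i d) (Nat.div l 2)) fun f => elimN (lookV f f T) fun rk _ v =>
      bcond (Nat.beq f e) (wkD τ d T e R w j (vadd v acc) (Int.add net 1) K)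
        (bcond (Nat.blt rk R) (wkD τ d T e R w j (vadd v acc) net K) false))
    (fN (Nat.add (Nat.mul j d) (Nat.div l 2)) fun f => elimN (lookV f f T) fun rk _ v =>
      bcond (Nat.beq f e) (wkD τ d T e R w j (vsub v acc) (Int.sub net 1) K)
        (bcond (Nat.blt rk R) (wkD τ d T e R w j (vsub v acc) net K) false))) = _
  have hb : Nat.beq (Nat.mod l 2) 0 = true := by
    rw [Nat.beq_eq]
    exact h
  rw [fN_eq, hb, bcond_true, fN_eq, elimN_eq]
  rfl

theorem wkD_odd (τ : ℕ → ℕ → ℕ) (d : ℕ) (T : ZV) (e R l : ℕ) (w : List ℕ) (i : ℕ) (acc : List ℤ) (net : ℤ)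
    (K : List ℤ → ℤ → Bool) (h : l % 2 ≠ 0) :
    wkD τ d T e R (l :: w) i acc net K =
      bcond (Nat.beq (τ l i * d + l / 2) e)
        (wkD τ d T e R w (τ l i) (vsub (lookV (τ l i * d + l / 2) (τ l i * d + l / 2) T).2.2 acc) (net - 1) K)
        (bcond (Nat.blt (lookV (τ l i * d + l / 2) (τ l i * d + l / 2) T).1 R)
          (wkD τ d T e R w (τ l i) (vsub (lookV (τ l i * d + l / 2) (τ l i * d + l / 2) T).2.2 acc) net K) false) := by
  show fN (τ l i) (fun j => bcond (Nat.beq (Nat.mod l 2) 0)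
    (fN (Nat.add (Nat.mul i d) (Nat.div l 2)) fun f => elimN (lookV f f T) fun rk _ v =>
      bcond (Nat.beq f e) (wkD τ d T e R w j (vadd v acc) (Int.add net 1) K)
        (bcond (Nat.blt rk R) (wkD τ d T e R w j (vadd v acc) net K) false))
    (fN (Nat.add (Nat.mul j d) (Nat.div l 2)) fun f => elimN (lookV f f T) fun rk _ v =>
      bcond (Nat.beq f e) (wkD τ d T e R w j (vsub v acc) (Int.sub net 1) K)
        (bcond (Nat.blt rk R) (wkD τ d T e R w j (vsub v acc) net K) false))) = _
  have hb : Nat.beq (Nat.mod l 2) 0 = false := by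
    cases h2 : Nat.beq (Nat.mod l 2) 0 with
    | false => rfl
    | true => exact absurd (Nat.eq_of_beq_eq_true h2) h
  rw [fN_eq, hb, bcond_false, fN_eq, elimN_eq]
  rfl

variable {d n : ℕ}

/-- The words of a tree. -/
noncomputable def tw (par gen : ℕ → ℕ) (i : ℕ) : List ℕ :=
  if h : par i < i then tw par gen (par i) ++ [gen i] else []
termination_by i
decreasing_by exact h

/-- The edge of a point of a tree. -/
noncomputable def treeE (d : ℕ) (par gen : ℕ → ℕ) (i : ℕ) : ℕ :=
  bcond (Nat.beq (Nat.mod (gen i) 2) 0) (Nat.add (Nat.mul (par i) d) (Nat.div (gen i) 2))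
    (Nat.add (Nat.mul i d) (Nat.div (gen i) 2))

/-- The vector whose zero test checks the value of a relator. -/
noncomputable def tgt (P Qr q : ℕ) (acc : List ℤ) : List ℤ :=
  bcond (Nat.blt q Qr) (vsub (unitV (P + q)) acc) acc

/-- The test of an edge. -/
noncomputable def chkEdge (τ : ℕ → ℕ → ℕ) (d n : ℕ) (RL : List (List ℕ)) (Q P Qr : ℕ) (par gen pe : ℕ → ℕ) (T : ZV) (e : ℕ) :
    Bool :=
  elimN (lookV e e T) fun rk jt v =>
    bcond (Nat.beq rk 0)
      (bcond (Nat.blt jt n)
        (bcond (Nat.blt 0 jt) (bcond (Nat.beq (treeE d par gen jt) e) (vzero v) false) false)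
        (bcond (Nat.blt (jt - n) P)
          (bcond (Nat.beq (pe (jt - n)) e) (vzero (vsub (unitV (jt - n)) v)) false) false))
      (fN (Nat.mod jt Q) fun q => fN (Nat.div jt Q) fun i =>
        bcond (bcond (Nat.blt i n) (Nat.blt q Q) false)
          (wkD τ d T e rk (lg [] RL q) i [] 0 fun acc net =>
            bcond (vzero (tgt P Qr q acc)) (bcond (decide (net = 1)) true (decide (net = -1))) false)
          false)

/-- The test of a relation: the sum of the values of the edges of a closed path. -/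
noncomputable def chkRow (τ : ℕ → ℕ → ℕ) (d n : ℕ) (RL : List (List ℕ)) (Q E Rb : ℕ) (T : ZV) (x : ℕ × ℕ × List ℤ) : Bool :=
  bcond (bcond (Nat.blt x.1 n) (Nat.blt x.2.1 Q) false)
    (wkD τ d T E Rb (lg [] RL x.2.1) x.1 [] 0 fun acc net =>
      bcond (decide (net = 0)) (vzero (vsub x.2.2 acc)) false)
    false

/-- The combination of relations. -/
noncomputable def sumComb (P Qr : ℕ) (rows : List (ℕ × ℕ × List ℤ)) (L : List (ℕ × ℤ)) : List ℤ :=
  List.rec [] (fun a _ ih => vadd (vsm a.2 (tgt P Qr (lg (0, 0, []) rows a.1).2.1 (lg (0, 0, []) rows a.1).2.2)) ih) L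

/-- The test of a combination of relations: it gives the value of a relator. -/
noncomputable def chkComb (P Qr : ℕ) (rows : List (ℕ × ℕ × List ℤ)) (qs q : ℕ) (a : ℤ) (L : List (ℕ × ℤ)) : Bool :=
  bcond (L.all fun x => Nat.blt x.1 rows.length)
    (vzero (vsub (vadd (vsm (-a) (unitV (P + qs))) (unitV (P + q))) (sumComb P Qr rows L))) false

section main

variable {G Γ : Type} [Group G] [Group Γ] {g : ℕ → G} {σ : Γ →* G} {ρ : G →* Equiv.Perm (Fin n)} {h0 : 0 < n}
  (C : Coset d n) {y : ℕ → Γ} {t : ℕ → Γ}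

theorem edge_even (hρ : ∀ x, x < d → ρ (g x) = (C.p x)⁻¹) (hy : ∀ x, σ (y x) = g x)
    (ht : ∀ i (hi : i < n), (ρ (σ (t i)))⁻¹ ⟨0, h0⟩ = ⟨i, hi⟩) {l i : ℕ} (hl : l < 2 * d) (h : l % 2 = 0) :
    edgeV C σ ρ h0 y t (i * d + l / 2) = cl σ ρ h0 (t i * lv y l * (t (C.τ l i))⁻¹) := by
  have hx : l / 2 < d := by omega
  obtain ⟨ed, em⟩ := edge_div (d := d) (i := i) hx
  have e2 : 2 * (l / 2) = l := by omega
  unfold edgeV
  rw [ed, em, e2]
  congr 3
  simp [lv, h]

theorem edge_odd (hρ : ∀ x, x < d → ρ (g x) = (C.p x)⁻¹) (hy : ∀ x, σ (y x) = g x)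
    (ht : ∀ i (hi : i < n), (ρ (σ (t i)))⁻¹ ⟨0, h0⟩ = ⟨i, hi⟩) {l i : ℕ} (hl : l < 2 * d) (h : l % 2 ≠ 0) (hi : i < n) :
    edgeV C σ ρ h0 y t (C.τ l i * d + l / 2) = (cl σ ρ h0 (t i * lv y l * (t (C.τ l i))⁻¹))⁻¹ := by
  have hx : l / 2 < d := by omega
  have s1 : t i * ev y [l] * (t (actW C.τ [l] i))⁻¹ ∈ Ht σ ρ h0 :=
    mem_seg C hρ hy ht [l] (by simpa using hl) hi
  have s1' : t i * lv y l * (t (C.τ l i))⁻¹ ∈ Ht σ ρ h0 := by
    simpa [ev_cons, actW_cons, actW_nil] using s1
  obtain ⟨ed, em⟩ := edge_div (d := d) (i := C.τ l i) hx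
  have e2 : 2 * (l / 2) + 1 = l := by omega
  have e2' : invL l = 2 * (l / 2) := by
    have := invL_odd (l / 2)
    rwa [e2] at this
  have e4 : C.τ (2 * (l / 2)) (C.τ l i) = i := by
    have := C.hinv l i hl hi
    rwa [e2'] at this
  unfold edgeV
  rw [ed, em, e4, ← cl_inv s1']
  congr 1
  have : lv y l = (y (l / 2))⁻¹ := by simp [lv, h]
  rw [this]
  group

theorem edge_lt {i x : ℕ} (hi : i < n) (hx : x < d) : i * d + x < n * d := by
  calc i * d + x < i * d + d := by omega
    _ = (i + 1) * d := by ring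
    _ ≤ n * d := Nat.mul_le_mul_right _ hi

theorem wkD_sound (hρ : ∀ x, x < d → ρ (g x) = (C.p x)⁻¹) (hy : ∀ x, σ (y x) = g x)
    (ht : ∀ i (hi : i < n), (ρ (σ (t i)))⁻¹ ⟨0, h0⟩ = ⟨i, hi⟩) {T : ZV} {e R : ℕ}
    (c : ℕ → Abelianization (Ht σ ρ h0))
    (hIH : ∀ f, f < n * d → (lookV f f T).1 < R → edgeV C σ ρ h0 y t f = evalV c (lookV f f T).2.2)
    (w : List ℕ) (hw : ∀ l ∈ w, l < 2 * d) {i : ℕ} (hi : i < n) (acc : List ℤ) (net : ℤ) (K : List ℤ → ℤ → Bool)
    (h : wkD C.τ d T e R w i acc net K = true) :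
    ∃ acc' net', K acc' net' = true ∧ evalV c acc' = evalV c acc * cl σ ρ h0 (t i * ev y w * (t (actW C.τ w i))⁻¹) *
      (evalV c (lookV e e T).2.2 * (edgeV C σ ρ h0 y t e)⁻¹) ^ (net' - net) := by
  induction w generalizing i acc net with
  | nil =>
    rw [wkD_nil] at h
    refine ⟨acc, net, h, ?_⟩
    rw [actW_nil, ev_nil, mul_one, mul_inv_cancel, cl_one, sub_self, zpow_zero, mul_one, mul_one]
  | cons l w ih =>
    have hl : l < 2 * d := hw l List.mem_cons_self
    have hw' : ∀ a ∈ w, a < 2 * d := fun a ha => hw a (List.mem_cons_of_mem _ ha)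
    have hj : C.τ l i < n := C.hlt _ _ hl hi
    have hx : l / 2 < d := by omega
    have s1 : t i * ev y [l] * (t (actW C.τ [l] i))⁻¹ ∈ Ht σ ρ h0 :=
      mem_seg C hρ hy ht [l] (by simpa using hl) hi
    have s1' : t i * lv y l * (t (C.τ l i))⁻¹ ∈ Ht σ ρ h0 := by
      simpa [ev_cons, actW_cons, actW_nil] using s1
    have s2 : t (C.τ l i) * ev y w * (t (actW C.τ w (C.τ l i)))⁻¹ ∈ Ht σ ρ h0 := mem_seg C hρ hy ht w hw' hj
    have e1 : t i * ev y (l :: w) * (t (actW C.τ (l :: w) i))⁻¹ =
        (t i * lv y l * (t (C.τ l i))⁻¹) * (t (C.τ l i) * ev y w * (t (actW C.τ w (C.τ l i)))⁻¹) := by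
      rw [ev_cons, actW_cons]
      group
    rw [e1, cl_mul s1' s2]
    by_cases hp : l % 2 = 0
    · rw [wkD_even _ _ _ _ _ _ _ _ _ _ _ hp] at h
      have hv := edge_even (ρ := ρ) (h0 := h0) C hρ hy ht (i := i) hl hp
      have hf : i * d + l / 2 < n * d := edge_lt hi hx
      cases hb : Nat.beq (i * d + l / 2) e with
      | true =>
        rw [hb, bcond_true] at h
        have hfe : i * d + l / 2 = e := Nat.eq_of_beq_eq_true hb
        obtain ⟨acc', net', hK, he⟩ := ih hw' hj _ _ h
        refine ⟨acc', net', hK, ?_⟩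
        rw [he, evalV_vadd, hfe]
        rw [hfe] at hv
        rw [← hv, alg_even _ _ _ _ _ _ _ rfl]
      | false =>
        rw [hb, bcond_false] at h
        cases hr : Nat.blt (lookV (i * d + l / 2) (i * d + l / 2) T).1 R with
        | false => rw [hr, bcond_false] at h; exact Bool.noConfusion h
        | true =>
          rw [hr, bcond_true] at h
          obtain ⟨acc', net', hK, he⟩ := ih hw' hj _ _ h
          refine ⟨acc', net', hK, ?_⟩
          have h3 := hIH _ hf (by simpa [Nat.blt_eq] using hr)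
          rw [he, evalV_vadd, ← h3, hv]
          simp only [mul_assoc]
    · rw [wkD_odd _ _ _ _ _ _ _ _ _ _ _ hp] at h
      have hv := edge_odd (ρ := ρ) (h0 := h0) C hρ hy ht (i := i) hl hp hi
      have hf : C.τ l i * d + l / 2 < n * d := edge_lt hj hx
      cases hb : Nat.beq (C.τ l i * d + l / 2) e with
      | true =>
        rw [hb, bcond_true] at h
        have hfe : C.τ l i * d + l / 2 = e := Nat.eq_of_beq_eq_true hb
        obtain ⟨acc', net', hK, he⟩ := ih hw' hj _ _ h
        refine ⟨acc', net', hK, ?_⟩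
        rw [he, evalV_vsub, hfe]
        rw [hfe] at hv
        have hs : cl σ ρ h0 (t i * lv y l * (t (C.τ l i))⁻¹) = (edgeV C σ ρ h0 y t e)⁻¹ := by
          rw [hv, inv_inv]
        rw [hs, alg_odd _ _ _ _ _ _ _ rfl]
      | false =>
        rw [hb, bcond_false] at h
        cases hr : Nat.blt (lookV (C.τ l i * d + l / 2) (C.τ l i * d + l / 2) T).1 R with
        | false => rw [hr, bcond_false] at h; exact Bool.noConfusion h
        | true =>
          rw [hr, bcond_true] at h
          obtain ⟨acc', net', hK, he⟩ := ih hw' hj _ _ h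
          refine ⟨acc', net', hK, ?_⟩
          have h3 := hIH _ hf (by simpa [Nat.blt_eq] using hr)
          rw [he, evalV_vsub, ← h3, hv, inv_inv]
          simp only [mul_assoc]

end main

end Cfsg.Agent.Lib.KnownSimple.MultC
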