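import Cfsg.Agent.Lib.KnownSimple.MultC.Val

/-!
# Schur multipliers: packed tables of values of the edges

The vectors of the table of values are packed into two numbers, their positive and their negative parts, digit by
digit; the sums along the closed paths are then sums of two numbers.  As long as the digits are small the sums of the
numbers give the sums of the vectors.
-/

set_option autoImplicit false

namespace Cfsg.Agent.Lib.KnownSimple.MultC

open Cfsg Cfsg.Agent.Lib.Compute

/-- A digit of a number. -/
def dig (C : ℕ) : ℕ → ℕ → ℕ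
  | x, 0 => x % C
  | x, j + 1 => dig C (x / C) j

theorem dig_zero_left (C j : ℕ) : dig C 0 j = 0 := by
  induction j with
  | zero => simp [dig]
  | succ j ih => simpa [dig] using ih

theorem dig_add {C : ℕ} (hC : 0 < C) (x y j : ℕ) (h : ∀ i, i ≤ j → dig C x i + dig C y i < C) :
    dig C (x + y) j = dig C x j + dig C y j := by
  induction j generalizing x y with
  | zero =>
    have h0 := h 0 (le_refl _)
    simp only [dig] at h0 ⊢
    rw [Nat.add_mod, Nat.mod_eq_of_lt h0]
  | succ j ih =>
    have h0 := h 0 (Nat.zero_le _)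
    simp only [dig] at h0 ⊢
    have e : (x + y) / C = x / C + y / C := by
      rw [Nat.add_div hC, if_neg (by omega), add_zero]
    rw [e]
    apply ih
    intro i hi
    exact h (i + 1) (by omega)

theorem dig_pow {C : ℕ} (hC : 1 < C) (a j : ℕ) : dig C (C ^ a) j = if j = a then 1 else 0 := by
  induction j generalizing a with
  | zero =>
    cases a with
    | zero => simp [dig, Nat.mod_eq_of_lt hC]
    | succ a => simp [dig, pow_succ]
  | succ j ih =>
    cases a with
    | zero =>
      have e : 1 / C = 0 := Nat.div_eq_of_lt hC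
      simp [dig, e, dig_zero_left]
    | succ a =>
      have e : C ^ (a + 1) / C = C ^ a := by
        rw [pow_succ]
        exact Nat.mul_div_cancel _ (by omega)
      simp only [dig, e, ih]
      simp

/-- The test of the digits of a number. -/
noncomputable def digOK (C B : ℕ) : ℕ → ℕ → Bool :=
  fun fuel => Nat.rec (fun x => Nat.beq x 0)
    (fun _ ih x => bcond (Nat.beq x 0) true (bcond (Nat.ble (Nat.mod x C) B) (ih (Nat.div x C)) false)) fuel

theorem digOK_le {C B : ℕ} (K x : ℕ) (h : digOK C B K x = true) (j : ℕ) : dig C x j ≤ B := by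
  induction K generalizing x j with
  | zero =>
    have h0 : x = 0 := Nat.eq_of_beq_eq_true h
    rw [h0, dig_zero_left]
    exact Nat.zero_le _
  | succ K ih =>
    have h1 : bcond (Nat.beq x 0) true (bcond (Nat.ble (Nat.mod x C) B) (digOK C B K (Nat.div x C)) false) = true := h
    cases hx : Nat.beq x 0 with
    | true =>
      have h0 : x = 0 := Nat.eq_of_beq_eq_true hx
      rw [h0, dig_zero_left]
      exact Nat.zero_le _
    | false =>
      rw [hx, bcond_false] at h1
      cases hm : Nat.ble (Nat.mod x C) B with
      | false =>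
        rw [hm, bcond_false] at h1
        exact Bool.noConfusion h1
      | true =>
        rw [hm, bcond_true] at h1
        cases j with
        | zero => exact Nat.le_of_ble_eq_true hm
        | succ j => exact ih _ h1 j

theorem digOK_far {C B : ℕ} (K x : ℕ) (h : digOK C B K x = true) (j : ℕ) (hj : K ≤ j) : dig C x j = 0 := by
  induction K generalizing x j with
  | zero =>
    have h0 : x = 0 := Nat.eq_of_beq_eq_true h
    rw [h0, dig_zero_left]
  | succ K ih =>
    have h1 : bcond (Nat.beq x 0) true (bcond (Nat.ble (Nat.mod x C) B) (digOK C B K (Nat.div x C)) false) = true := h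
    cases hx : Nat.beq x 0 with
    | true =>
      have h0 : x = 0 := Nat.eq_of_beq_eq_true hx
      rw [h0, dig_zero_left]
    | false =>
      rw [hx, bcond_false] at h1
      cases hm : Nat.ble (Nat.mod x C) B with
      | false =>
        rw [hm, bcond_false] at h1
        exact Bool.noConfusion h1
      | true =>
        rw [hm, bcond_true] at h1
        cases j with
        | zero => omega
        | succ j => exact ih _ h1 j (by omega)

/-- The vector of two numbers. -/
noncomputable def decV (C : ℕ) : ℕ → ℕ → ℕ → List ℤ :=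
  fun fuel => Nat.rec (fun _ _ => [])
    (fun _ ih p m => Int.sub (Int.ofNat (Nat.mod p C)) (Int.ofNat (Nat.mod m C)) :: ih (Nat.div p C) (Nat.div m C)) fuel

theorem decV_getD {C : ℕ} (K p m : ℕ) (hp : ∀ j, K ≤ j → dig C p j = 0) (hm : ∀ j, K ≤ j → dig C m j = 0) (j : ℕ) :
    (decV C K p m).getD j 0 = (dig C p j : ℤ) - dig C m j := by
  induction K generalizing p m j with
  | zero =>
    rw [hp j (Nat.zero_le _), hm j (Nat.zero_le _)]
    rfl
  | succ K ih =>
    cases j with
    | zero =>
      show Int.sub (Int.ofNat (p % C)) (Int.ofNat (m % C)) = ((p % C : ℕ) : ℤ) - ((m % C : ℕ) : ℤ)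
      rfl
    | succ j =>
      show (decV C K (p / C) (m / C)).getD j 0 = (dig C (p / C) j : ℤ) - dig C (m / C) j
      exact ih _ _ (fun i hi => hp (i + 1) (by omega)) (fun i hi => hm (i + 1) (by omega)) j

/-- A table of values, packed. -/
inductive ZI where
  | nil : ZI
  | node (rk jt p m : ℕ) (l r : ZI) : ZI

/-- A lookup in a table of values. -/
noncomputable def lookI : ℕ → ℕ → ZI → ℕ × ℕ × ℕ × ℕ :=
  fun fuel => Nat.rec (fun _ T => ZI.rec (0, 0, 0, 0) (fun rk jt p m _ _ _ _ => (rk, jt, p, m)) T)
    (fun _ ih e T => ZI.rec (0, 0, 0, 0) (fun rk jt p m l r _ _ => bcond (Nat.beq e 0) (rk, jt, p, m)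
      (bcond (Nat.beq (Nat.mod e 2) 1) (ih (Nat.div e 2) l) (ih (Nat.sub (Nat.div e 2) 1) r))) T) fuel

/-- The table of vectors of a packed table. -/
noncomputable def toV (C K : ℕ) (T : ZI) : ZV :=
  ZI.rec ZV.nil (fun rk jt p m _ _ il ir => ZV.node rk jt (decV C K p m) il ir) T

theorem look_rel (C K f e : ℕ) (T : ZI) :
    (lookV f e (toV C K T)).1 = (lookI f e T).1 ∧ (lookV f e (toV C K T)).2.1 = (lookI f e T).2.1 ∧
      ((lookV f e (toV C K T)).2.2 = decV C K (lookI f e T).2.2.1 (lookI f e T).2.2.2 ∨
        ((lookV f e (toV C K T)).2.2 = [] ∧ (lookI f e T).2.2.1 = 0 ∧ (lookI f e T).2.2.2 = 0)) := by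
  induction f generalizing e T with
  | zero =>
    cases T with
    | nil => exact ⟨rfl, rfl, Or.inr ⟨rfl, rfl, rfl⟩⟩
    | node rk jt p m l r => exact ⟨rfl, rfl, Or.inl rfl⟩
  | succ f ih =>
    cases T with
    | nil => exact ⟨rfl, rfl, Or.inr ⟨rfl, rfl, rfl⟩⟩
    | node rk jt p m l r =>
      have e1 : lookV (f + 1) e (toV C K (ZI.node rk jt p m l r)) = bcond (Nat.beq e 0) (rk, jt, decV C K p m)
          (bcond (Nat.beq (Nat.mod e 2) 1) (lookV f (Nat.div e 2) (toV C K l))
            (lookV f (Nat.sub (Nat.div e 2) 1) (toV C K r))) := rfl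
      have e2 : lookI (f + 1) e (ZI.node rk jt p m l r) = bcond (Nat.beq e 0) (rk, jt, p, m)
          (bcond (Nat.beq (Nat.mod e 2) 1) (lookI f (Nat.div e 2) l) (lookI f (Nat.sub (Nat.div e 2) 1) r)) := rfl
      rw [e1, e2]
      cases Nat.beq e 0 with
      | true => exact ⟨rfl, rfl, Or.inl rfl⟩
      | false =>
        simp only [bcond_false]
        cases Nat.beq (Nat.mod e 2) 1 with
        | true => exact ih _ _
        | false => exact ih _ _

/-- The parts of an entry. -/
noncomputable def elimI {β : Type} (x : ℕ × ℕ × ℕ × ℕ) (f : ℕ → ℕ → ℕ → ℕ → β) : β :=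
  Prod.rec (fun a b => Prod.rec (fun c e => Prod.rec (fun g h => f a c g h) e) b) x

theorem elimI_eq {β : Type} (x : ℕ × ℕ × ℕ × ℕ) (f : ℕ → ℕ → ℕ → ℕ → β) :
    elimI x f = f x.1 x.2.1 x.2.2.1 x.2.2.2 := by
  obtain ⟨a, b, c, e⟩ := x
  rfl

/-- The walk along a word. -/
noncomputable def wkF (τ : ℕ → ℕ → ℕ) (d : ℕ) (T : ZI) (e R : ℕ) :
    List ℕ → ℕ → ℕ → ℕ → ℤ → (ℕ → ℕ → ℤ → Bool) → Bool :=
  fun w => List.rec (fun _ pos neg net K => K pos neg net)
    (fun l _ ih i pos neg net K =>
      fN (τ l i) fun j =>
        bcond (Nat.beq (Nat.mod l 2) 0)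
          (fN (Nat.add (Nat.mul i d) (Nat.div l 2)) fun f => elimI (lookI f f T) fun rk _ p m =>
            fN (Nat.add pos p) fun pos' => fN (Nat.add neg m) fun neg' =>
            bcond (Nat.beq f e) (ih j pos' neg' (Int.add net 1) K)
              (bcond (Nat.blt rk R) (ih j pos' neg' net K) false))
          (fN (Nat.add (Nat.mul j d) (Nat.div l 2)) fun f => elimI (lookI f f T) fun rk _ p m =>
            fN (Nat.add pos m) fun pos' => fN (Nat.add neg p) fun neg' =>
            bcond (Nat.beq f e) (ih j pos' neg' (Int.sub net 1) K)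
              (bcond (Nat.blt rk R) (ih j pos' neg' net K) false))) w

theorem wkF_even (τ : ℕ → ℕ → ℕ) (d : ℕ) (T : ZI) (e R l : ℕ) (w : List ℕ) (i pos neg : ℕ) (net : ℤ)
    (K : ℕ → ℕ → ℤ → Bool) (h : l % 2 = 0) :
    wkF τ d T e R (l :: w) i pos neg net K =
      bcond (Nat.beq (i * d + l / 2) e)
        (wkF τ d T e R w (τ l i) (pos + (lookI (i * d + l / 2) (i * d + l / 2) T).2.2.1)
          (neg + (lookI (i * d + l / 2) (i * d + l / 2) T).2.2.2) (net + 1) K)
        (bcond (Nat.blt (lookI (i * d + l / 2) (i * d + l / 2) T).1 R)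
          (wkF τ d T e R w (τ l i) (pos + (lookI (i * d + l / 2) (i * d + l / 2) T).2.2.1)
            (neg + (lookI (i * d + l / 2) (i * d + l / 2) T).2.2.2) net K) false) := by
  show fN (τ l i) (fun j => bcond (Nat.beq (Nat.mod l 2) 0)
    (fN (Nat.add (Nat.mul i d) (Nat.div l 2)) fun f => elimI (lookI f f T) fun rk _ p m =>
      fN (Nat.add pos p) fun pos' => fN (Nat.add neg m) fun neg' =>
      bcond (Nat.beq f e) (wkF τ d T e R w j pos' neg' (Int.add net 1) K)
        (bcond (Nat.blt rk R) (wkF τ d T e R w j pos' neg' net K) false))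
    (fN (Nat.add (Nat.mul j d) (Nat.div l 2)) fun f => elimI (lookI f f T) fun rk _ p m =>
      fN (Nat.add pos m) fun pos' => fN (Nat.add neg p) fun neg' =>
      bcond (Nat.beq f e) (wkF τ d T e R w j pos' neg' (Int.sub net 1) K)
        (bcond (Nat.blt rk R) (wkF τ d T e R w j pos' neg' net K) false))) = _
  have hb : Nat.beq (Nat.mod l 2) 0 = true := by
    rw [Nat.beq_eq]
    exact h
  rw [fN_eq, hb, bcond_true, fN_eq, elimI_eq, fN_eq, fN_eq]
  rfl

theorem wkF_odd (τ : ℕ → ℕ → ℕ) (d : ℕ) (T : ZI) (e R l : ℕ) (w : List ℕ) (i pos neg : ℕ) (net : ℤ)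
    (K : ℕ → ℕ → ℤ → Bool) (h : l % 2 ≠ 0) :
    wkF τ d T e R (l :: w) i pos neg net K =
      bcond (Nat.beq (τ l i * d + l / 2) e)
        (wkF τ d T e R w (τ l i) (pos + (lookI (τ l i * d + l / 2) (τ l i * d + l / 2) T).2.2.2)
          (neg + (lookI (τ l i * d + l / 2) (τ l i * d + l / 2) T).2.2.1) (net - 1) K)
        (bcond (Nat.blt (lookI (τ l i * d + l / 2) (τ l i * d + l / 2) T).1 R)
          (wkF τ d T e R w (τ l i) (pos + (lookI (τ l i * d + l / 2) (τ l i * d + l / 2) T).2.2.2)
            (neg + (lookI (τ l i * d + l / 2) (τ l i * d + l / 2) T).2.2.1) net K) false) := by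
  show fN (τ l i) (fun j => bcond (Nat.beq (Nat.mod l 2) 0)
    (fN (Nat.add (Nat.mul i d) (Nat.div l 2)) fun f => elimI (lookI f f T) fun rk _ p m =>
      fN (Nat.add pos p) fun pos' => fN (Nat.add neg m) fun neg' =>
      bcond (Nat.beq f e) (wkF τ d T e R w j pos' neg' (Int.add net 1) K)
        (bcond (Nat.blt rk R) (wkF τ d T e R w j pos' neg' net K) false))
    (fN (Nat.add (Nat.mul j d) (Nat.div l 2)) fun f => elimI (lookI f f T) fun rk _ p m =>
      fN (Nat.add pos m) fun pos' => fN (Nat.add neg p) fun neg' =>
      bcond (Nat.beq f e) (wkF τ d T e R w j pos' neg' (Int.sub net 1) K)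
        (bcond (Nat.blt rk R) (wkF τ d T e R w j pos' neg' net K) false))) = _
  have hb : Nat.beq (Nat.mod l 2) 0 = false := by
    cases h2 : Nat.beq (Nat.mod l 2) 0 with
    | false => rfl
    | true => exact absurd (Nat.eq_of_beq_eq_true h2) h
  rw [fN_eq, hb, bcond_false, fN_eq, elimI_eq, fN_eq, fN_eq]
  rfl

theorem vadd_getD (b a : List ℤ) (j : ℕ) : (vadd b a).getD j 0 = a.getD j 0 + b.getD j 0 := by
  induction b generalizing a j with
  | nil =>
    show a.getD j 0 = a.getD j 0 + ([] : List ℤ).getD j 0
    simp
  | cons y b ih =>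
    cases a with
    | nil =>
      show (y :: vadd b []).getD j 0 = ([] : List ℤ).getD j 0 + (y :: b).getD j 0
      cases j with
      | zero => simp
      | succ j =>
        simp only [List.getD_cons_succ, ih]
        simp
    | cons x a =>
      show (Int.add x y :: vadd b a).getD j 0 = (x :: a).getD j 0 + (y :: b).getD j 0
      cases j with
      | zero => simp
      | succ j =>
        simp only [List.getD_cons_succ, ih]

theorem vsub_getD (b a : List ℤ) (j : ℕ) : (vsub b a).getD j 0 = a.getD j 0 - b.getD j 0 := by
  induction b generalizing a j with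
  | nil =>
    show a.getD j 0 = a.getD j 0 - ([] : List ℤ).getD j 0
    simp
  | cons y b ih =>
    cases a with
    | nil =>
      show (Int.neg y :: vsub b []).getD j 0 = ([] : List ℤ).getD j 0 - (y :: b).getD j 0
      cases j with
      | zero => simp; rfl
      | succ j =>
        simp only [List.getD_cons_succ, ih]
        simp
    | cons x a =>
      show (Int.sub x y :: vsub b a).getD j 0 = (x :: a).getD j 0 - (y :: b).getD j 0
      cases j with
      | zero => simp; rfl
      | succ j =>
        simp only [List.getD_cons_succ, ih]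

theorem vzero_of (l : List ℤ) (h : ∀ j, l.getD j 0 = 0) : vzero l = true := by
  induction l with
  | nil => rfl
  | cons a l ih =>
    show bcond (decide (a = 0)) (vzero l) false = true
    have h0 : a = 0 := by simpa using h 0
    rw [decide_eq_true h0, bcond_true]
    apply ih
    intro j
    simpa using h (j + 1)

theorem unitV_getD (a j : ℕ) : (unitV a).getD j 0 = if j = a then 1 else 0 := by
  induction a generalizing j with
  | zero =>
    cases j with
    | zero => simp [unitV]
    | succ j => simp [unitV]
  | succ a ih =>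
    cases j with
    | zero => simp [unitV, List.replicate_succ]
    | succ j =>
      have e : unitV (a + 1) = 0 :: unitV a := by simp [unitV, List.replicate_succ]
      rw [e, List.getD_cons_succ, ih]
      simp

/-- The state of a walk. -/
def InvF (C k B pos neg : ℕ) (acc : List ℤ) : Prop :=
  (∀ j, dig C pos j ≤ k * B) ∧ (∀ j, dig C neg j ≤ k * B) ∧ ∀ j, acc.getD j 0 = (dig C pos j : ℤ) - dig C neg j

theorem InvF_add {C k B pos neg p m : ℕ} {acc v : List ℤ} (hC : 0 < C) (h : InvF C k B pos neg acc)
    (hb : (k + 1) * B < C) (hp : ∀ j, dig C p j ≤ B) (hm : ∀ j, dig C m j ≤ B)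
    (hv : ∀ j, v.getD j 0 = (dig C p j : ℤ) - dig C m j) :
    InvF C (k + 1) B (pos + p) (neg + m) (vadd v acc) := by
  obtain ⟨h1, h2, h3⟩ := h
  have e1 : ∀ i, dig C pos i + dig C p i ≤ (k + 1) * B := by
    intro i
    have := h1 i
    have := hp i
    rw [add_mul, one_mul]
    omega
  have e2 : ∀ i, dig C neg i + dig C m i ≤ (k + 1) * B := by
    intro i
    have := h2 i
    have := hm i
    rw [add_mul, one_mul]
    omega
  have f1 : ∀ j, dig C (pos + p) j = dig C pos j + dig C p j := fun j =>
    dig_add hC _ _ _ fun i _ => lt_of_le_of_lt (e1 i) hb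
  have f2 : ∀ j, dig C (neg + m) j = dig C neg j + dig C m j := fun j =>
    dig_add hC _ _ _ fun i _ => lt_of_le_of_lt (e2 i) hb
  refine ⟨fun j => ?_, fun j => ?_, fun j => ?_⟩
  · rw [f1]; exact e1 j
  · rw [f2]; exact e2 j
  · rw [vadd_getD, h3, hv, f1, f2]
    push_cast
    ring

theorem InvF_sub {C k B pos neg p m : ℕ} {acc v : List ℤ} (hC : 0 < C) (h : InvF C k B pos neg acc)
    (hb : (k + 1) * B < C) (hp : ∀ j, dig C p j ≤ B) (hm : ∀ j, dig C m j ≤ B)
    (hv : ∀ j, v.getD j 0 = (dig C p j : ℤ) - dig C m j) :
    InvF C (k + 1) B (pos + m) (neg + p) (vsub v acc) := by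
  obtain ⟨h1, h2, h3⟩ := h
  have e1 : ∀ i, dig C pos i + dig C m i ≤ (k + 1) * B := by
    intro i
    have := h1 i
    have := hm i
    rw [add_mul, one_mul]
    omega
  have e2 : ∀ i, dig C neg i + dig C p i ≤ (k + 1) * B := by
    intro i
    have := h2 i
    have := hp i
    rw [add_mul, one_mul]
    omega
  have f1 : ∀ j, dig C (pos + m) j = dig C pos j + dig C m j := fun j =>
    dig_add hC _ _ _ fun i _ => lt_of_le_of_lt (e1 i) hb
  have f2 : ∀ j, dig C (neg + p) j = dig C neg j + dig C p j := fun j =>
    dig_add hC _ _ _ fun i _ => lt_of_le_of_lt (e2 i) hb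
  refine ⟨fun j => ?_, fun j => ?_, fun j => ?_⟩
  · rw [f1]; exact e1 j
  · rw [f2]; exact e2 j
  · rw [vsub_getD, h3, hv, f1, f2]
    push_cast
    ring

section main

variable {C B K d n : ℕ} {τ : ℕ → ℕ → ℕ} {T : ZI}

/-- The values of a lookup. -/
theorem look_getD (f : ℕ) (hp : digOK C B K (lookI f f T).2.2.1 = true) (hm : digOK C B K (lookI f f T).2.2.2 = true)
    (j : ℕ) : (lookV f f (toV C K T)).2.2.getD j 0 = (dig C (lookI f f T).2.2.1 j : ℤ) - dig C (lookI f f T).2.2.2 j := by
  obtain ⟨_, _, h3⟩ := look_rel C K f f T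
  rcases h3 with h3 | ⟨h3, h4, h5⟩
  · rw [h3]
    exact decV_getD K _ _ (fun i hi => digOK_far _ _ hp i hi) (fun i hi => digOK_far _ _ hm i hi) j
  · rw [h3, h4, h5, dig_zero_left]
    simp

theorem sim_walk (hC : 0 < C) {e R : ℕ}
    (hb : ∀ f, f < n * d → digOK C B K (lookI f f T).2.2.1 = true ∧ digOK C B K (lookI f f T).2.2.2 = true)
    (hτ : ∀ l i, l < 2 * d → i < n → τ l i < n) (w : List ℕ) (hw : ∀ l ∈ w, l < 2 * d) (i : ℕ) (hi : i < n)
    (k pos neg : ℕ) (acc : List ℤ) (net : ℤ) (KF : ℕ → ℕ → ℤ → Bool) (KS : List ℤ → ℤ → Bool)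
    (hinv : InvF C k B pos neg acc) (hk : (k + w.length) * B < C)
    (hK : ∀ pos' neg' acc' net', InvF C (k + w.length) B pos' neg' acc' → KF pos' neg' net' = true → KS acc' net' = true)
    (h : wkF τ d T e R w i pos neg net KF = true) : wkD τ d (toV C K T) e R w i acc net KS = true := by
  induction w generalizing i k pos neg acc net with
  | nil => exact hK _ _ _ _ hinv h
  | cons l w ih =>
    have hl : l < 2 * d := hw l List.mem_cons_self
    have hw' : ∀ a ∈ w, a < 2 * d := fun a ha => hw a (List.mem_cons_of_mem _ ha)
    have hj : τ l i < n := hτ l i hl hi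
    have hx : l / 2 < d := by omega
    have hlen : k + (l :: w).length = k + 1 + w.length := by
      simp only [List.length_cons]
      omega
    rw [hlen] at hk hK
    have hk1 : (k + 1) * B < C := lt_of_le_of_lt (Nat.mul_le_mul_right _ (by omega)) hk
    by_cases hp : l % 2 = 0
    · rw [wkF_even _ _ _ _ _ _ _ _ _ _ _ _ hp] at h
      rw [wkD_even _ _ _ _ _ _ _ _ _ _ _ hp]
      have hf : i * d + l / 2 < n * d := edge_lt hi hx
      obtain ⟨hb1, hb2⟩ := hb _ hf
      obtain ⟨r1, _, _⟩ := look_rel C K (i * d + l / 2) (i * d + l / 2) T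
      have hinv' := InvF_add (acc := acc) hC hinv hk1 (digOK_le _ _ hb1) (digOK_le _ _ hb2) (look_getD _ hb1 hb2)
      rw [r1]
      cases hq : Nat.beq (i * d + l / 2) e with
      | true =>
        rw [hq, bcond_true] at h
        rw [bcond_true]
        exact ih hw' _ hj _ _ _ _ _ hinv' hk hK h
      | false =>
        rw [hq, bcond_false] at h
        rw [bcond_false]
        cases hq2 : Nat.blt (lookI (i * d + l / 2) (i * d + l / 2) T).1 R with
        | false =>
          rw [hq2, bcond_false] at h
          exact Bool.noConfusion h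
        | true =>
          rw [hq2, bcond_true] at h
          rw [bcond_true]
          exact ih hw' _ hj _ _ _ _ _ hinv' hk hK h
    · rw [wkF_odd _ _ _ _ _ _ _ _ _ _ _ _ hp] at h
      rw [wkD_odd _ _ _ _ _ _ _ _ _ _ _ hp]
      have hf : τ l i * d + l / 2 < n * d := edge_lt hj hx
      obtain ⟨hb1, hb2⟩ := hb _ hf
      obtain ⟨r1, _, _⟩ := look_rel C K (τ l i * d + l / 2) (τ l i * d + l / 2) T
      have hinv' := InvF_sub (acc := acc) hC hinv hk1 (digOK_le _ _ hb1) (digOK_le _ _ hb2) (look_getD _ hb1 hb2)
      rw [r1]
      cases hq : Nat.beq (τ l i * d + l / 2) e with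
      | true =>
        rw [hq, bcond_true] at h
        rw [bcond_true]
        exact ih hw' _ hj _ _ _ _ _ hinv' hk hK h
      | false =>
        rw [hq, bcond_false] at h
        rw [bcond_false]
        cases hq2 : Nat.blt (lookI (τ l i * d + l / 2) (τ l i * d + l / 2) T).1 R with
        | false =>
          rw [hq2, bcond_false] at h
          exact Bool.noConfusion h
        | true =>
          rw [hq2, bcond_true] at h
          rw [bcond_true]
          exact ih hw' _ hj _ _ _ _ _ hinv' hk hK h

end main

/-- The test of an edge. -/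
noncomputable def chkEdgeF (C B K : ℕ) (τ : ℕ → ℕ → ℕ) (d n : ℕ) (RL : List (List ℕ)) (Q P Qr : ℕ) (par gen pe : ℕ → ℕ)
    (T : ZI) (e : ℕ) : Bool :=
  elimI (lookI e e T) fun rk jt p m =>
    bcond (digOK C B K p) (bcond (digOK C B K m)
      (bcond (Nat.beq rk 0)
        (bcond (Nat.blt jt n)
          (bcond (Nat.blt 0 jt) (bcond (Nat.beq (treeE d par gen jt) e)
            (bcond (Nat.beq p 0) (Nat.beq m 0) false) false) false)
          (bcond (Nat.blt (jt - n) P)
            (bcond (Nat.beq (pe (jt - n)) e) (bcond (Nat.beq p (Nat.pow C (jt - n))) (Nat.beq m 0) false) false) false))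
        (fN (Nat.mod jt Q) fun q => fN (Nat.div jt Q) fun i =>
          bcond (bcond (Nat.blt i n) (Nat.blt q Q) false)
            (wkF τ d T e rk (lg [] RL q) i 0 0 0 fun pos neg net =>
              bcond (bcond (Nat.blt q Qr) (Nat.beq pos (Nat.add neg (Nat.pow C (Nat.add P q)))) (Nat.beq pos neg))
                (bcond (decide (net = 1)) true (decide (net = -1))) false)
            false)) false) false

theorem InvF_zero (C B : ℕ) : InvF C 0 B 0 0 [] := by
  refine ⟨fun j => ?_, fun j => ?_, fun j => ?_⟩
  · rw [dig_zero_left]; exact Nat.zero_le _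
  · rw [dig_zero_left]; exact Nat.zero_le _
  · rw [dig_zero_left]; simp

theorem chkEdge_of_F {C B K : ℕ} (hC : 1 < C) {τ : ℕ → ℕ → ℕ} {d n : ℕ} {RL : List (List ℕ)} {Q P Qr : ℕ}
    {par gen pe : ℕ → ℕ} {T : ZI} (hτ : ∀ l i, l < 2 * d → i < n → τ l i < n)
    (hW : ∀ q, q < Q → ∀ l ∈ lg [] RL q, l < 2 * d) (hL : ∀ q, q < Q → ((lg [] RL q).length + 1) * B < C)
    (hall : ∀ e, e < n * d → chkEdgeF C B K τ d n RL Q P Qr par gen pe T e = true) :
    ∀ e, e < n * d → chkEdge τ d n RL Q P Qr par gen pe (toV C K T) e = true := by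
  have hb : ∀ f, f < n * d → digOK C B K (lookI f f T).2.2.1 = true ∧ digOK C B K (lookI f f T).2.2.2 = true := by
    intro f hf
    have h := hall f hf
    unfold chkEdgeF at h
    rw [elimI_eq] at h
    cases h1 : digOK C B K (lookI f f T).2.2.1 with
    | false =>
      rw [h1, bcond_false] at h
      exact Bool.noConfusion h
    | true =>
      rw [h1, bcond_true] at h
      cases h2 : digOK C B K (lookI f f T).2.2.2 with
      | false =>
        rw [h2, bcond_false] at h
        exact Bool.noConfusion h
      | true => exact ⟨rfl, rfl⟩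
  intro e he
  have h := hall e he
  obtain ⟨hb1, hb2⟩ := hb e he
  unfold chkEdgeF at h
  rw [elimI_eq, hb1, hb2, bcond_true, bcond_true] at h
  unfold chkEdge
  rw [elimN_eq]
  obtain ⟨r1, r2, _⟩ := look_rel C K e e T
  have hv := look_getD e hb1 hb2
  rw [r1, r2]
  generalize hv2 : (lookV e e (toV C K T)).2.2 = v at hv ⊢
  generalize (lookI e e T).1 = rk at h ⊢
  generalize (lookI e e T).2.1 = jt at h ⊢
  generalize hp : (lookI e e T).2.2.1 = p at h hv
  generalize hm : (lookI e e T).2.2.2 = m at h hv
  cases h0 : Nat.beq rk 0 with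
  | true =>
    rw [h0, bcond_true] at h
    rw [bcond_true]
    cases h1 : Nat.blt jt n with
    | true =>
      rw [h1, bcond_true] at h
      rw [bcond_true]
      cases h2 : Nat.blt 0 jt with
      | false =>
        rw [h2, bcond_false] at h
        exact Bool.noConfusion h
      | true =>
        rw [h2, bcond_true] at h
        rw [bcond_true]
        cases h3 : Nat.beq (treeE d par gen jt) e with
        | false =>
          rw [h3, bcond_false] at h
          exact Bool.noConfusion h
        | true =>
          rw [h3, bcond_true] at h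
          rw [bcond_true]
          cases h4 : Nat.beq p 0 with
          | false =>
            rw [h4, bcond_false] at h
            exact Bool.noConfusion h
          | true =>
            rw [h4, bcond_true] at h
            have e1 : p = 0 := Nat.eq_of_beq_eq_true h4
            have e2 : m = 0 := Nat.eq_of_beq_eq_true h
            apply vzero_of
            intro j
            rw [hv, e1, e2, dig_zero_left]
            simp
    | false =>
      rw [h1, bcond_false] at h
      rw [bcond_false]
      cases h2 : Nat.blt (jt - n) P with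
      | false =>
        rw [h2, bcond_false] at h
        exact Bool.noConfusion h
      | true =>
        rw [h2, bcond_true] at h
        rw [bcond_true]
        cases h3 : Nat.beq (pe (jt - n)) e with
        | false =>
          rw [h3, bcond_false] at h
          exact Bool.noConfusion h
        | true =>
          rw [h3, bcond_true] at h
          rw [bcond_true]
          cases h4 : Nat.beq p (Nat.pow C (jt - n)) with
          | false =>
            rw [h4, bcond_false] at h
            exact Bool.noConfusion h
          | true =>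
            rw [h4, bcond_true] at h
            have e1 : p = C ^ (jt - n) := Nat.eq_of_beq_eq_true h4
            have e2 : m = 0 := Nat.eq_of_beq_eq_true h
            apply vzero_of
            intro j
            rw [vsub_getD, hv, e1, e2, dig_zero_left, dig_pow hC, unitV_getD]
            split_ifs <;> simp
  | false =>
    rw [h0, bcond_false] at h
    rw [bcond_false]
    rw [fN_eq, fN_eq] at h ⊢
    generalize hq : Nat.mod jt Q = q at h ⊢
    generalize hi : Nat.div jt Q = i at h ⊢
    cases h1 : Nat.blt i n with
    | false =>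
      rw [h1, bcond_false, bcond_false] at h
      exact Bool.noConfusion h
    | true =>
      rw [h1, bcond_true] at h
      rw [bcond_true]
      cases h2 : Nat.blt q Q with
      | false =>
        rw [h2, bcond_false] at h
        exact Bool.noConfusion h
      | true =>
        rw [h2, bcond_true] at h
        rw [bcond_true]
        have hi' : i < n := Nat.le_of_ble_eq_true h1
        have hq' : q < Q := Nat.le_of_ble_eq_true h2
        refine sim_walk (k := 0) (pos := 0) (neg := 0) (by omega) hb hτ _ (hW q hq') i hi' _ _ _ _ (InvF_zero C B) ?_ ?_ h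
        · rw [zero_add]
          exact lt_of_le_of_lt (Nat.mul_le_mul_right _ (by omega)) (hL q hq')
        · rw [zero_add]
          intro pos neg acc net hinv hK
          have hbnd : (lg [] RL q).length * B + B < C := by
            have := hL q hq'
            rwa [add_mul, one_mul] at this
          cases hc : (bcond (Nat.blt q Qr) (Nat.beq pos (Nat.add neg (Nat.pow C (Nat.add P q)))) (Nat.beq pos neg)) with
          | false =>
            rw [hc, bcond_false] at hK
            exact Bool.noConfusion hK
          | true =>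
            rw [hc, bcond_true] at hK
            obtain ⟨i1, i2, i3⟩ := hinv
            have hz : vzero (tgt P Qr q acc) = true := by
              unfold tgt
              cases h3 : Nat.blt q Qr with
              | true =>
                rw [h3, bcond_true] at hc
                rw [bcond_true]
                have e1 : pos = neg + C ^ (P + q) := Nat.eq_of_beq_eq_true hc
                apply vzero_of
                intro j
                have e2 : dig C (neg + C ^ (P + q)) j = dig C neg j + dig C (C ^ (P + q)) j := by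
                  apply dig_add (by omega)
                  intro a _
                  rw [dig_pow hC]
                  have := i2 a
                  have : 1 ≤ B ∨ B = 0 := by omega
                  rcases this with h5 | h5
                  · split_ifs <;> omega
                  · have h6 : (lg [] RL q).length * B = 0 := by rw [h5, mul_zero]
                    have h7 := i2 a
                    rw [h6] at h7
                    split_ifs <;> omega
                rw [vsub_getD, i3, e1, e2, dig_pow hC, unitV_getD]
                split_ifs <;> simp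
              | false =>
                rw [h3, bcond_false] at hc
                rw [bcond_false]
                have e1 : pos = neg := Nat.eq_of_beq_eq_true hc
                apply vzero_of
                intro j
                rw [i3, e1]
                simp
            rw [hz, bcond_true]
            exact hK

theorem words_lg {d : ℕ} {RL : List (List ℕ)} (hok : ∀ r ∈ RL, ∀ l ∈ r, l < 2 * d) :
    ∀ q, ∀ l ∈ lg [] RL q, l < 2 * d := by
  intro q l hl
  rw [lg_eq] at hl
  by_cases hq : q < RL.length
  · rw [List.getD_eq_getElem _ _ hq] at hl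
    exact hok _ (List.getElem_mem hq) l hl
  · rw [List.getD_eq_default _ _ (by omega)] at hl
    simp at hl

theorem len_of_chk {B C Q : ℕ} {RL : List (List ℕ)}
    (h : allBelow (fun q => Nat.blt (((lg [] RL q).length + 1) * B) C) Q = true) :
    ∀ q, q < Q → ((lg [] RL q).length + 1) * B < C := by
  intro q hq
  exact Nat.le_of_ble_eq_true ((allBelow_iff _ _).1 h q hq)

end Cfsg.Agent.Lib.KnownSimple.MultC
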