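import Cfsg.Agent.Lib.KnownSimple.MultC.ValF

/-!
# Schur multipliers: packed tables of values of the edges, with a fast test of the digits
-/

set_option autoImplicit false

namespace Cfsg.Agent.Lib.KnownSimple.MultC

open Cfsg Cfsg.Agent.Lib.Compute

/-- The mask of the high bits of the digits. -/
def mkMask (W b : ℕ) : ℕ → ℕ
  | 0 => 0
  | K + 1 => 2 ^ W * mkMask W b K + 2 ^ b * (2 ^ (W - b) - 1)

theorem digit_of_mask {W b : ℕ} (hb : b ≤ W) (K x : ℕ) (h1 : x &&& mkMask W b K = 0) (h2 : x < (2 ^ W) ^ K) (j : ℕ) :
    dig (2 ^ W) x j < 2 ^ b ∧ (K ≤ j → dig (2 ^ W) x j = 0) := by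
  have hpow : 0 < 2 ^ W := by positivity
  induction K generalizing x j with
  | zero =>
    have h0 : x = 0 := by simpa using h2
    rw [h0, dig_zero_left]
    exact ⟨by positivity, fun _ => rfl⟩
  | succ K ih =>
    have ha : 2 ^ b * (2 ^ (W - b) - 1) < 2 ^ W := by
      have e1 : 2 ^ W = 2 ^ b * 2 ^ (W - b) := by rw [← pow_add]; congr 1; omega
      rw [e1]
      have : 0 < 2 ^ (W - b) := by positivity
      exact Nat.mul_lt_mul_of_pos_left (by omega) (by positivity)
    have hbit : ∀ i, (x &&& mkMask W b (K + 1)).testBit i = false := by
      intro i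
      rw [h1]
      simp
    have hmk : ∀ i, (mkMask W b (K + 1)).testBit i =
        if i < W then (2 ^ b * (2 ^ (W - b) - 1)).testBit i else (mkMask W b K).testBit (i - W) := by
      intro i
      show (2 ^ W * mkMask W b K + 2 ^ b * (2 ^ (W - b) - 1)).testBit i = _
      rw [Nat.testBit_two_pow_mul_add _ ha]
    have hlow : x % 2 ^ W < 2 ^ b := by
      apply Nat.lt_pow_two_of_testBit
      intro i hi
      rw [Nat.testBit_mod_two_pow]
      by_cases hiW : i < W
      · have h3 := hbit i
        rw [Nat.testBit_land, hmk, if_pos hiW, Nat.testBit_two_pow_mul, Nat.testBit_two_pow_sub_one] at h3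
        have h4 : decide (i ≥ b) = true := by simpa using hi
        have h5 : decide (i - b < W - b) = true := by
          have : i - b < W - b := by omega
          simpa using this
        rw [h4, h5] at h3
        have h6 : x.testBit i = false := by simpa using h3
        simp [h6]
      · simp [hiW]
    have hhigh : (x / 2 ^ W) &&& mkMask W b K = 0 := by
      apply Nat.eq_of_testBit_eq
      intro i
      have h3 := hbit (i + W)
      rw [Nat.testBit_land, hmk, if_neg (by omega)] at h3
      have e : i + W - W = i := by omega
      rw [e] at h3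
      rw [Nat.testBit_land, Nat.testBit_div_two_pow]
      simpa [add_comm] using h3
    have hlt : x / 2 ^ W < (2 ^ W) ^ K := by
      apply Nat.div_lt_of_lt_mul
      rw [← pow_succ']
      exact h2
    cases j with
    | zero => exact ⟨hlow, fun h => absurd h (by omega)⟩
    | succ j =>
      have := ih _ hhigh hlt j
      exact ⟨this.1, fun h => this.2 (by omega)⟩


/-- A number with small digits. -/
def GoodD (C B K x : ℕ) : Prop := (∀ j, dig C x j ≤ B) ∧ ∀ j, K ≤ j → dig C x j = 0

/-- The test of the digits of a number. -/
noncomputable def maskOK (M CK x : ℕ) : Bool := bcond (Nat.beq (Nat.land x M) 0) (Nat.blt x CK) false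

theorem good_of_mask {W b K M CK C B : ℕ} (hb : b ≤ W) (hC : C = 2 ^ W) (hB : B = 2 ^ b) (hCK : CK = C ^ K) (hM : M = mkMask W b K)
    (x : ℕ) (h : maskOK M CK x = true) : GoodD C B K x := by
  have h1 : bcond (Nat.beq (Nat.land x M) 0) (Nat.blt x CK) false = true := h
  cases h2 : Nat.beq (Nat.land x M) 0 with
  | false =>
    rw [h2, bcond_false] at h1
    exact Bool.noConfusion h1
  | true =>
    rw [h2, bcond_true] at h1
    have h3 : x < CK := Nat.le_of_ble_eq_true h1
    have h4 : x &&& M = 0 := Nat.eq_of_beq_eq_true h2
    subst hC hB hCK hM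
    exact ⟨fun j => le_of_lt (digit_of_mask hb K x h4 h3 j).1, fun j hj => (digit_of_mask hb K x h4 h3 j).2 hj⟩

section main

variable {C B K d n : ℕ} {τ : ℕ → ℕ → ℕ} {T : ZI}

/-- The values of a lookup. -/
theorem look_getG (f : ℕ) (hp : GoodD C B K (lookI f f T).2.2.1) (hm : GoodD C B K (lookI f f T).2.2.2)
    (j : ℕ) : (lookV f f (toV C K T)).2.2.getD j 0 = (dig C (lookI f f T).2.2.1 j : ℤ) - dig C (lookI f f T).2.2.2 j := by
  obtain ⟨_, _, h3⟩ := look_rel C K f f T
  rcases h3 with h3 | ⟨h3, h4, h5⟩
  · rw [h3]
    exact decV_getD K _ _ hp.2 hm.2 j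
  · rw [h3, h4, h5, dig_zero_left]
    simp

theorem sim_walkG (hC : 0 < C) {e R : ℕ}
    (hb : ∀ f, f < n * d → GoodD C B K (lookI f f T).2.2.1 ∧ GoodD C B K (lookI f f T).2.2.2)
    (hτ : ∀ l i, l < 2 * d → i < n → τ l i < n) (w : List ℕ) (hw : ∀ l ∈ w, l < 2 * d) (i : ℕ) (hi : i < n)
    (k pos neg : ℕ) (acc : List ℤ) (net : ℤ) (KF : ℕ → ℕ → ℤ → Bool) (KS : List ℤ → ℤ → Bool)
    (hinv : InvF C k B pos neg acc) (hk : (k + w.length) * B < C)
    (hK : ∀ pos' neg' acc' net', InvF C (k + w.length) B pos' neg' acc' → KF pos' neg' net' = true → KS acc' net' = true)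
    (h : wkF τ d T e R w i pos neg net KF = true) : wkD τ d (toV C K T) e R w i acc net KS = true := by
  induction w generalizing i k pos neg acc net with
  | nil => exact hK _ _ _ _ hinv h
  | cons l w ih =>
    have hl : l < 2 * d := hw l List.mem_cons_self
    have hw' : ∀ a ∈ w, a < 2 * d := fun a ha => hw a (List.mem_cons_of_mem _ ha)
    have hj : τ l i < n := hτ l i hl hi
    have hx : l / 2 < d := by omega
    have hlen : k + (l :: w).length = k + 1 + w.length := by
      simp only [List.length_cons]
      omega
    rw [hlen] at hk hK
    have hk1 : (k + 1) * B < C := lt_of_le_of_lt (Nat.mul_le_mul_right _ (by omega)) hk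
    by_cases hp : l % 2 = 0
    · rw [wkF_even _ _ _ _ _ _ _ _ _ _ _ _ hp] at h
      rw [wkD_even _ _ _ _ _ _ _ _ _ _ _ hp]
      have hf : i * d + l / 2 < n * d := edge_lt hi hx
      obtain ⟨hb1, hb2⟩ := hb _ hf
      obtain ⟨r1, _, _⟩ := look_rel C K (i * d + l / 2) (i * d + l / 2) T
      have hinv' := InvF_add (acc := acc) hC hinv hk1 hb1.1 hb2.1 (look_getG _ hb1 hb2)
      rw [r1]
      cases hq : Nat.beq (i * d + l / 2) e with
      | true =>
        rw [hq, bcond_true] at h
        rw [bcond_true]
        exact ih hw' _ hj _ _ _ _ _ hinv' hk hK h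
      | false =>
        rw [hq, bcond_false] at h
        rw [bcond_false]
        cases hq2 : Nat.blt (lookI (i * d + l / 2) (i * d + l / 2) T).1 R with
        | false =>
          rw [hq2, bcond_false] at h
          exact Bool.noConfusion h
        | true =>
          rw [hq2, bcond_true] at h
          rw [bcond_true]
          exact ih hw' _ hj _ _ _ _ _ hinv' hk hK h
    · rw [wkF_odd _ _ _ _ _ _ _ _ _ _ _ _ hp] at h
      rw [wkD_odd _ _ _ _ _ _ _ _ _ _ _ hp]
      have hf : τ l i * d + l / 2 < n * d := edge_lt hj hx
      obtain ⟨hb1, hb2⟩ := hb _ hf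
      obtain ⟨r1, _, _⟩ := look_rel C K (τ l i * d + l / 2) (τ l i * d + l / 2) T
      have hinv' := InvF_sub (acc := acc) hC hinv hk1 hb1.1 hb2.1 (look_getG _ hb1 hb2)
      rw [r1]
      cases hq : Nat.beq (τ l i * d + l / 2) e with
      | true =>
        rw [hq, bcond_true] at h
        rw [bcond_true]
        exact ih hw' _ hj _ _ _ _ _ hinv' hk hK h
      | false =>
        rw [hq, bcond_false] at h
        rw [bcond_false]
        cases hq2 : Nat.blt (lookI (τ l i * d + l / 2) (τ l i * d + l / 2) T).1 R with
        | false =>
          rw [hq2, bcond_false] at h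
          exact Bool.noConfusion h
        | true =>
          rw [hq2, bcond_true] at h
          rw [bcond_true]
          exact ih hw' _ hj _ _ _ _ _ hinv' hk hK h

end main

/-- The test of an edge. -/
noncomputable def chkEdgeG (C M CK : ℕ) (τ : ℕ → ℕ → ℕ) (d n : ℕ) (RL : List (List ℕ)) (Q P Qr : ℕ) (par gen pe : ℕ → ℕ)
    (T : ZI) (e : ℕ) : Bool :=
  elimI (lookI e e T) fun rk jt p m =>
    bcond (maskOK M CK p) (bcond (maskOK M CK m)
      (bcond (Nat.beq rk 0)
        (bcond (Nat.blt jt n)
          (bcond (Nat.blt 0 jt) (bcond (Nat.beq (treeE d par gen jt) e)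
            (bcond (Nat.beq p 0) (Nat.beq m 0) false) false) false)
          (bcond (Nat.blt (jt - n) P)
            (bcond (Nat.beq (pe (jt - n)) e) (bcond (Nat.beq p (Nat.pow C (jt - n))) (Nat.beq m 0) false) false) false))
        (fN (Nat.mod jt Q) fun q => fN (Nat.div jt Q) fun i =>
          bcond (bcond (Nat.blt i n) (Nat.blt q Q) false)
            (wkF τ d T e rk (lg [] RL q) i 0 0 0 fun pos neg net =>
              bcond (bcond (Nat.blt q Qr) (Nat.beq pos (Nat.add neg (Nat.pow C (Nat.add P q)))) (Nat.beq pos neg))
                (bcond (decide (net = 1)) true (decide (net = -1))) false)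
            false)) false) false

theorem chkEdge_of_G {C B K M CK : ℕ} (hC : 1 < C) (hG : ∀ x, maskOK M CK x = true → GoodD C B K x) {τ : ℕ → ℕ → ℕ} {d n : ℕ} {RL : List (List ℕ)} {Q P Qr : ℕ}
    {par gen pe : ℕ → ℕ} {T : ZI} (hτ : ∀ l i, l < 2 * d → i < n → τ l i < n)
    (hW : ∀ q, q < Q → ∀ l ∈ lg [] RL q, l < 2 * d) (hL : ∀ q, q < Q → ((lg [] RL q).length + 1) * B < C)
    (hall : ∀ e, e < n * d → chkEdgeG C M CK τ d n RL Q P Qr par gen pe T e = true) :
    ∀ e, e < n * d → chkEdge τ d n RL Q P Qr par gen pe (toV C K T) e = true := by
  have hb0 : ∀ f, f < n * d → maskOK M CK (lookI f f T).2.2.1 = true ∧ maskOK M CK (lookI f f T).2.2.2 = true := by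
    intro f hf
    have h := hall f hf
    unfold chkEdgeG at h
    rw [elimI_eq] at h
    cases h1 : maskOK M CK (lookI f f T).2.2.1 with
    | false =>
      rw [h1, bcond_false] at h
      exact Bool.noConfusion h
    | true =>
      rw [h1, bcond_true] at h
      cases h2 : maskOK M CK (lookI f f T).2.2.2 with
      | false =>
        rw [h2, bcond_false] at h
        exact Bool.noConfusion h
      | true => exact ⟨rfl, rfl⟩
  have hb : ∀ f, f < n * d → GoodD C B K (lookI f f T).2.2.1 ∧ GoodD C B K (lookI f f T).2.2.2 :=
    fun f hf => ⟨hG _ (hb0 f hf).1, hG _ (hb0 f hf).2⟩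
  intro e he
  have h := hall e he
  obtain ⟨hb1, hb2⟩ := hb e he
  unfold chkEdgeG at h
  rw [elimI_eq, (hb0 e he).1, (hb0 e he).2, bcond_true, bcond_true] at h
  unfold chkEdge
  rw [elimN_eq]
  obtain ⟨r1, r2, _⟩ := look_rel C K e e T
  have hv := look_getG e hb1 hb2
  rw [r1, r2]
  generalize hv2 : (lookV e e (toV C K T)).2.2 = v at hv ⊢
  generalize (lookI e e T).1 = rk at h ⊢
  generalize (lookI e e T).2.1 = jt at h ⊢
  generalize hp : (lookI e e T).2.2.1 = p at h hv
  generalize hm : (lookI e e T).2.2.2 = m at h hv
  cases h0 : Nat.beq rk 0 with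
  | true =>
    rw [h0, bcond_true] at h
    rw [bcond_true]
    cases h1 : Nat.blt jt n with
    | true =>
      rw [h1, bcond_true] at h
      rw [bcond_true]
      cases h2 : Nat.blt 0 jt with
      | false =>
        rw [h2, bcond_false] at h
        exact Bool.noConfusion h
      | true =>
        rw [h2, bcond_true] at h
        rw [bcond_true]
        cases h3 : Nat.beq (treeE d par gen jt) e with
        | false =>
          rw [h3, bcond_false] at h
          exact Bool.noConfusion h
        | true =>
          rw [h3, bcond_true] at h
          rw [bcond_true]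
          cases h4 : Nat.beq p 0 with
          | false =>
            rw [h4, bcond_false] at h
            exact Bool.noConfusion h
          | true =>
            rw [h4, bcond_true] at h
            have e1 : p = 0 := Nat.eq_of_beq_eq_true h4
            have e2 : m = 0 := Nat.eq_of_beq_eq_true h
            apply vzero_of
            intro j
            rw [hv, e1, e2, dig_zero_left]
            simp
    | false =>
      rw [h1, bcond_false] at h
      rw [bcond_false]
      cases h2 : Nat.blt (jt - n) P with
      | false =>
        rw [h2, bcond_false] at h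
        exact Bool.noConfusion h
      | true =>
        rw [h2, bcond_true] at h
        rw [bcond_true]
        cases h3 : Nat.beq (pe (jt - n)) e with
        | false =>
          rw [h3, bcond_false] at h
          exact Bool.noConfusion h
        | true =>
          rw [h3, bcond_true] at h
          rw [bcond_true]
          cases h4 : Nat.beq p (Nat.pow C (jt - n)) with
          | false =>
            rw [h4, bcond_false] at h
            exact Bool.noConfusion h
          | true =>
            rw [h4, bcond_true] at h
            have e1 : p = C ^ (jt - n) := Nat.eq_of_beq_eq_true h4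
            have e2 : m = 0 := Nat.eq_of_beq_eq_true h
            apply vzero_of
            intro j
            rw [vsub_getD, hv, e1, e2, dig_zero_left, dig_pow hC, unitV_getD]
            split_ifs <;> simp
  | false =>
    rw [h0, bcond_false] at h
    rw [bcond_false]
    rw [fN_eq, fN_eq] at h ⊢
    generalize hq : Nat.mod jt Q = q at h ⊢
    generalize hi : Nat.div jt Q = i at h ⊢
    cases h1 : Nat.blt i n with
    | false =>
      rw [h1, bcond_false, bcond_false] at h
      exact Bool.noConfusion h
    | true =>
      rw [h1, bcond_true] at h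
      rw [bcond_true]
      cases h2 : Nat.blt q Q with
      | false =>
        rw [h2, bcond_false] at h
        exact Bool.noConfusion h
      | true =>
        rw [h2, bcond_true] at h
        rw [bcond_true]
        have hi' : i < n := Nat.le_of_ble_eq_true h1
        have hq' : q < Q := Nat.le_of_ble_eq_true h2
        refine sim_walkG (k := 0) (pos := 0) (neg := 0) (by omega) hb hτ _ (hW q hq') i hi' _ _ _ _ (InvF_zero C B) ?_ ?_ h
        · rw [zero_add]
          exact lt_of_le_of_lt (Nat.mul_le_mul_right _ (by omega)) (hL q hq')
        · rw [zero_add]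
          intro pos neg acc net hinv hK
          have hbnd : (lg [] RL q).length * B + B < C := by
            have := hL q hq'
            rwa [add_mul, one_mul] at this
          cases hc : (bcond (Nat.blt q Qr) (Nat.beq pos (Nat.add neg (Nat.pow C (Nat.add P q)))) (Nat.beq pos neg)) with
          | false =>
            rw [hc, bcond_false] at hK
            exact Bool.noConfusion hK
          | true =>
            rw [hc, bcond_true] at hK
            obtain ⟨i1, i2, i3⟩ := hinv
            have hz : vzero (tgt P Qr q acc) = true := by
              unfold tgt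
              cases h3 : Nat.blt q Qr with
              | true =>
                rw [h3, bcond_true] at hc
                rw [bcond_true]
                have e1 : pos = neg + C ^ (P + q) := Nat.eq_of_beq_eq_true hc
                apply vzero_of
                intro j
                have e2 : dig C (neg + C ^ (P + q)) j = dig C neg j + dig C (C ^ (P + q)) j := by
                  apply dig_add (by omega)
                  intro a _
                  rw [dig_pow hC]
                  have := i2 a
                  have : 1 ≤ B ∨ B = 0 := by omega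
                  rcases this with h5 | h5
                  · split_ifs <;> omega
                  · have h6 : (lg [] RL q).length * B = 0 := by rw [h5, mul_zero]
                    have h7 := i2 a
                    rw [h6] at h7
                    split_ifs <;> omega
                rw [vsub_getD, i3, e1, e2, dig_pow hC, unitV_getD]
                split_ifs <;> simp
              | false =>
                rw [h3, bcond_false] at hc
                rw [bcond_false]
                have e1 : pos = neg := Nat.eq_of_beq_eq_true hc
                apply vzero_of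
                intro j
                rw [i3, e1]
                simp
            rw [hz, bcond_true]
            exact hK


end Cfsg.Agent.Lib.KnownSimple.MultC
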