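import Cfsg.Agent.Lib.KnownSimple.MultC.ValG

/-!
# Schur multipliers: a fast test of the relations on packed tables
-/

set_option autoImplicit false

namespace Cfsg.Agent.Lib.KnownSimple.MultC

open Cfsg Cfsg.Agent.Lib.Compute

/-- The test of a relation on a packed table; the value is given by two numbers. -/
noncomputable def chkRowG (τ : ℕ → ℕ → ℕ) (d n : ℕ) (RL : List (List ℕ)) (Q E Rb : ℕ) (T : ZI) (x : ℕ × ℕ × ℕ × ℕ) : Bool :=
  bcond (bcond (Nat.blt x.1 n) (Nat.blt x.2.1 Q) false)
    (wkF τ d T E Rb (lg [] RL x.2.1) x.1 0 0 0 fun pos neg net =>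
      bcond (decide (net = 0)) (Nat.beq (Nat.add pos x.2.2.2) (Nat.add neg x.2.2.1)) false)
    false

/-- The digits of the values of a table, from the test of the edges. -/
theorem mask_of_hall {C M CK : ℕ} {τ : ℕ → ℕ → ℕ} {d n : ℕ} {RL : List (List ℕ)} {Q P Qr : ℕ}
    {par gen pe : ℕ → ℕ} {T : ZI}
    (hall : ∀ e, e < n * d → chkEdgeG C M CK τ d n RL Q P Qr par gen pe T e = true) :
    ∀ f, f < n * d → maskOK M CK (lookI f f T).2.2.1 = true ∧ maskOK M CK (lookI f f T).2.2.2 = true := by
  intro f hf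
  have h := hall f hf
  unfold chkEdgeG at h
  rw [elimI_eq] at h
  cases h1 : maskOK M CK (lookI f f T).2.2.1 with
  | false =>
    rw [h1, bcond_false] at h
    exact Bool.noConfusion h
  | true =>
    rw [h1, bcond_true] at h
    cases h2 : maskOK M CK (lookI f f T).2.2.2 with
    | false =>
      rw [h2, bcond_false] at h
      exact Bool.noConfusion h
    | true => exact ⟨rfl, rfl⟩

theorem chkRow_of_G1 {C B K M CK : ℕ} (hC : 1 < C) (hG : ∀ x, maskOK M CK x = true → GoodD C B K x) {τ : ℕ → ℕ → ℕ} {d n : ℕ}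
    {RL : List (List ℕ)} {Q E Rb : ℕ} {T : ZI} (hτ : ∀ l i, l < 2 * d → i < n → τ l i < n)
    (hW : ∀ q, q < Q → ∀ l ∈ lg [] RL q, l < 2 * d) (hL : ∀ q, q < Q → ((lg [] RL q).length + 1) * B < C)
    (hb0 : ∀ f, f < n * d → maskOK M CK (lookI f f T).2.2.1 = true ∧ maskOK M CK (lookI f f T).2.2.2 = true)
    (x : ℕ × ℕ × ℕ × ℕ) (hp : maskOK M CK x.2.2.1 = true) (hm : maskOK M CK x.2.2.2 = true)
    (h : chkRowG τ d n RL Q E Rb T x = true) :
    chkRow τ d n RL Q E Rb (toV C K T) (x.1, x.2.1, decV C K x.2.2.1 x.2.2.2) = true := by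
  have hb : ∀ f, f < n * d → GoodD C B K (lookI f f T).2.2.1 ∧ GoodD C B K (lookI f f T).2.2.2 :=
    fun f hf => ⟨hG _ (hb0 f hf).1, hG _ (hb0 f hf).2⟩
  obtain ⟨i, q, p, m⟩ := x
  simp only at hp hm h ⊢
  unfold chkRowG at h
  unfold chkRow
  simp only at h ⊢
  cases h1 : Nat.blt i n with
  | false =>
    rw [h1, bcond_false, bcond_false] at h
    exact Bool.noConfusion h
  | true =>
    rw [h1, bcond_true] at h
    rw [bcond_true]
    cases h2 : Nat.blt q Q with
    | false =>
      rw [h2, bcond_false] at h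
      exact Bool.noConfusion h
    | true =>
      rw [h2, bcond_true] at h
      rw [bcond_true]
      have hi' : i < n := Nat.le_of_ble_eq_true h1
      have hq' : q < Q := Nat.le_of_ble_eq_true h2
      have gp := hG _ hp
      have gm := hG _ hm
      refine sim_walkG (k := 0) (pos := 0) (neg := 0) (by omega) hb hτ _ (hW q hq') i hi' _ _ _ _ (InvF_zero C B) ?_ ?_ h
      · rw [zero_add]
        exact lt_of_le_of_lt (Nat.mul_le_mul_right _ (by omega)) (hL q hq')
      · rw [zero_add]
        intro pos neg acc net hinv hK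
        have hbnd : (lg [] RL q).length * B + B < C := by
          have := hL q hq'
          rwa [add_mul, one_mul] at this
        cases hc : decide (net = 0) with
        | false =>
          rw [hc, bcond_false] at hK
          exact Bool.noConfusion hK
        | true =>
          rw [hc, bcond_true] at hK
          rw [bcond_true]
          obtain ⟨i1, i2, i3⟩ := hinv
          have e1 : pos + m = neg + p := Nat.eq_of_beq_eq_true hK
          apply vzero_of
          intro j
          have e2 : dig C (pos + m) j = dig C pos j + dig C m j :=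
            dig_add (by omega) _ _ _ (fun a _ => by have := i1 a; have := gm.1 a; omega)
          have e3 : dig C (neg + p) j = dig C neg j + dig C p j :=
            dig_add (by omega) _ _ _ (fun a _ => by have := i2 a; have := gp.1 a; omega)
          have e4 : dig C pos j + dig C m j = dig C neg j + dig C p j := by
            rw [← e2, ← e3, e1]
          rw [vsub_getD, i3, decV_getD K _ _ gp.2 gm.2 j]
          omega

/-- The test of the relations from the packed test. -/
theorem chkRow_of_G {C B K M CK : ℕ} (hC : 1 < C) (hG : ∀ x, maskOK M CK x = true → GoodD C B K x) {τ : ℕ → ℕ → ℕ} {d n : ℕ}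
    {RL : List (List ℕ)} {Q P Qr Rb : ℕ} {par gen pe : ℕ → ℕ} {T : ZI} (hτ : ∀ l i, l < 2 * d → i < n → τ l i < n)
    (hW : ∀ q, q < Q → ∀ l ∈ lg [] RL q, l < 2 * d) (hL : ∀ q, q < Q → ((lg [] RL q).length + 1) * B < C)
    (hall : ∀ e, e < n * d → chkEdgeG C M CK τ d n RL Q P Qr par gen pe T e = true)
    (rowsP : List (ℕ × ℕ × ℕ × ℕ)) (rows : List (ℕ × ℕ × List ℤ))
    (hr : (rowsP.map fun x => (x.1, x.2.1, decV C K x.2.2.1 x.2.2.2)) = rows)
    (hm : (rowsP.all fun x => bcond (maskOK M CK x.2.2.1) (maskOK M CK x.2.2.2) false) = true)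
    (hc : (rowsP.all (chkRowG τ d n RL Q (n * d) Rb T)) = true) :
    ∀ x ∈ rows, chkRow τ d n RL Q (n * d) Rb (toV C K T) x = true := by
  subst hr
  intro x hx
  obtain ⟨y, hy, rfl⟩ := List.mem_map.1 hx
  have h1 := List.all_eq_true.1 hm y hy
  have h2 := List.all_eq_true.1 hc y hy
  cases h3 : maskOK M CK y.2.2.1 with
  | false =>
    rw [h3, bcond_false] at h1
    exact Bool.noConfusion h1
  | true =>
    rw [h3, bcond_true] at h1
    exact chkRow_of_G1 hC hG hτ hW hL (mask_of_hall hall) y h3 h1 h2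

end Cfsg.Agent.Lib.KnownSimple.MultC
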